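import Mathlib
import Cfsg.Agent.S0205
import Cfsg.Agent.Lib.Balance.SigFamily
import Cfsg.Agent.Lib.Transfer.Abelian

/-!
Groups all of whose proper subgroups have abelian centralisers of noncentral elements: the working
form of the hypothesis, the solvable radical, and two criteria for centrality.
-/

set_option autoImplicit false
set_option linter.style.haveILetI false
set_option linter.unusedSectionVars false

namespace CfsgLib.MinimalNonCA

open Subgroup

variable {G : Type*} [Group G]

/-- In every proper subgroup, an element with a nonabelian centralizer is central. -/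
def ProperCA (G : Type*) [Group G] : Prop :=
  ∀ H : Subgroup G, H ≠ ⊤ → ∀ a ∈ H, ∀ u ∈ H, ∀ v ∈ H, u * a = a * u → v * a = a * v →
    u * v ≠ v * u → ∀ b ∈ H, b * a = a * b

theorem properCA_of_forall (h : ∀ H : Subgroup G, H ≠ ⊤ → ∀ x : H, x ∉ Subgroup.center H →
    IsMulCommutative (Subgroup.centralizer ({x} : Set H))) : ProperCA G := by
  intro H hH a ha u hu v hv hua hva huv b hb
  by_contra hba
  have hx : (⟨a, ha⟩ : H) ∉ Subgroup.center H := fun hc =>
    hba (congrArg Subtype.val (mem_center_iff.1 hc ⟨b, hb⟩))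
  have := (h H hH _ hx).is_comm.comm
    ⟨⟨u, hu⟩, mem_centralizer_singleton_iff.2 (Subtype.ext hua)⟩
    ⟨⟨v, hv⟩, mem_centralizer_singleton_iff.2 (Subtype.ext hva)⟩
  exact huv (congrArg Subtype.val (congrArg Subtype.val this))

theorem ProperCA.comm (h : ProperCA G) {H : Subgroup G} (hH : H ≠ ⊤) {a b u v : G} (ha : a ∈ H)
    (hb : b ∈ H) (hab : b * a ≠ a * b) (hu : u ∈ H) (hv : v ∈ H) (hua : u * a = a * u)
    (hva : v * a = a * v) : u * v = v * u :=
  by_contra fun huv => hab (h H hH a ha u hu v hv hua hva huv b hb)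

theorem ProperCA.subgroup (h : ProperCA G) (L : Subgroup G) : ProperCA L := by
  intro H hH a ha u hu v hv hua hva huv b hb
  have hne : H.map L.subtype ≠ ⊤ := by
    intro e
    refine hH ((Subgroup.eq_top_iff' _).2 fun l => ?_)
    obtain ⟨k, hk, hkl⟩ := (e ▸ mem_top (l : G) : (l : G) ∈ H.map L.subtype)
    rwa [← Subtype.ext (hkl : (k : G) = (l : G))]
  exact Subtype.ext (h _ hne a ⟨a, ha, rfl⟩ u ⟨u, hu, rfl⟩ v ⟨v, hv, rfl⟩
    (congrArg Subtype.val hua) (congrArg Subtype.val hva) (fun e => huv (Subtype.ext e)) b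
    ⟨b, hb, rfl⟩)

/-- A homomorphism from a perfect group to an abelian group is trivial. -/
theorem hom_eq_one_of_perfect (hp : commutator G = ⊤) {A : Type*} [Group A]
    (f : G →* A) (hA : ∀ x y : G, f x * f y = f y * f x) (g : G) : f g = 1 := by
  have h : commutator G ≤ f.ker := by
    rw [commutator_def, Subgroup.commutator_le]
    intro x _ y _
    rw [MonoidHom.mem_ker, map_commutatorElement, commutatorElement_eq_one_iff_mul_comm]
    exact hA x y
  rw [hp] at h
  exact MonoidHom.mem_ker.1 (h (mem_top g))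

theorem ne_top_of_isSolvable (hns : ¬ Group.IsSolvable G) (H : Subgroup G) [Group.IsSolvable H] :
    H ≠ ⊤ := fun e => hns (by
  subst e
  exact Group.isSolvable_of_surjective (f := (Subgroup.topEquiv : (⊤ : Subgroup G) ≃* G).toMonoidHom)
    (MulEquiv.surjective _))

/-- A perfect solvable group is trivial. -/
theorem subsingleton_of_perfect_solvable (hp : commutator G = ⊤) [hs : Group.IsSolvable G] :
    ∀ g : G, g = 1 := by
  intro g
  by_contra hg
  haveI : Nontrivial G := ⟨g, 1, hg⟩
  exact (ne_of_lt (Group.IsSolvable.commutator_lt_top_of_nontrivial G)) hp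

/-- If `R ⊔ H = ⊤` with `R` normal in a perfect group, then already `R ⊔ ⁅H, H⁆ = ⊤`. -/
theorem sup_commutator_eq_top (hp : commutator G = ⊤) {R H : Subgroup G} [R.Normal]
    (h : R ⊔ H = ⊤) : R ⊔ ⁅H, H⁆ = ⊤ := by
  have hsurj : H.map (QuotientGroup.mk' R) = ⊤ := by
    have e := congrArg (Subgroup.map (QuotientGroup.mk' R)) h
    rwa [Subgroup.map_sup, QuotientGroup.map_mk'_self, bot_sup_eq,
      Subgroup.map_top_of_surjective _ (QuotientGroup.mk'_surjective R)] at e
  have hc : (⁅H, H⁆ : Subgroup G).map (QuotientGroup.mk' R) = ⊤ := by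
    rw [Subgroup.map_commutator, hsurj,
      ← Subgroup.map_top_of_surjective _ (QuotientGroup.mk'_surjective R), ← Subgroup.map_commutator,
      ← commutator_def, hp]
  have := congrArg (Subgroup.comap (QuotientGroup.mk' R)) hc
  rwa [Subgroup.comap_map_eq, QuotientGroup.ker_mk', Subgroup.comap_top, sup_comm] at this

variable [Finite G]

/-- There is a largest normal solvable subgroup. -/
theorem exists_radical : ∃ R : Subgroup G, R.Normal ∧ Group.IsSolvable R ∧
    ∀ N : Subgroup G, N.Normal → Group.IsSolvable N → N ≤ R := by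
  classical
  obtain ⟨R, -, hR⟩ := Finite.exists_le_maximal
    (p := fun R : Subgroup G => R.Normal ∧ Group.IsSolvable R) (a := ⊥)
    ⟨inferInstance, inferInstance⟩
  refine ⟨R, hR.1.1, hR.1.2, fun N hN hNs => ?_⟩
  haveI := hR.1.1
  haveI := hR.1.2
  haveI := hN
  haveI := hNs
  have hs : Group.IsSolvable ↥(R ⊔ N) :=
    Balance.isSolvable_sup (le_top.trans (Subgroup.normalizer_eq_top (H := R)).ge)
  exact le_sup_right.trans (hR.2 ⟨Subgroup.sup_normal R N, hs⟩ le_sup_left)

theorem isSolvable_sup_normal (R H : Subgroup G) [R.Normal] [Group.IsSolvable R]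
    [Group.IsSolvable H] : Group.IsSolvable ↥(R ⊔ H) :=
  Balance.isSolvable_sup (le_top.trans (Subgroup.normalizer_eq_top (H := R)).ge)

/-- A group whose solvable subgroups are all abelian is solvable. -/
theorem isSolvable_of_solvable_comm
    (h : ∀ X : Subgroup G, Group.IsSolvable X → ∀ u ∈ X, ∀ v ∈ X, u * v = v * u) :
    Group.IsSolvable G := by
  classical
  haveI : Fact (Nat.Prime 2) := ⟨Nat.prime_two⟩
  obtain ⟨S⟩ : Nonempty (Sylow 2 G) := inferInstance
  set N := Subgroup.normalizer ((S : Subgroup G) : Set G)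
  have hsn : (S : Subgroup G) ≤ N := Subgroup.le_normalizer
  haveI : ((S : Subgroup G).subgroupOf N).Normal :=
    (Subgroup.normal_subgroupOf_iff_le_normalizer hsn).2 le_rfl
  have hodd : Odd (Nat.card (N ⧸ (S : Subgroup G).subgroupOf N)) := by
    rw [← Subgroup.index_eq_card, ← Subgroup.relIndex, Nat.odd_iff]
    have := S.not_dvd_index
    have hd := Subgroup.relIndex_dvd_index_of_le hsn
    have : ¬ 2 ∣ (S : Subgroup G).relIndex N := fun e => this (e.trans hd)
    omega
  haveI : Group.IsNilpotent (S : Subgroup G) := S.isPGroup'.isNilpotent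
  haveI : Group.IsSolvable ((S : Subgroup G).subgroupOf N) :=
    Group.isSolvable_of_surjective (f := (Subgroup.subgroupOfEquivOfLe hsn).symm.toMonoidHom)
      (MulEquiv.surjective _)
  haveI := Cfsg.Agent.S0205.result hodd
  have hNs : Group.IsSolvable N :=
    (Group.isSolvable_iff_subgroup_quotient ((S : Subgroup G).subgroupOf N)).2
      ⟨inferInstance, inferInstance⟩
  have hNC : N ≤ Subgroup.centralizer ((S : Subgroup G) : Set G) := fun n hn =>
    Subgroup.mem_centralizer_iff.2 fun s hs => h N hNs s (hsn hs) n hn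
  obtain ⟨P, K, hK, hKP⟩ := CfsgLib.Transfer.hasNormalPComplement_of_le_centralizer S hNC
  haveI := hK
  have hKodd : Odd (Nat.card K) := by
    have h1 : (P : Subgroup G).index = Nat.card K := by
      rw [hKP.index_eq_card]
    have := P.not_dvd_index
    rw [h1] at this
    rw [Nat.odd_iff]; omega
  haveI := Cfsg.Agent.S0205.result hKodd
  haveI : Group.IsNilpotent (P : Subgroup G) := P.isPGroup'.isNilpotent
  haveI : Group.IsSolvable (G ⧸ K) :=
    Group.isSolvable_of_surjective (f := hKP.symm.QuotientMulEquiv.symm.toMonoidHom) (MulEquiv.surjective _)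
  exact (Group.isSolvable_iff_subgroup_quotient K).2 ⟨inferInstance, inferInstance⟩

/-- An element whose centralizer covers the group modulo a solvable normal subgroup is central. -/
theorem mem_center_of_centralizer_sup (h : ProperCA G) (hns : ¬ Group.IsSolvable G)
    (R : Subgroup G) [R.Normal] [Group.IsSolvable R] {z : G}
    (hz : R ⊔ Subgroup.centralizer ({z} : Set G) = ⊤) : z ∈ Subgroup.center G := by
  by_contra hzc
  set C := Subgroup.centralizer ({z} : Set G)
  have hzC : z ∈ C := mem_centralizer_singleton_iff.2 rfl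
  have hR : ¬ R ≤ C := fun e => hzc (mem_center_iff.2 fun g => by
    have : g ∈ C := by rw [← sup_eq_right.2 e, hz]; trivial
    exact mem_centralizer_singleton_iff.1 this)
  obtain ⟨r, hr, hrC⟩ := SetLike.not_le_iff_exists.1 hR
  -- solvable subgroups of `C` containing `z` are abelian
  have key : ∀ X : Subgroup G, X ≤ C → Group.IsSolvable X → ∀ u ∈ X, ∀ v ∈ X, u * v = v * u := by
    intro X hXC hXs u hu v hv
    haveI := hXs
    haveI : Group.IsSolvable (Subgroup.zpowers z) := by
      haveI : IsMulCommutative (Subgroup.zpowers z) := inferInstance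
      infer_instance
    haveI hX' : Group.IsSolvable ↥(Subgroup.zpowers z ⊔ X) :=
      Balance.isSolvable_sup fun x hx => by
        refine Subgroup.centralizer_le_normalizer _ (Subgroup.mem_centralizer_iff.2 fun y hy => ?_)
        obtain ⟨k, rfl⟩ := Subgroup.mem_zpowers_iff.1 hy
        exact (Commute.zpow_left (mem_centralizer_singleton_iff.1 (hXC hx)).symm k).eq
    haveI := isSolvable_sup_normal R (Subgroup.zpowers z ⊔ X)
    refine h.comm (ne_top_of_isSolvable hns (R ⊔ (Subgroup.zpowers z ⊔ X)))
      (a := z) (b := r) (mem_sup_right (mem_sup_left (mem_zpowers z))) (mem_sup_left hr)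
      (fun e => hrC (mem_centralizer_singleton_iff.2 e))
      (mem_sup_right (mem_sup_right hu)) (mem_sup_right (mem_sup_right hv))
      (mem_centralizer_singleton_iff.1 (hXC hu)) (mem_centralizer_singleton_iff.1 (hXC hv))
  haveI : Group.IsSolvable C := isSolvable_of_solvable_comm fun X hX u hu v hv => by
    haveI := hX
    exact Subtype.ext (key (X.map C.subtype) (Subgroup.map_subtype_le X)
      (Group.isSolvable_of_surjective (f := C.subtype.subgroupMap X) (C.subtype.subgroupMap_surjective X))
      u ⟨u, hu, rfl⟩ v ⟨v, hv, rfl⟩)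
  haveI := isSolvable_sup_normal R C
  exact ne_top_of_isSolvable hns _ hz

/-- The centralizer of a nontrivial perfect normal subgroup is the center. -/
theorem centralizer_perfect_le_center (h : ProperCA G) (X : Subgroup G) [hX : X.Normal]
    (hXp : commutator X = ⊤) (hX1 : X ≠ ⊥) :
    Subgroup.centralizer (X : Set G) ≤ Subgroup.center G := by
  classical
  intro a ha
  by_contra hac
  have hnil : ¬ Group.IsNilpotent X := fun e => by
    haveI := e
    obtain ⟨x, hx, hx1⟩ := X.bot_or_exists_ne_one.resolve_left hX1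
    exact hx1 (congrArg Subtype.val (subsingleton_of_perfect_solvable hXp ⟨x, hx⟩))
  obtain ⟨r, hr, P, hP⟩ : ∃ r : ℕ, r.Prime ∧ ∃ P : Sylow r X, ¬ (P : Subgroup X).Normal := by
    by_contra hcon
    push Not at hcon
    refine hnil (Group.isNilpotent_of_finite_tfae.out 0 3 |>.2 fun r hr P => ?_)
    exact hcon r hr.out P
  haveI : Fact r.Prime := ⟨hr⟩
  set H := Subgroup.normalizer (((P : Subgroup X).map X.subtype : Subgroup G) : Set G) with hH
  have hcov : H ⊔ X = ⊤ := Sylow.normalizer_sup_eq_top P
  have hHne : H ≠ ⊤ := fun e => hP (by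
    have hn : ((P : Subgroup X).map X.subtype).Normal := Subgroup.normalizer_eq_top_iff.1 e
    have := hn.comap X.subtype
    rwa [Subgroup.comap_map_eq_self_of_injective X.subtype_injective] at this)
  have hXa : ∀ x ∈ X, x * a = a * x := fun x hx => Subgroup.mem_centralizer_iff.1 ha x hx
  have haH : a ∈ H := Subgroup.centralizer_le_normalizer _ (Subgroup.mem_centralizer_iff.2
    fun y hy => hXa y (Subgroup.map_subtype_le _ hy))
  obtain ⟨b, hb, hab⟩ : ∃ b ∈ H, b * a ≠ a * b := by
    by_contra hcon
    push Not at hcon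
    refine hac (mem_center_iff.2 fun g => ?_)
    have hle : H ⊔ X ≤ Subgroup.centralizer ({a} : Set G) :=
      sup_le (fun y hy => mem_centralizer_singleton_iff.2 (hcon y hy))
        (fun y hy => mem_centralizer_singleton_iff.2 (hXa y hy))
    rw [hcov] at hle
    exact mem_centralizer_singleton_iff.1 (hle (mem_top g))
  have hNC : Subgroup.normalizer ((P : Subgroup X) : Set X) ≤
      Subgroup.centralizer ((P : Subgroup X) : Set X) := by
    have hmem : ∀ n ∈ Subgroup.normalizer ((P : Subgroup X) : Set X), (n : G) ∈ H := fun n hn =>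
      Subgroup.le_normalizer_map X.subtype (Subgroup.mem_map_of_mem X.subtype hn)
    intro n hn
    refine Subgroup.mem_centralizer_iff.2 fun s hs => Subtype.ext ?_
    exact h.comm hHne haH hb hab (hmem s (Subgroup.le_normalizer hs)) (hmem n hn)
      (hXa _ s.2) (hXa _ n.2)
  obtain ⟨Q, K, hK, hKQ⟩ := CfsgLib.Transfer.hasNormalPComplement_of_le_centralizer P hNC
  haveI := hK
  haveI : Group.IsNilpotent (Q : Subgroup X) := Q.isPGroup'.isNilpotent
  haveI : Group.IsSolvable (X ⧸ K) :=
    Group.isSolvable_of_surjective (f := hKQ.symm.QuotientMulEquiv.symm.toMonoidHom) (MulEquiv.surjective _)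
  have hq : commutator (X ⧸ K) = ⊤ := by
    rw [commutator_def, ← Subgroup.map_top_of_surjective _ (QuotientGroup.mk'_surjective K),
      ← Subgroup.map_commutator, ← commutator_def, hXp]
  have hKtop : K = ⊤ := (Subgroup.eq_top_iff' K).2 fun x =>
    (QuotientGroup.eq_one_iff x).1 (subsingleton_of_perfect_solvable hq (x : X ⧸ K))
  subst hKtop
  have : (Q : Subgroup X) = ⊥ := by
    have := hKQ.disjoint
    rwa [top_disjoint] at this
  apply hP
  have e : (P : Subgroup X) = ⊥ := by
    rw [← Subgroup.card_eq_one, P.card_eq_multiplicity, ← Q.card_eq_multiplicity, Subgroup.card_eq_one, this]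
  rw [e]; infer_instance

end CfsgLib.MinimalNonCA
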