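import Cfsg.Agent.Lib.MinimalNonCA.Minimal
import Cfsg.Agent.Lib.InvChar.BaerSuzuki
import Cfsg.Agent.Lib.SL2.Dickson.Minimal
import Cfsg.Agent.Lib.Cores.PCore

/-!
In a perfect group all of whose proper subgroups have abelian centralisers of noncentral elements
every solvable normal subgroup is central.
-/

set_option autoImplicit false
set_option linter.style.haveILetI false
set_option linter.unusedSectionVars false

open scoped commutatorElement

namespace CfsgLib.MinimalNonCA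

open Subgroup

variable {G : Type*} [Group G] [Finite G]

namespace Min

variable {N R : Subgroup G} {p : ℕ} (h : Min N R p)
include h

local notation "Z" => Subgroup.center G
local notation "B" => Subgroup.centralizer (N : Set G)
local notation "π" => QuotientGroup.mk' (Subgroup.center G)

theorem isSolvable : Group.IsSolvable N := by
  haveI := h.radS
  exact Group.isSolvable_of_isSolvable_injective (Subgroup.inclusion_injective h.le_rad)

theorem exists_two_element : ∃ (s : G) (n : ℕ), s ^ 2 ^ n = 1 ∧ s ∉ stab N := by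
  haveI : Fact (Nat.Prime 2) := ⟨Nat.prime_two⟩
  haveI := h.radN
  haveI := h.radS
  obtain ⟨S⟩ : Nonempty (Sylow 2 G) := inferInstance
  obtain ⟨s, hs, hsR⟩ : ∃ s ∈ (S : Subgroup G), s ∉ stab N := by
    by_contra hcon
    push Not at hcon
    have hle : (S : Subgroup G) ≤ R := fun s hs => h.stab_le_rad (hcon s hs)
    have hodd : Odd (Nat.card (G ⧸ R)) := by
      rw [← Subgroup.index_eq_card, Nat.odd_iff]
      have h1 := S.not_dvd_index
      have h2 := Subgroup.index_dvd_of_le hle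
      have : ¬ 2 ∣ R.index := fun e => h1 (e.trans h2)
      omega
    haveI := Cfsg.Agent.S0205.result hodd
    exact h.nsolv ((Group.isSolvable_iff_subgroup_quotient R).2 ⟨inferInstance, inferInstance⟩)
  obtain ⟨n, hn⟩ := IsPGroup.iff_orderOf.1 S.isPGroup' ⟨s, hs⟩
  refine ⟨s, n, ?_, hsR⟩
  have e := pow_orderOf_eq_one (⟨s, hs⟩ : (S : Subgroup G))
  rw [hn] at e
  exact congrArg Subtype.val e

theorem not_odd (hpo : Odd p) (h2 : ∀ M : Subgroup G, M.Normal → IsPGroup 2 M → M ≤ Z) : False := by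
  classical
  haveI : Fact (Nat.Prime 2) := ⟨Nat.prime_two⟩
  haveI := h.normal
  haveI := h.stab_normal
  haveI := h.isSolvable_stab
  haveI := h.radN
  haveI := h.radS
  haveI := h.isSolvable
  have hR := h.not_rad_le (Or.inr hpo)
  obtain ⟨s, n, hsn, hs⟩ := h.exists_two_element
  have hex : ∃ i, s ^ 2 ^ i ∈ stab N := ⟨n, by rw [hsn]; exact one_mem _⟩
  obtain ⟨j, hj⟩ := Nat.exists_eq_succ_of_ne_zero (n := Nat.find hex) (fun e => hs (by
    have := Nat.find_spec hex
    rwa [e, pow_zero, pow_one] at this))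
  set z := s ^ 2 ^ j with hzdef
  have hzK : z ∉ stab N := Nat.find_min hex (by omega)
  have hzz : z * z ∈ stab N := by
    have := Nat.find_spec hex
    rw [hj, pow_succ, pow_mul, pow_two] at this
    exact this
  have hzn : z ^ 2 ^ n = 1 := by rw [hzdef, ← pow_mul, mul_comm, pow_mul, hsn, one_pow]
  have hcop : (2 ^ n).Coprime p := (Nat.coprime_two_left.2 hpo).pow_left n
  have hz2 : z * z ∈ B := h.mem_B_of_mem_stab hzz hcop (by rw [← pow_two, ← pow_mul, mul_comm, pow_mul, hzn, one_pow])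
  have hzB : z ∉ B := fun e => hzK (h.centralizer_le_stab e)
  have hzc : (orderOf z).Coprime p := hcop.coprime_dvd_left (orderOf_dvd_of_pow_eq_one hzn)
  -- `z` inverts `N` modulo the center
  have hinv : ∀ a ∈ N, a * (z * a * z⁻¹) ∈ Z := fun a ha => by
    have hza := h.normal.conj_mem a ha z
    refine h.fpf hR hzc hzB (mul_mem ha hza) ?_
    have hzza : z * z * a * (z * z)⁻¹ = a := by
      rw [← mem_centralizer_iff.1 hz2 a ha, mul_inv_cancel_right]
    have e : z * (a * (z * a * z⁻¹)) * z⁻¹ * (a * (z * a * z⁻¹))⁻¹ =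
        z * a * z⁻¹ * (z * z * a * (z * z)⁻¹) * (z * a * z⁻¹)⁻¹ * a⁻¹ := by group
    rw [e, hzza]
    exact h.commutator_mem_center hza ha
  have hcomm : ∀ g : G, g * z * g⁻¹ * z⁻¹ ∈ stab N := by
    intro g
    refine mem_stab_iff.2 fun a ha => ?_
    rw [← mem_center_quotient_iff]
    have hπ : ∀ a ∈ N, π (z * a * z⁻¹) = (π a)⁻¹ := fun a ha =>
      eq_inv_of_mul_eq_one_right (by rw [← map_mul]; exact mem_center_quotient_iff.2 (hinv a ha))
    have hπ' : ∀ a ∈ N, π (z⁻¹ * a * z) = (π a)⁻¹ := by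
      intro a ha
      have h' := hπ (z⁻¹ * a * z) (by simpa using h.normal.conj_mem a ha z⁻¹)
      rw [show z * (z⁻¹ * a * z) * z⁻¹ = a by group] at h'
      rw [h', inv_inv]
    have e1 : g * z * g⁻¹ * z⁻¹ * a * (g * z * g⁻¹ * z⁻¹)⁻¹ =
        g * (z * (g⁻¹ * (z⁻¹ * a * z) * g) * z⁻¹) * g⁻¹ := by group
    have ha1 : g⁻¹ * (z⁻¹ * a * z) * g ∈ N := by
      simpa using h.normal.conj_mem _ (h.normal.conj_mem a ha z⁻¹) g⁻¹
    rw [e1, map_mul, map_mul, map_mul, hπ _ ha1]
    simp only [map_mul, map_inv] at hπ' ⊢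
    rw [hπ' a ha]
    group
  set M := stab N ⊔ Subgroup.zpowers z with hMdef
  haveI hMn : M.Normal := by
    refine ⟨fun m hm g => ?_⟩
    have hle : M ≤ M.comap (MulAut.conj g).toMonoidHom := by
      refine sup_le (fun b hb => mem_sup_left (h.stab_normal.conj_mem b hb g))
        (Subgroup.zpowers_le.2 ?_)
      show g * z * g⁻¹ ∈ M
      rw [show g * z * g⁻¹ = g * z * g⁻¹ * z⁻¹ * z by group]
      exact mul_mem (mem_sup_left (hcomm g)) (mem_sup_right (mem_zpowers z))
    exact hle hm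
  have hzM : z ∈ M := mem_sup_right (mem_zpowers z)
  have hzp : IsPGroup 2 (Subgroup.zpowers (⟨z, hzM⟩ : M)) := by
    obtain ⟨k, -, hk⟩ := (Nat.dvd_prime_pow Nat.prime_two).1 (orderOf_dvd_of_pow_eq_one hzn)
    exact IsPGroup.of_card (n := k) (by rw [Nat.card_zpowers, Subgroup.orderOf_mk, hk])
  obtain ⟨Q, hQ⟩ := hzp.exists_le_sylow
  set Qm := (Q : Subgroup M).map M.subtype
  have hzQ : z ∈ Qm := ⟨⟨z, hzM⟩, hQ (mem_zpowers _), rfl⟩
  set Nq := Subgroup.normalizer (Qm : Set G)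
  have hcov : R ⊔ Nq = ⊤ := top_unique <| by
    rw [← Sylow.normalizer_sup_eq_top Q]
    exact sup_le le_sup_right ((h.radMax M hMn (isSolvable_sup_normal _ _)).trans le_sup_left)
  -- `[n, z]` is central for `n` normalising `Qm`
  have hBc : ∀ u ∈ B, ∀ v ∈ B, u * v = v * u := fun u hu v hv =>
    centralizer_comm h.ca h.nsolv h.normal h.isSolvable h.ncentral hu hv
  have ht : ∀ n ∈ Nq, n * z * n⁻¹ * z⁻¹ ∈ Z := by
    intro n hn
    have hQt : n * z * n⁻¹ * z⁻¹ ∈ Qm :=
      mul_mem ((Subgroup.mem_normalizer_iff.1 hn z).1 hzQ) (inv_mem hzQ)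
    obtain ⟨k, hk⟩ := (Q.isPGroup'.map M.subtype) ⟨_, hQt⟩
    have hk' : (n * z * n⁻¹ * z⁻¹) ^ 2 ^ k = 1 := congrArg Subtype.val hk
    have htB : n * z * n⁻¹ * z⁻¹ ∈ B :=
      h.mem_B_of_mem_stab (hcomm n) ((Nat.coprime_two_left.2 hpo).pow_left k) hk'
    let B2 : Subgroup G :=
      { carrier := {b | b ∈ B ∧ ∃ k, b ^ 2 ^ k = 1}
        one_mem' := ⟨one_mem _, 0, by simp⟩
        mul_mem' := by
          rintro a b ⟨ha, i, hi⟩ ⟨hb, l, hl⟩
          refine ⟨mul_mem ha hb, i + l, ?_⟩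
          rw [(show Commute a b from hBc a ha b hb).mul_pow]
          have e1 : a ^ 2 ^ (i + l) = 1 := by rw [pow_add, pow_mul, hi, one_pow]
          have e2 : b ^ 2 ^ (i + l) = 1 := by rw [pow_add, mul_comm, pow_mul, hl, one_pow]
          rw [e1, e2, one_mul]
        inv_mem' := by
          rintro a ⟨ha, i, hi⟩
          exact ⟨inv_mem ha, i, by rw [inv_pow, hi, inv_one]⟩ }
    have hn2 : B2.Normal := ⟨fun b hb g =>
      ⟨(inferInstance : (B).Normal).conj_mem b hb.1 g, by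
        obtain ⟨i, hi⟩ := hb.2
        exact ⟨i, by rw [conj_pow, hi]; group⟩⟩⟩
    exact h2 B2 hn2 (fun b => by
      obtain ⟨i, hi⟩ := b.2.2
      exact ⟨i, Subtype.ext hi⟩) ⟨htB, k, hk'⟩
  have hC : ⁅Nq, Nq⁆ ≤ Subgroup.centralizer ({z} : Set G) := by
    refine Subgroup.commutator_le.2 fun n hn m hm => mem_centralizer_singleton_iff.2 ?_
    set tn := n * z * n⁻¹ * z⁻¹ with htn
    set tm := m * z * m⁻¹ * z⁻¹ with htm
    have cn : ∀ x, x * tn = tn * x := mem_center_iff.1 (ht n hn)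
    have cm : ∀ x, x * tm = tm * x := mem_center_iff.1 (ht m hm)
    have en : n * z * n⁻¹ = tn * z := by rw [htn]; group
    have em : m * z * m⁻¹ = tm * z := by rw [htm]; group
    have e1 : n * m * z * (n * m)⁻¹ = tn * tm * z := by
      calc n * m * z * (n * m)⁻¹ = n * (m * z * m⁻¹) * n⁻¹ := by group
        _ = n * tm * z * n⁻¹ := by rw [em]; group
        _ = tm * (n * z * n⁻¹) := by rw [cm n]; group
        _ = tn * tm * z := by rw [en, ← mul_assoc, cn tm]
    have e2 : m * n * z * (m * n)⁻¹ = tn * tm * z := by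
      calc m * n * z * (m * n)⁻¹ = m * (n * z * n⁻¹) * m⁻¹ := by group
        _ = m * tn * z * m⁻¹ := by rw [en]; group
        _ = tn * (m * z * m⁻¹) := by rw [cn m]; group
        _ = tn * tm * z := by rw [em, ← mul_assoc]
    have hu : ⁅n, m⁆ * (tn * tm * z) * ⁅n, m⁆⁻¹ = tn * tm * z := by
      conv_lhs => rw [← e2]
      rw [commutatorElement_def]
      conv_rhs => rw [← e1]
      group
    have hc : ⁅n, m⁆ * (tn * tm) = tn * tm * ⁅n, m⁆ := by
      rw [← mul_assoc, cn ⁅n, m⁆, mul_assoc, cm ⁅n, m⁆, ← mul_assoc]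
    have : tn * tm * (⁅n, m⁆ * z * ⁅n, m⁆⁻¹) = tn * tm * z := by
      conv_rhs => rw [← hu]
      rw [← mul_assoc ⁅n, m⁆ (tn * tm) z, hc]
      group
    exact mul_inv_eq_iff_eq_mul.1 (mul_left_cancel this)
  have hzc' := mem_center_of_centralizer_sup h.ca h.nsolv R (z := z) (top_unique <| by
    rw [← sup_commutator_eq_top h.perfect hcov]
    exact sup_le le_sup_left (hC.trans le_sup_right))
  exact hzB (mem_centralizer_iff.2 fun a _ => mem_center_iff.1 hzc' a)


/-- Commutation of a fixed point of `g` with `N` passes to `g`. -/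
theorem comm_of_fixed (hN : ¬ N ≤ B) {g a : G} (hga : g * a = a * g) (ha : a ∈ N) (hac : a ∉ Z)
    {v : G} (hv : v ∈ N) (hva : v * a = a * v) : g * v = v * g := by
  haveI := h.normal
  haveI := h.isSolvable
  obtain ⟨b, hb, hab⟩ : ∃ b ∈ N, b * a ≠ a * b := by
    by_contra hcon
    push Not at hcon
    rcases h.eq_or_le (M := N ⊓ B) inferInstance inf_le_left with e | e
    · exact hN (e.ge.trans inf_le_right)
    · exact hac (e ⟨ha, mem_centralizer_iff.2 hcon⟩)
  haveI := isSolvable_sup_normal N (Subgroup.zpowers g)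
  exact h.ca.comm (ne_top_of_isSolvable h.nsolv (N ⊔ Subgroup.zpowers g)) (a := a) (b := b)
    (mem_sup_left ha) (mem_sup_left hb) hab (mem_sup_right (mem_zpowers g)) (mem_sup_left hv) hga hva

/-- The conjugation action of `G` on `N` modulo the center. -/
noncomputable def actN : G →* MulAut ↥(N.map π) :=
  haveI : (N.map π).Normal := Subgroup.Normal.map h.normal _ (QuotientGroup.mk'_surjective _)
  (MulAut.conjNormal (H := N.map π)).comp π

theorem pCore_quotient_eq_bot (hp2 : p = 2) [(stab N).Normal] :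
    Cfsg.pCore 2 (G ⧸ stab N) = ⊥ := by
  subst hp2
  haveI : Fact (Nat.Prime 2) := ⟨Nat.prime_two⟩
  haveI := h.normal
  haveI hVn : (N.map π).Normal := Subgroup.Normal.map h.normal _ (QuotientGroup.mk'_surjective _)
  have hker : stab N ≤ (h.actN).ker := fun k hk => MonoidHom.mem_ker.2 (MulEquiv.ext fun v => Subtype.ext (by
    show π k * (v : G ⧸ Z) * (π k)⁻¹ = v
    rw [← mem_centralizer_iff.1 hk v v.2, mul_inv_cancel_right]))
  let Φ := QuotientGroup.lift (stab N) h.actN hker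
  set U := Cfsg.pCore 2 (G ⧸ stab N)
  have hU : IsPGroup 2 U := CfsgLib.Cores.isPGroup_pCore 2 _
  letI : MulAction U ↥(N.map π) := MulAction.compHom _ (Φ.comp U.subtype)
  obtain ⟨a, ha, hac⟩ := SetLike.not_le_iff_exists.1 h.ncentral
  have h2 : 2 ∣ Nat.card ↥(N.map π) := by
    have e : orderOf (⟨π a, a, ha, rfl⟩ : ↥(N.map π)) = 2 := orderOf_eq_prime
      (Subtype.ext (show π a ^ 2 = 1 by rw [← map_pow]; exact mem_center_quotient_iff.2 (h.pow_center a ha)))
      (fun e => hac (mem_center_quotient_iff.1 (congrArg Subtype.val e)))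
    rw [← e]; exact orderOf_dvd_natCard _
  have h1 : (1 : ↥(N.map π)) ∈ MulAction.fixedPoints U ↥(N.map π) := fun u => map_one (Φ u)
  obtain ⟨v, hv, hv1⟩ := hU.exists_fixed_point_of_prime_dvd_card_of_fixed_point _ h2 h1
  obtain ⟨b, hb, hbv⟩ := v.2
  set U' := U.comap (QuotientGroup.mk' (stab N))
  haveI : (U'.map π).Normal :=
    Subgroup.Normal.map (inferInstance : U'.Normal) _ (QuotientGroup.mk'_surjective _)
  have hbU : b ∈ (Subgroup.centralizer ((U'.map π : Subgroup (G ⧸ Z)) : Set (G ⧸ Z))).comap π := by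
    refine mem_centralizer_iff.2 ?_
    rintro _ ⟨u, hu, rfl⟩
    have e : π u * (v : G ⧸ Z) * (π u)⁻¹ = v := congrArg Subtype.val (hv ⟨_, hu⟩)
    rw [hbv]
    exact mul_inv_eq_iff_eq_mul.1 e
  rcases h.eq_or_le
      (M := N ⊓ (Subgroup.centralizer ((U'.map π : Subgroup (G ⧸ Z)) : Set (G ⧸ Z))).comap π)
      inferInstance inf_le_left with e | e
  · refine (Subgroup.eq_bot_iff_forall _).2 fun w hw => ?_
    obtain ⟨u, rfl⟩ := QuotientGroup.mk'_surjective (stab N) w
    refine (QuotientGroup.eq_one_iff u).2 (mem_stab_iff.2 fun c hc => ?_)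
    have hcu := mem_centralizer_iff.1 (mem_comap.1 (e.ge hc).2) (π u) ⟨u, hw, rfl⟩
    rw [← mem_center_quotient_iff, map_mul, map_mul, map_mul, map_inv, map_inv, hcu,
      mul_inv_cancel_right, mul_inv_cancel]
  · exact absurd (Subtype.ext (show (1 : G ⧸ Z) = (v : G ⧸ Z) by
      rw [← hbv, mem_center_quotient_iff.2 (e ⟨hb, hbU⟩)])) hv1

theorem exists_inverter (hp2 : p = 2) : ∃ (x q : G), x * x ∈ B ∧ x ∉ stab N ∧
    (orderOf q).Coprime 2 ∧ q * q ∉ B ∧ q * x * q⁻¹ * (q * q * x)⁻¹ ∈ stab N := by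
  classical
  haveI := h.normal
  haveI hKn := h.stab_normal
  haveI := h.isSolvable_stab
  haveI : Fact (Nat.Prime 2) := ⟨Nat.prime_two⟩
  have hR := h.not_rad_le (Or.inl hp2)
  set K := stab N
  have heven : 2 ∣ Nat.card (G ⧸ K) := by
    by_contra hodd
    haveI := Cfsg.Agent.S0205.result (G := G ⧸ K) (Nat.odd_iff.2 (by omega))
    exact h.nsolv ((Group.isSolvable_iff_subgroup_quotient K).2 ⟨inferInstance, inferInstance⟩)
  obtain ⟨a, ha⟩ := exists_prime_orderOf_dvd_card' (G := G ⧸ K) 2 heven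
  obtain ⟨y, hy, hodd, hne⟩ := InvChar.exists_conj_odd_orderOf_mul a ha (by
    rw [h.pCore_quotient_eq_bot hp2, Subgroup.mem_bot]
    intro e; rw [e, orderOf_one] at ha; omega)
  set b := a * y with hb
  have ha2 : a * a = 1 := by rw [← pow_two, ← ha, pow_orderOf_eq_one]
  have hy2 : y * y = 1 := by
    obtain ⟨g, rfl⟩ := isConj_iff.1 hy
    rw [show g * a * g⁻¹ * (g * a * g⁻¹) = g * (a * a) * g⁻¹ by group, ha2]; group
  have hai : a⁻¹ = a := inv_eq_of_mul_eq_one_right ha2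
  have hyi : y⁻¹ = y := inv_eq_of_mul_eq_one_right hy2
  have hinvb : ∀ i : ℤ, a * b ^ i * a = b ^ (-i) := by
    intro i
    have e : a * b * a⁻¹ = b⁻¹ := by
      rw [hb, ← mul_assoc a a y, ha2, one_mul, mul_inv_rev, hyi]
    calc a * b ^ i * a = a * b ^ i * a⁻¹ := by rw [hai]
      _ = (a * b * a⁻¹) ^ i := by rw [conj_zpow]
      _ = b ^ (-i) := by rw [e, inv_zpow, zpow_neg]
  obtain ⟨x0, hx0⟩ := QuotientGroup.mk'_surjective K a
  obtain ⟨h0, hh0⟩ := QuotientGroup.mk'_surjective K b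
  -- an element of odd prime power order
  set m := orderOf b
  obtain ⟨r, hr, hrm⟩ := Nat.exists_prime_and_dvd (n := m) (fun e => hne (orderOf_eq_one_iff.1 e))
  haveI : Fact r.Prime := ⟨hr⟩
  have hr2 : r ≠ 2 := fun e => Nat.not_even_iff_odd.2 hodd (even_iff_two_dvd.2 (e ▸ hrm))
  have ho : 0 < orderOf h0 := orderOf_pos h0
  have hcf : ¬ r ∣ orderOf h0 / r ^ (orderOf h0).factorization r :=
    Nat.not_dvd_ordCompl hr ho.ne'
  set c := orderOf h0 / r ^ (orderOf h0).factorization r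
  set q := h0 ^ c with hqdef
  have hqr : q ^ r ^ (orderOf h0).factorization r = 1 := by
    rw [hqdef, ← pow_mul, Nat.div_mul_cancel (Nat.ordProj_dvd _ _), pow_orderOf_eq_one]
  have hqK : q ∉ K := fun e => hcf (hrm.trans (orderOf_dvd_of_pow_eq_one (by
    rw [← hh0, ← map_pow]; exact (QuotientGroup.eq_one_iff _).2 e)))
  set M := K ⊔ Subgroup.zpowers h0 with hM
  have hqM : q ∈ M := mem_sup_right (pow_mem (mem_zpowers h0) c)
  have hMimg : ∀ w ∈ M, ∃ i : ℤ, QuotientGroup.mk' K w = b ^ i := by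
    intro w hw
    obtain ⟨k, hk, l, hl, rfl⟩ := Subgroup.mem_sup_of_normal_left.1 hw
    obtain ⟨i, rfl⟩ := Subgroup.mem_zpowers_iff.1 hl
    exact ⟨i, by rw [map_mul, show QuotientGroup.mk' K k = 1 from (QuotientGroup.eq_one_iff k).2 hk, one_mul, map_zpow, hh0]⟩
  have hx0M : ∀ w ∈ M, x0 * w * x0⁻¹ ∈ M := by
    intro w hw
    obtain ⟨i, hi⟩ := hMimg w hw
    have hk : x0 * w * x0⁻¹ * (h0 ^ (-i))⁻¹ ∈ K := by
      rw [← QuotientGroup.eq_one_iff]
      show QuotientGroup.mk' K _ = 1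
      rw [map_mul, map_mul, map_mul, map_inv, map_inv, map_zpow, hi, hx0, hh0, hai, hinvb,
        mul_inv_cancel]
    rw [show x0 * w * x0⁻¹ = x0 * w * x0⁻¹ * (h0 ^ (-i))⁻¹ * h0 ^ (-i) by group]
    exact mul_mem (mem_sup_left hk) (mem_sup_right (zpow_mem (mem_zpowers h0) _))
  have hqp : IsPGroup r (Subgroup.zpowers (⟨q, hqM⟩ : M)) := by
    obtain ⟨k, -, hk⟩ := (Nat.dvd_prime_pow hr).1 (orderOf_dvd_of_pow_eq_one hqr)
    exact IsPGroup.of_card (n := k) (by rw [Nat.card_zpowers, Subgroup.orderOf_mk, hk])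
  obtain ⟨Q, hQ⟩ := hqp.exists_le_sylow
  set Qm := (Q : Subgroup M).map M.subtype
  have hqQ : q ∈ Qm := ⟨⟨q, hqM⟩, hQ (mem_zpowers _), rfl⟩
  -- a preimage of `a` normalising `Qm`
  set Qx := Qm.map (MulAut.conj x0).toMonoidHom
  have hQxM : Qx ≤ M := by
    rintro _ ⟨s, hs, rfl⟩
    exact hx0M s (Subgroup.map_subtype_le _ hs)
  let Q' : Sylow r M := Sylow.ofCard (Qx.subgroupOf M) (by
    rw [Nat.card_congr (Subgroup.subgroupOfEquivOfLe hQxM).toEquiv,
      Subgroup.card_map_of_injective (MulEquiv.injective _),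
      Subgroup.card_map_of_injective M.subtype_injective, Q.card_eq_multiplicity])
  obtain ⟨m', hm'⟩ := MulAction.exists_smul_eq M Q' Q
  set x := (m' : G) * x0 with hxdef
  have hxN : ∀ s ∈ Qm, x * s * x⁻¹ ∈ Qm := by
    intro s hs
    have hs' : x0 * s * x0⁻¹ ∈ Qx := ⟨s, hs, rfl⟩
    have e : MulAut.conj m' ⟨x0 * s * x0⁻¹, hQxM hs'⟩ ∈ (Q : Subgroup M) := by
      rw [← hm', Sylow.coe_subgroup_smul]
      exact Subgroup.smul_mem_pointwise_smul _ _ _ (Subgroup.mem_subgroupOf.2 hs')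
    refine ⟨_, e, ?_⟩
    show (m' : G) * (x0 * s * x0⁻¹) * (m' : G)⁻¹ = x * s * x⁻¹
    rw [hxdef]; group
  obtain ⟨i, hi⟩ := hMimg m' m'.2
  have hxim : QuotientGroup.mk' K x = b ^ i * a := by rw [hxdef, map_mul, hi, hx0]
  have hinvx : ∀ k : ℤ, QuotientGroup.mk' K x * b ^ k * (QuotientGroup.mk' K x)⁻¹ = b ^ (-k) := by
    intro k
    rw [hxim, mul_inv_rev, hai, show b ^ i * a * b ^ k * (a * (b ^ i)⁻¹) =
      b ^ i * (a * b ^ k * a) * (b ^ i)⁻¹ by group, hinvb]
    group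
  have hxx : x * x ∈ K := by
    rw [← QuotientGroup.eq_one_iff]
    show QuotientGroup.mk' K (x * x) = 1
    rw [map_mul, hxim, show b ^ i * a * (b ^ i * a) = b ^ i * (a * b ^ i * a) by group, hinvb,
      ← zpow_add, add_neg_cancel, zpow_zero]
  obtain ⟨l, hl⟩ := hMimg q hqM
  have hqodd : (orderOf q).Coprime 2 :=
    (((Nat.coprime_primes hr Nat.prime_two).2 hr2).pow_left _).coprime_dvd_left
      (orderOf_dvd_of_pow_eq_one hqr)
  have hqqK : q * q ∉ K := by
    intro e
    apply hqK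
    obtain ⟨k, hk⟩ := Nat.coprime_two_right.1 hqodd
    have e1 : (q * q) ^ (k + 1) = q := by
      rw [← pow_two, ← pow_mul, show 2 * (k + 1) = orderOf q + 1 by omega, pow_succ,
        pow_orderOf_eq_one, one_mul]
    rw [← e1]; exact pow_mem e _
  refine ⟨x, q, ?_, ?_, hqodd, fun e => hqqK (h.centralizer_le_stab e), ?_⟩
  · -- `x * x` centralises `N`
    set w := x * x with hw
    have hwQ : ∀ s ∈ Qm, w * s * w⁻¹ ∈ Qm := fun s hs => by
      rw [show w * s * w⁻¹ = x * (x * s * x⁻¹) * x⁻¹ by rw [hw]; group]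
      exact hxN _ (hxN s hs)
    have htQ : w * q * w⁻¹ * q⁻¹ ∈ Qm := mul_mem (hwQ q hqQ) (inv_mem hqQ)
    have htK : w * q * w⁻¹ * q⁻¹ ∈ K := by
      rw [show w * q * w⁻¹ * q⁻¹ = w * (q * w⁻¹ * q⁻¹) by group]
      exact mul_mem hxx (hKn.conj_mem _ (inv_mem hxx) q)
    obtain ⟨k, hk⟩ := (Q.isPGroup'.map M.subtype) ⟨_, htQ⟩
    have htB : w * q * w⁻¹ * q⁻¹ ∈ B := h.mem_B_of_mem_stab htK
      (k := r ^ k) (by rw [hp2]; exact ((Nat.coprime_primes hr Nat.prime_two).2 hr2).pow_left k)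
      (congrArg Subtype.val hk)
    set t := w * q * w⁻¹ * q⁻¹ with htdef
    have hfix : ∀ a ∈ N, w * (q * a * q⁻¹ * a⁻¹) = q * a * q⁻¹ * a⁻¹ * w := by
      intro a ha
      set d := w * a * w⁻¹ * a⁻¹ with hd
      have hdc : ∀ u, u * d = d * u := mem_center_iff.1 (mem_stab_iff.1 hxx a ha)
      have hqa : q * a * q⁻¹ ∈ N := h.normal.conj_mem a ha q
      have e1 : w * (q * a * q⁻¹) * w⁻¹ = d * (q * a * q⁻¹) := by
        calc w * (q * a * q⁻¹) * w⁻¹ = t * q * (w * a * w⁻¹) * q⁻¹ * t⁻¹ := by rw [htdef]; group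
          _ = t * q * d * a * q⁻¹ * t⁻¹ := by rw [hd]; group
          _ = t * d * (q * a * q⁻¹) * t⁻¹ := by rw [mul_assoc t q d, hdc q]; group
          _ = d * (t * (q * a * q⁻¹)) * t⁻¹ := by rw [hdc t]; group
          _ = d * (q * a * q⁻¹) := by
              rw [← mem_centralizer_iff.1 htB _ hqa]; group
      have e2 : w * (q * a * q⁻¹ * a⁻¹) * w⁻¹ = q * a * q⁻¹ * a⁻¹ := by
        calc w * (q * a * q⁻¹ * a⁻¹) * w⁻¹ = w * (q * a * q⁻¹) * w⁻¹ * (w * a * w⁻¹)⁻¹ := by group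
          _ = d * (q * a * q⁻¹) * (d * a)⁻¹ := by rw [e1, hd]; group
          _ = d * (q * a * q⁻¹ * a⁻¹) * d⁻¹ := by group
          _ = q * a * q⁻¹ * a⁻¹ := by rw [← hdc (q * a * q⁻¹ * a⁻¹), mul_inv_cancel_right]
      exact mul_inv_eq_iff_eq_mul.1 e2
    haveI : (N.map π).Normal := Subgroup.Normal.map h.normal _ (QuotientGroup.mk'_surjective _)
    let f : ↥(N.map π) → ↥(N.map π) := fun v =>
      ⟨π q * v * (π q)⁻¹ * (v : G ⧸ Z)⁻¹,
        mul_mem ((inferInstance : (N.map π).Normal).conj_mem _ v.2 _) (inv_mem v.2)⟩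
    have hqB : q ∉ B := fun e => hqK (h.centralizer_le_stab e)
    have hfinj : Function.Injective f := by
      rintro ⟨v, a, ha, rfl⟩ ⟨v', a', ha', rfl⟩ e
      have e' : π q * π a * (π q)⁻¹ * (π a)⁻¹ = π q * π a' * (π q)⁻¹ * (π a')⁻¹ :=
        congrArg Subtype.val e
      refine Subtype.ext ?_
      show π a = π a'
      have hd : a'⁻¹ * a ∈ N := mul_mem (inv_mem ha') ha
      refine (inv_mul_eq_one.1 ?_).symm
      rw [← map_inv, ← map_mul]
      refine mem_center_quotient_iff.2 (h.fpf hR (by rw [hp2]; exact hqodd) hqB hd ?_)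
      rw [← mem_center_quotient_iff]
      have e3 : (π q * π a' * (π q)⁻¹)⁻¹ * (π q * π a * (π q)⁻¹) = (π a')⁻¹ * π a := by
        rw [show π q * π a * (π q)⁻¹ = π q * π a * (π q)⁻¹ * (π a)⁻¹ * π a by group, e']
        group
      simp only [map_mul, map_inv] at e3 ⊢
      rw [show π q * ((π a')⁻¹ * π a) * (π q)⁻¹ =
        (π q * π a' * (π q)⁻¹)⁻¹ * (π q * π a * (π q)⁻¹) by group, e3, mul_inv_cancel]
    refine mem_centralizer_iff.2 fun a ha => Eq.symm ?_
    obtain ⟨⟨_, a', ha', rfl⟩, e⟩ := Finite.injective_iff_surjective.1 hfinj ⟨π a, a, ha, rfl⟩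
    have e' : π (q * a' * q⁻¹ * a'⁻¹) = π a := by
      simp only [map_mul, map_inv]
      exact congrArg Subtype.val e
    have hz : (q * a' * q⁻¹ * a'⁻¹)⁻¹ * a ∈ Z := by
      rw [← mem_center_quotient_iff, map_mul, map_inv, e', inv_mul_cancel]
    calc w * a = w * (q * a' * q⁻¹ * a'⁻¹) * ((q * a' * q⁻¹ * a'⁻¹)⁻¹ * a) := by group
      _ = q * a' * q⁻¹ * a'⁻¹ * (w * ((q * a' * q⁻¹ * a'⁻¹)⁻¹ * a)) := by rw [hfix a' ha']; group
      _ = a * w := by rw [mem_center_iff.1 hz w]; group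
  · intro e
    apply hqqK
    have e1 := hinvx l
    rw [← hl, show QuotientGroup.mk' K x = 1 from (QuotientGroup.eq_one_iff x).2 e] at e1
    rw [← QuotientGroup.eq_one_iff]
    show QuotientGroup.mk' K (q * q) = 1
    have e2 : QuotientGroup.mk' K q = b ^ (-l) := by simpa using e1
    rw [map_mul]
    nth_rw 1 [e2]
    rw [hl, ← zpow_add, neg_add_cancel, zpow_zero]
  · rw [← QuotientGroup.eq_one_iff]
    show QuotientGroup.mk' K _ = 1
    have e1 := hinvx (-l)
    rw [zpow_neg, ← hl, neg_neg, ← hl] at e1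
    have e2 : QuotientGroup.mk' K x * (QuotientGroup.mk' K q)⁻¹ =
        QuotientGroup.mk' K q * QuotientGroup.mk' K x := mul_inv_eq_iff_eq_mul.1 e1
    simp only [map_mul, map_inv]
    rw [mul_assoc (QuotientGroup.mk' K q), e2, ← mul_assoc, mul_inv_cancel]

theorem not_two (hp2 : p = 2) : False := by
  classical
  haveI := h.normal
  haveI := h.stab_normal
  have hR := h.not_rad_le (Or.inl hp2)
  obtain ⟨x, q, hxx, hxK, hq, hqq, hy⟩ := h.exists_inverter hp2
  have hxB : x ∉ B := fun e => hxK (h.centralizer_le_stab e)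
  have hxxa : ∀ a ∈ N, x * x * a * (x * x)⁻¹ = a := fun a ha => by
    rw [← mem_centralizer_iff.1 hxx a ha, mul_inv_cancel_right]
  by_cases hN : N ≤ B
  · refine hxK (mem_stab_iff.2 fun a ha => ?_)
    have hxa := h.normal.conj_mem a ha x
    have hcm : x * a * x⁻¹ * a = a * (x * a * x⁻¹) := mem_centralizer_iff.1 (hN ha) _ hxa
    have hfix : x * (a * (x * a * x⁻¹)) = a * (x * a * x⁻¹) * x := by
      calc x * (a * (x * a * x⁻¹)) = x * a * x⁻¹ * (x * x * a * (x * x)⁻¹) * x := by group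
        _ = a * (x * a * x⁻¹) * x := by rw [hxxa a ha, hcm]
    have hc := h.fix_center hR hxB hN (mul_mem ha hxa) hfix
    have e : x * a * x⁻¹ * a⁻¹ = (a ^ 2)⁻¹ * (a * (x * a * x⁻¹)) := by
      rw [← mem_centralizer_iff.1 (hN hxa) a⁻¹ (inv_mem ha), pow_two]; group
    rw [e]
    exact mul_mem (inv_mem (by rw [← hp2]; exact h.pow_center a ha)) hc
  haveI hVn : (N.map π).Normal := Subgroup.Normal.map h.normal _ (QuotientGroup.mk'_surjective _)
  set V := N.map π with hV
  have hVc : ∀ u v : V, u * v = v * u := by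
    rintro ⟨_, a, ha, rfl⟩ ⟨_, b, hb, rfl⟩
    refine Subtype.ext ?_
    show π a * π b = π b * π a
    have := mem_center_quotient_iff.2 (h.commutator_mem_center ha hb)
    simp only [map_mul, map_inv] at this
    exact mul_inv_eq_iff_eq_mul.1 (mul_inv_eq_one.1 this)
  letI : CommGroup V := { (inferInstance : Group V) with mul_comm := hVc }
  let f : V →* V := MonoidHom.mk' (fun v => h.actN x v * v⁻¹) fun u v => by
    rw [map_mul, mul_inv, mul_mul_mul_comm]
  have hf : ∀ v : V, ((f v : V) : G ⧸ Z) = π x * v * (π x)⁻¹ * (v : G ⧸ Z)⁻¹ := fun v => rfl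
  have hexp : ∀ v : V, v⁻¹ = v := by
    rintro ⟨_, a, ha, rfl⟩
    refine Subtype.ext ?_
    show (π a)⁻¹ = π a
    rw [inv_eq_iff_mul_eq_one, ← pow_two, ← map_pow]
    exact mem_center_quotient_iff.2 (by rw [← hp2]; exact h.pow_center a ha)
  have hact2 : ∀ v : V, h.actN x (h.actN x v) = v := by
    rintro ⟨_, a, ha, rfl⟩
    refine Subtype.ext ?_
    show π x * (π x * π a * (π x)⁻¹) * (π x)⁻¹ = π a
    rw [← map_inv, ← map_mul, ← map_mul, ← map_mul, ← map_mul,
      show x * (x * a * x⁻¹) * x⁻¹ = x * x * a * (x * x)⁻¹ by group, hxxa a ha]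
  have hker : ∀ v, v ∈ f.ker ↔ h.actN x v = v := fun v => by
    rw [MonoidHom.mem_ker]
    exact mul_inv_eq_one
  have hrk : f.range ≤ f.ker := by
    rintro _ ⟨v, rfl⟩
    rw [hker]
    show h.actN x (h.actN x v * v⁻¹) = h.actN x v * v⁻¹
    rw [map_mul, hact2, map_inv, hexp, hexp, hVc]
  let ψ := h.actN q
  have hy' : h.actN (q * x * q⁻¹) = h.actN (q * q * x) := by
    rw [← mul_inv_eq_one, ← map_inv, ← map_mul]
    refine MulEquiv.ext fun v => Subtype.ext ?_
    show π _ * (v : G ⧸ Z) * (π _)⁻¹ = v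
    rw [← mem_centralizer_iff.1 hy v v.2, mul_inv_cancel_right]
  have hinter : ∀ v : V, h.actN x v = v → v ∈ f.ker.map ψ.toMonoidHom → v = 1 := by
    rintro v hv ⟨u, hu, rfl⟩
    rw [SetLike.mem_coe, hker] at hu
    have e1 : h.actN (q * x * q⁻¹) (ψ u) = ψ u := by
      rw [map_mul, map_mul, MulAut.mul_apply, MulAut.mul_apply, map_inv]
      show h.actN q (h.actN x (ψ⁻¹ (ψ u))) = ψ u
      rw [MulAut.inv_apply_self, hu]
    rw [hy', map_mul, MulAut.mul_apply] at e1
    have hv' : h.actN x (ψ u) = ψ u := hv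
    rw [hv'] at e1
    obtain ⟨a, ha, hau⟩ := (ψ u).2
    refine Subtype.ext ?_
    show ((ψ u : V) : G ⧸ Z) = 1
    rw [← hau]
    refine mem_center_quotient_iff.2 (h.fpf hR ?_ hqq ha ?_)
    · rw [hp2, ← pow_two]
      exact hq.coprime_dvd_left (orderOf_pow_dvd 2)
    · have e2 : π (q * q) * ((ψ u : V) : G ⧸ Z) * (π (q * q))⁻¹ = ((ψ u : V) : G ⧸ Z) :=
        congrArg Subtype.val e1
      rw [← mem_center_quotient_iff, map_mul, map_mul, map_inv, map_inv, map_mul, hau, e2, mul_inv_cancel]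
  have hcard : Nat.card f.range * Nat.card f.ker = Nat.card V := by
    rw [← Subgroup.index_ker, mul_comm, Subgroup.card_mul_index]
  have hle : Nat.card f.ker ≤ Nat.card f.range := by
    have hinj : Function.Injective fun uv : f.ker × f.ker.map ψ.toMonoidHom =>
        (uv.1 : V) * (uv.2 : V) := by
      rintro ⟨u1, v1⟩ ⟨u2, v2⟩ e
      have e' : (u2 : V)⁻¹ * u1 = (v2 : V) * (v1 : V)⁻¹ := by
        rw [eq_mul_inv_iff_mul_eq, mul_assoc, show (u1 : V) * v1 = u2 * v2 from e,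
          inv_mul_cancel_left]
      have h1 : (u2 : V)⁻¹ * u1 = 1 := hinter _ ((hker _).1 (mul_mem (inv_mem u2.2) u1.2))
        (by rw [e']; exact mul_mem v2.2 (inv_mem v1.2))
      have e1 : (u1 : V) = u2 := (inv_mul_eq_one.1 h1).symm
      rw [h1] at e'
      exact Prod.ext (Subtype.ext e1) (Subtype.ext (mul_inv_eq_one.1 e'.symm).symm)
    have h1 := Nat.card_le_card_of_injective _ hinj
    rw [Nat.card_prod, Subgroup.card_map_of_injective (MulEquiv.injective _), ← hcard] at h1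
    exact Nat.le_of_mul_le_mul_right h1 Nat.card_pos
  -- a lift of an element of the range
  have hlift : ∀ c ∈ N, x * c * x⁻¹ * c⁻¹ ∈ N ∧
      c⁻¹ * x * (x * c * x⁻¹ * c⁻¹) = x * c * x⁻¹ * c⁻¹ * (c⁻¹ * x) := by
    intro c hc
    set a := x * c * x⁻¹ * c⁻¹ with had
    refine ⟨mul_mem (h.normal.conj_mem c hc x) (inv_mem hc), ?_⟩
    have h1 : x * a * x⁻¹ = a⁻¹ := by
      rw [show x * a * x⁻¹ = x * x * c * (x * x)⁻¹ * (x * c * x⁻¹)⁻¹ by rw [had]; group, hxxa c hc,
        had]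
      group
    have hsq : x * (c * c) * x⁻¹ = c * c := by
      rw [mem_center_iff.1 (show c * c ∈ Z by rw [← pow_two, ← hp2]; exact h.pow_center c hc) x,
        mul_inv_cancel_right]
    have h2 : c * a * c⁻¹ = a⁻¹ := by
      have e : a * (c * a * c⁻¹) = 1 := by
        rw [show a * (c * a * c⁻¹) = x * (c * c) * x⁻¹ * (c * c)⁻¹ by rw [had]; group, hsq,
          mul_inv_cancel]
      exact eq_inv_of_mul_eq_one_right e
    calc c⁻¹ * x * a = c⁻¹ * (x * a * x⁻¹) * x := by group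
      _ = c⁻¹ * a⁻¹ * x := by rw [h1]
      _ = c⁻¹ * (c * a * c⁻¹) * x := by rw [h2]
      _ = a * (c⁻¹ * x) := by group
  have hone : ∀ u v : V, f u ≠ 1 → f v ≠ 1 → f u = f v := by
    rintro ⟨_, c1, hc1, rfl⟩ ⟨_, c2, hc2, rfl⟩ h1 h2
    obtain ⟨ha1, hg1⟩ := hlift c1 hc1
    obtain ⟨ha2, hg2⟩ := hlift c2 hc2
    set a1 := x * c1 * x⁻¹ * c1⁻¹ with had1
    set a2 := x * c2 * x⁻¹ * c2⁻¹ with had2
    have hπ1 : π a1 = π x * π c1 * (π x)⁻¹ * (π c1)⁻¹ := by simp only [had1, map_mul, map_inv]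
    have hπ2 : π a2 = π x * π c2 * (π x)⁻¹ * (π c2)⁻¹ := by simp only [had2, map_mul, map_inv]
    have hn1 : a1 ∉ Z := fun e => h1 (Subtype.ext (hπ1.symm.trans (mem_center_quotient_iff.2 e)))
    have hn2 : a2 ∉ Z := fun e => h2 (Subtype.ext (hπ2.symm.trans (mem_center_quotient_iff.2 e)))
    -- `a2` commutes with `a1`
    have h21 : a2 * a1 = a1 * a2 := by
      set g := c1⁻¹ * x with hgdef
      set z := c2 * a1 * c2⁻¹ * a1⁻¹ with hzdef
      have hzc : ∀ u, u * z = z * u := mem_center_iff.1 (h.commutator_mem_center hc2 ha1)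
      have hgc : g * c2 * g⁻¹ ∈ N := h.normal.conj_mem c2 hc2 g
      have e1 : g * c2 * g⁻¹ * a1 * (g * c2 * g⁻¹)⁻¹ = z * a1 := by
        have hg' : g⁻¹ * a1 * g = a1 := by rw [mul_assoc, ← hg1]; group
        calc g * c2 * g⁻¹ * a1 * (g * c2 * g⁻¹)⁻¹ = g * c2 * (g⁻¹ * a1 * g) * c2⁻¹ * g⁻¹ := by group
          _ = g * z * a1 * g⁻¹ := by rw [hg', hzdef]; group
          _ = z * (g * a1 * g⁻¹) := by rw [hzc g]; group
          _ = z * a1 := by rw [hg1]; group
      set e0 := c2⁻¹ * (g * c2 * g⁻¹) with he0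
      have e2 : e0 * a1 = a1 * e0 := by
        refine mul_inv_eq_iff_eq_mul.1 ?_
        calc e0 * a1 * e0⁻¹ = c2⁻¹ * (g * c2 * g⁻¹ * a1 * (g * c2 * g⁻¹)⁻¹) * c2 := by
              rw [he0]; group
          _ = c2⁻¹ * z * a1 * c2 := by rw [e1]; group
          _ = a1 := by rw [hzdef]; group
      have hz : a2⁻¹ * e0 ∈ Z := by
        have hcN : e0 ∈ N := mul_mem (inv_mem hc2) hgc
        rw [← mem_center_quotient_iff, map_mul, map_inv, inv_mul_eq_one, hπ2]
        have hmem : π x * π c2 * (π x)⁻¹ ∈ V := hVn.conj_mem _ ⟨c2, hc2, rfl⟩ _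
        have hc12 : (π c1)⁻¹ * (π x * π c2 * (π x)⁻¹) = π x * π c2 * (π x)⁻¹ * (π c1)⁻¹ :=
          congrArg Subtype.val (hVc ⟨_, inv_mem (Subgroup.mem_map_of_mem π hc1)⟩ ⟨_, hmem⟩)
        have hc2' : (π c2)⁻¹ * (π x * π c2 * (π x)⁻¹) = π x * π c2 * (π x)⁻¹ * (π c2)⁻¹ :=
          congrArg Subtype.val (hVc ⟨_, inv_mem (Subgroup.mem_map_of_mem π hc2)⟩ ⟨_, hmem⟩)
        simp only [he0, hgdef, map_mul, map_inv]
        rw [show (π c1)⁻¹ * π x * π c2 * ((π c1)⁻¹ * π x)⁻¹ =
          (π c1)⁻¹ * (π x * π c2 * (π x)⁻¹) * π c1 by group, hc12, inv_mul_cancel_right, hc2']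
      calc a2 * a1 = e0 * a1 * (a2⁻¹ * e0)⁻¹ := by
            rw [show e0 * a1 * (a2⁻¹ * e0)⁻¹ = e0 * (a1 * (a2⁻¹ * e0)⁻¹) by group,
              mem_center_iff.1 (inv_mem hz) a1]
            group
        _ = a1 * a2 := by rw [e2]; group
    have hA : (c1⁻¹ * x) * a2 = a2 * (c1⁻¹ * x) := h.comm_of_fixed hN hg1 ha1 hn1 ha2 h21
    have hB : (c2⁻¹ * x) * a1 = a1 * (c2⁻¹ * x) := h.comm_of_fixed hN hg2 ha2 hn2 ha1 h21.symm
    set d := c2⁻¹ * c1 with hddef
    have hd : d * a1 = a1 * d := by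
      calc d * a1 = c2⁻¹ * x * ((c1⁻¹ * x)⁻¹ * a1) := by rw [hddef]; group
        _ = c2⁻¹ * x * (a1 * (c1⁻¹ * x)⁻¹) := by
            rw [(show Commute (c1⁻¹ * x) a1 from hg1).inv_left.eq]
        _ = a1 * d := by rw [← mul_assoc, hB, hddef]; group
    have hgd := h.comm_of_fixed hN hg1 ha1 hn1 (mul_mem (inv_mem hc2) hc1) hd
    have hgV : ((h.actN (c1⁻¹ * x) ⟨π d, d, mul_mem (inv_mem hc2) hc1, rfl⟩ : V) : G ⧸ Z) = π d := by
      show π (c1⁻¹ * x) * π d * (π (c1⁻¹ * x))⁻¹ = π d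
      rw [← map_inv, ← map_mul, ← map_mul, hgd, mul_inv_cancel_right]
    have hc1V : ∀ v : V, h.actN c1⁻¹ v = v := fun v => Subtype.ext (by
      show π c1⁻¹ * (v : G ⧸ Z) * (π c1⁻¹)⁻¹ = v
      rw [map_inv, inv_inv]
      have hcv : (π c1)⁻¹ * (v : G ⧸ Z) = (v : G ⧸ Z) * (π c1)⁻¹ :=
        congrArg Subtype.val (hVc ⟨_, inv_mem (Subgroup.mem_map_of_mem π hc1)⟩ v)
      rw [hcv, inv_mul_cancel_right])
    have e : h.actN x ⟨π d, d, mul_mem (inv_mem hc2) hc1, rfl⟩ = ⟨π d, d, mul_mem (inv_mem hc2) hc1, rfl⟩ := by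
      have := hgV
      rw [map_mul, MulAut.mul_apply, hc1V] at this
      exact Subtype.ext this
    have e1 := (hker _).2 e
    rw [show (⟨π d, d, mul_mem (inv_mem hc2) hc1, rfl⟩ : V) =
      (⟨π c2, c2, hc2, rfl⟩ : V)⁻¹ * ⟨π c1, c1, hc1, rfl⟩ from Subtype.ext (by simp [hddef]),
      MonoidHom.mem_ker, map_mul, map_inv] at e1
    exact (inv_mul_eq_one.1 e1).symm
  have hrange : Nat.card f.range ≤ 2 := by
    classical
    haveI := Fintype.ofFinite f.range
    by_contra hlt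
    rw [not_le, Nat.card_eq_fintype_card, Fintype.two_lt_card_iff] at hlt
    obtain ⟨⟨a, u, rfl⟩, ⟨b, v, rfl⟩, ⟨c, w, rfl⟩, hab, hac, hbc⟩ := hlt
    by_cases e1 : f u = 1
    · exact hbc (Subtype.ext (hone v w (fun e => hab (Subtype.ext (e1.trans e.symm)))
        (fun e => hac (Subtype.ext (e1.trans e.symm)))))
    by_cases e2 : f v = 1
    · exact hac (Subtype.ext (hone u w e1 (fun e => hbc (Subtype.ext (e2.trans e.symm)))))
    exact hab (Subtype.ext (hone u v e1 e2))
  have hV4 : Nat.card V ≤ 4 := by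
    rw [← hcard]; exact Nat.mul_le_mul hrange (hle.trans hrange)
  haveI := Fintype.ofFinite V
  let emb : V ↪ Fin 4 := (Fintype.equivFin V).toEmbedding.trans
    (Fin.castLEEmb (by rwa [← Nat.card_eq_fintype_card]))
  let toPerm : MulAut V →* Equiv.Perm V :=
    { toFun := MulEquiv.toEquiv
      map_one' := rfl
      map_mul' := fun _ _ => rfl }
  let χ := ((Equiv.Perm.viaEmbeddingHom emb).comp toPerm).comp h.actN
  haveI := CfsgLib.SL2.Dickson.isSolvable_perm_four
  haveI : Group.IsSolvable χ.range := inferInstance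
  have hp' : commutator χ.range = ⊤ := by
    have e : Function.Surjective χ.rangeRestrict := χ.rangeRestrict_surjective
    rw [_root_.commutator_def, ← Subgroup.map_top_of_surjective _ e, ← Subgroup.map_commutator,
      ← _root_.commutator_def, h.perfect]
  refine h.stab_ne_top ((Subgroup.eq_top_iff' _).2 fun g => mem_stab_iff.2 fun a ha => ?_)
  have hχ : χ g = 1 := congrArg Subtype.val (subsingleton_of_perfect_solvable hp' ⟨χ g, g, rfl⟩)
  have hact : h.actN g = 1 := by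
    have e := Equiv.Perm.viaEmbeddingHom_injective emb (hχ.trans (map_one _).symm)
    exact MulEquiv.toEquiv_injective e
  have e := congrArg Subtype.val (DFunLike.congr_fun hact (⟨π a, a, ha, rfl⟩ : V))
  rw [← mem_center_quotient_iff, map_mul, map_mul, map_mul, map_inv, map_inv, mul_inv_eq_one]
  exact e

end Min

end CfsgLib.MinimalNonCA

namespace CfsgLib.MinimalNonCA

open Subgroup

variable {G : Type*} [Group G] [Finite G]

/-- In a perfect group all of whose proper subgroups have abelian centralisers of noncentral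
elements, solvable normal subgroups are central. -/
theorem le_center_of_isSolvable (hca : ProperCA G) (hp : commutator G = ⊤) (M : Subgroup G)
    [M.Normal] [Group.IsSolvable M] : M ≤ Subgroup.center G := by
  classical
  by_cases hns : Group.IsSolvable G
  · exact fun g _ => by rw [subsingleton_of_perfect_solvable hp g]; exact one_mem _
  obtain ⟨R, hRn, hRs, hRmax⟩ := exists_radical (G := G)
  haveI := hRn
  haveI := hRs
  have key : ∀ M : Subgroup G, M.Normal → M ≤ R → ¬ M ≤ Subgroup.center G →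
      ∃ (N : Subgroup G) (p : ℕ), N ≤ M ∧ Min N R p := by
    intro M hM hle hc
    obtain ⟨N, hNM, hN⟩ := Finite.exists_le_minimal
      (p := fun N : Subgroup G => N.Normal ∧ ¬ N ≤ Subgroup.center G) (a := M) ⟨hM, hc⟩
    haveI := hN.1.1
    have hmin : ∀ L : Subgroup G, L.Normal → L < N → L ≤ Subgroup.center G := fun L hL hLN =>
      by_contra fun hLc => hLN.not_ge (hN.2 ⟨hL, hLc⟩ hLN.le)
    have hNR := hNM.trans hle
    set π := QuotientGroup.mk' (Subgroup.center G)
    set V := N.map π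
    haveI : Group.IsSolvable N :=
      Group.isSolvable_of_isSolvable_injective (Subgroup.inclusion_injective hNR)
    have hcomm : ∀ a ∈ N, ∀ b ∈ N, π a * π b = π b * π a := by
      intro a ha b hb
      rcases eq_or_lt_of_le (Subgroup.commutator_le_self N) with e | e
      · exfalso
        have : commutator N = ⊤ := by
          refine Subgroup.map_injective N.subtype_injective ?_
          rw [Subgroup.map_subtype_commutator, e, ← MonoidHom.range_eq_map, Subgroup.range_subtype]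
        refine hN.1.2 fun x hx => ?_
        have e1 := congrArg Subtype.val (subsingleton_of_perfect_solvable this (⟨x, hx⟩ : N))
        simp only [Subgroup.coe_one] at e1
        rw [e1]; exact one_mem _
      · have h1 := hmin _ inferInstance e (Subgroup.commutator_mem_commutator ha hb)
        have h2 : π ⁅a, b⁆ = 1 := mem_center_quotient_iff.2 h1
        rw [map_commutatorElement, commutatorElement_eq_one_iff_mul_comm] at h2
        exact h2
    have hnt : Nat.card V ≠ 1 := fun e => hN.1.2 fun a ha => by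
      have : π a ∈ V := ⟨a, ha, rfl⟩
      rw [Subgroup.card_eq_one.1 e, Subgroup.mem_bot] at this
      exact mem_center_quotient_iff.1 this
    obtain ⟨p, hp', hpd⟩ := Nat.exists_prime_and_dvd hnt
    haveI : Fact p.Prime := ⟨hp'⟩
    obtain ⟨⟨_, a0, ha0, rfl⟩, hv⟩ := exists_prime_orderOf_dvd_card' (G := V) p hpd
    let K : Subgroup G :=
      { carrier := {a | a ∈ N ∧ a ^ p ∈ Subgroup.center G}
        one_mem' := ⟨one_mem _, by rw [one_pow]; exact one_mem _⟩
        mul_mem' := by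
          rintro a b ⟨ha, ha'⟩ ⟨hb, hb'⟩
          refine ⟨mul_mem ha hb, mem_center_quotient_iff.1 ?_⟩
          rw [map_pow, map_mul, (show Commute (π a) (π b) from hcomm a ha b hb).mul_pow, ← map_pow,
            ← map_pow, mem_center_quotient_iff.2 ha', mem_center_quotient_iff.2 hb', one_mul]
        inv_mem' := by
          rintro a ⟨ha, ha'⟩
          exact ⟨inv_mem ha, by rw [inv_pow]; exact inv_mem ha'⟩ }
    have hKn : K.Normal := ⟨fun a ha g => ⟨hN.1.1.conj_mem a ha.1 g, by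
      rw [conj_pow]; exact (inferInstance : (Subgroup.center G).Normal).conj_mem _ ha.2 g⟩⟩
    refine ⟨N, p, hNM, ⟨hca, hp, hns, hRn, hRs, hRmax, hN.1.1, hNR, hN.1.2, hmin, hp', ?_⟩⟩
    have hle' : K ≤ N := fun a ha => ha.1
    rcases eq_or_lt_of_le hle' with e | e
    · exact fun a ha => (e.ge ha).2
    · exfalso
      have h1 : a0 ∈ Subgroup.center G := hmin K hKn e ⟨ha0, mem_center_quotient_iff.1 (by
        have := congrArg Subtype.val (pow_orderOf_eq_one (⟨π a0, a0, ha0, rfl⟩ : V))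
        rw [hv] at this
        rw [map_pow]; exact this)⟩
      rw [orderOf_eq_one_iff.2 (Subtype.ext (mem_center_quotient_iff.2 h1))] at hv
      exact hp'.ne_one hv.symm
  have h2 : ∀ M : Subgroup G, M.Normal → IsPGroup 2 M → M ≤ Subgroup.center G := by
    intro M hM hM2
    by_contra hc
    haveI : Group.IsNilpotent M := (hM2 : IsPGroup 2 M).isNilpotent
    obtain ⟨N, p, hNM, hmin⟩ := key M hM (hRmax M hM inferInstance) hc
    obtain ⟨a, ha, hac⟩ := SetLike.not_le_iff_exists.1 hmin.ncentral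
    refine hmin.not_two ?_
    rcases hmin.prime.eq_two_or_odd' with e | e
    · exact e
    obtain ⟨k, hk⟩ := hM2 ⟨a, hNM ha⟩
    have hk' : a ^ 2 ^ k = 1 := congrArg Subtype.val hk
    exact absurd (mem_center_quotient_iff.1 (orderOf_eq_one_iff.1 (Nat.eq_one_of_dvd_coprimes
      ((Nat.coprime_two_left.2 e).pow_left k)
      (orderOf_dvd_of_pow_eq_one (by rw [← map_pow, hk', map_one]))
      (orderOf_dvd_of_pow_eq_one (by
        rw [← map_pow]; exact mem_center_quotient_iff.2 (hmin.pow_center a ha)))))) hac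
  by_contra hc
  obtain ⟨N, p, -, hmin⟩ := key M inferInstance (hRmax M inferInstance inferInstance) hc
  rcases hmin.prime.eq_two_or_odd' with e | e
  · exact hmin.not_two e
  · exact hmin.not_odd e h2

end CfsgLib.MinimalNonCA
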