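import Cfsg.Agent.Lib.MinimalNonCA.Basic
import Cfsg.Agent.Lib.SL2.Dickson.Main
import Cfsg.Agent.Lib.SL2.Dickson.Minimal
import Cfsg.Agent.Lib.SL2.Card
import Cfsg.Agent.Lib.ClassicalLinear.Card

/-!
`PSL(2, q)` for `q > 5` prime with `16 ∤ q² - 1`, or `q = 3^r, 5^r` with `r` an odd prime: some
involution has nonabelian centraliser, and proper subgroups have no noncentral element with
nonabelian centraliser.  Conversely these conditions are forced for `q ≡ 3, 5 (mod 8)`.
-/

set_option autoImplicit false
set_option linter.style.haveILetI false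
set_option linter.unusedSectionVars false

open Matrix
open scoped MatrixGroups

namespace CfsgLib.MinimalNonCA

open CfsgLib.SL2 CfsgLib.SL2.Dickson

section Finite

theorem dihedral_comm {k : ℕ} (a u v b : DihedralGroup k) (hu : u * a = a * u) (hv : v * a = a * v)
    (hb : b * a ≠ a * b) : u * v = v * u := by
  rcases a with i | i <;> rcases u with j | j <;> rcases v with l | l <;> rcases b with t | t <;>
    simp only [DihedralGroup.r_mul_r, DihedralGroup.r_mul_sr, DihedralGroup.sr_mul_r,
      DihedralGroup.sr_mul_sr, DihedralGroup.r.injEq, DihedralGroup.sr.injEq, ne_eq] at hu hv hb ⊢ <;>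
    first
      | linear_combination (0 : ZMod k)
      | exact absurd (by linear_combination (0 : ZMod k)) hb
      | exact absurd (by linear_combination hu) hb
      | exact absurd (by linear_combination -hu) hb
      | exact absurd (by linear_combination hv) hb
      | exact absurd (by linear_combination -hv) hb
      | linear_combination hu
      | linear_combination -hu
      | linear_combination hv
      | linear_combination -hv
      | linear_combination hu - hv
      | linear_combination hv - hu
      | linear_combination hu + hv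
      | linear_combination -hu - hv

theorem alt_four_comm : ∀ a : alternatingGroup (Fin 4), a ≠ 1 → ∀ u : alternatingGroup (Fin 4),
    u * a = a * u → ∀ v : alternatingGroup (Fin 4), v * a = a * v → u * v = v * u := by decide +kernel

theorem alt_five_comm : ∀ a : alternatingGroup (Fin 5), a ≠ 1 → ∀ u : alternatingGroup (Fin 5),
    u * a = a * u → ∀ v : alternatingGroup (Fin 5), v * a = a * v → u * v = v * u := by decide +kernel

end Finite

/-- Centralisers of nontrivial elements are abelian in a group isomorphic to such a group. -/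
theorem comm_of_equiv {A B : Type*} [Group A] [Group B] (e : A ≃* B)
    (h : ∀ a : B, a ≠ 1 → ∀ u : B, u * a = a * u → ∀ v : B, v * a = a * v → u * v = v * u)
    {a u v : A} (ha : a ≠ 1) (hu : u * a = a * u) (hv : v * a = a * v) : u * v = v * u :=
  e.injective (by
    rw [map_mul, map_mul]
    exact h (e a) (fun c => ha (e.injective (c.trans (map_one e).symm))) (e u)
      (by rw [← map_mul, ← map_mul, hu]) (e v) (by rw [← map_mul, ← map_mul, hv]))

namespace PSL

variable {F : Type*} [Field F]

local notation "SL₂F" => Matrix.SpecialLinearGroup (Fin 2) F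
local notation "PSL₂F" => Matrix.ProjectiveSpecialLinearGroup (Fin 2) F
local notation "M₂" => Matrix (Fin 2) (Fin 2) F

theorem proj_eq_one_iff (g : SL₂F) : proj g = 1 ↔ g = 1 ∨ g = -1 :=
  (QuotientGroup.eq_one_iff g).trans (mem_center_iff g)

theorem proj_eq_iff (g h : SL₂F) : proj g = proj h ↔ g = h ∨ g = -h := by
  rw [← mul_inv_eq_one, ← map_inv, ← map_mul, proj_eq_one_iff, mul_inv_eq_one,
    mul_inv_eq_iff_eq_mul, neg_one_mul]

theorem comm_or_anticomm {U X : SL₂F} (h : proj U * proj X = proj X * proj U) :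
    U * X = X * U ∨ U * X = -(X * U) := by
  rwa [← map_mul, ← map_mul, proj_eq_iff] at h

/-- A nonabelian centraliser contains an element anticommuting with the given one. -/
theorem exists_anticomm {x u v : PSL₂F} (hx : x ≠ 1) (hu : u * x = x * u) (hv : v * x = x * v)
    (huv : u * v ≠ v * u) :
    ∃ X U : SL₂F, proj X = x ∧ (proj U = u ∨ proj U = v) ∧ U * X = -(X * U) ∧
      X ∉ Subgroup.center SL₂F := by
  obtain ⟨X, rfl⟩ := proj_surjective x
  obtain ⟨U, rfl⟩ := proj_surjective u
  obtain ⟨V, rfl⟩ := proj_surjective v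
  have hX : X ∉ Subgroup.center SL₂F := fun e => hx ((QuotientGroup.eq_one_iff X).2 e)
  rcases comm_or_anticomm hu with e1 | e1
  · rcases comm_or_anticomm hv with e2 | e2
    · exact absurd (by rw [← map_mul, ← map_mul, centralizer_mulComm hX
        (Subgroup.mem_centralizer_singleton_iff.2 e1) (Subgroup.mem_centralizer_singleton_iff.2 e2)]) huv
    · exact ⟨X, V, rfl, Or.inr rfl, e2, hX⟩
  · exact ⟨X, U, rfl, Or.inl rfl, e1, hX⟩

theorem trace_zero_of_anticomm (h2 : (2 : F) ≠ 0) {X U : SL₂F} (h : U * X = -(X * U)) :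
    tr X = 0 := by
  have e : U * X * U⁻¹ = -X := by rw [h, neg_mul, mul_inv_cancel_right]
  have h1 := tr_conj X U
  rw [e] at h1
  have h3 : tr (-X) = -tr X := by simp [tr]; ring
  rw [h3] at h1
  have : (2 : F) * tr X = 0 := by linear_combination -h1
  exact (mul_eq_zero.1 this).resolve_left h2

/-- No two upper triangular elements anticommute in odd characteristic. -/
theorem false_of_borel (h2 : (2 : F) ≠ 0) {X U : SL₂F} (hX : X ∈ borel F) (hU : U ∈ borel F)
    (h : U * X = -(X * U)) : False := by
  have hX' : (X : M₂) 1 0 = 0 := hX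
  have hU' : (U : M₂) 1 0 = 0 := hU
  have e := congrArg (fun g : SL₂F => (g : M₂) 0 0) h
  simp [Matrix.mul_apply, hX', hU'] at e
  have dX : (X : M₂) 0 0 * (X : M₂) 1 1 = 1 := by
    have := X.det_coe; rw [det_fin_two, hX'] at this; linear_combination this
  have dU : (U : M₂) 0 0 * (U : M₂) 1 1 = 1 := by
    have := U.det_coe; rw [det_fin_two, hU'] at this; linear_combination this
  have : (2 : F) * ((U : M₂) 0 0 * (X : M₂) 0 0) = 0 := by linear_combination e
  rcases mul_eq_zero.1 this with e1 | e1
  · exact h2 e1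
  rcases mul_eq_zero.1 e1 with e2 | e2
  · rw [e2, zero_mul] at dU; exact zero_ne_one dU
  · rw [e2, zero_mul] at dX; exact zero_ne_one dX

variable [Finite F]

/-- Over the fields of three and five elements every centraliser is abelian. -/
theorem small_comm (hq : Nat.card F = 3 ∨ Nat.card F = 5) :
    ∀ x : PSL₂F, x ≠ 1 → ∀ u : PSL₂F, u * x = x * u → ∀ v : PSL₂F, v * x = x * v → u * v = v * u := by
  intro x hx u hu v hv
  by_contra huv
  haveI := Fintype.ofFinite F
  have h2 : (2 : F) ≠ 0 := by
    intro h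
    have := (SL2.cast_card_zero (F := F))
    rcases hq with e | e <;> rw [e] at this <;> push_cast at this
    · exact one_ne_zero (α := F) (by linear_combination this - h)
    · exact one_ne_zero (α := F) (by linear_combination this - 2 * h)
  obtain ⟨X, U0, rfl, -, hU0, hX⟩ := exists_anticomm hx hu hv huv
  have ht : tr X = 0 := trace_zero_of_anticomm h2 hU0
  -- the centraliser of `X` is `{±1, ±X}`
  have hC : ∀ Y : SL₂F, Y * X = X * Y → proj Y = 1 ∨ proj Y = proj X := by
    intro Y hY
    obtain ⟨a, b, hab⟩ :=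
      (mem_centralizer_singleton_iff' hX Y).1 (Subgroup.mem_centralizer_singleton_iff.2 hY)
    have hd := det_lin X a b
    rw [← hab, Y.det_coe, ht] at hd
    have hz : a = 0 ∨ b = 0 := by
      by_contra hne
      push Not at hne
      have ha := FiniteField.pow_card_sub_one_eq_one a hne.1
      have hb := FiniteField.pow_card_sub_one_eq_one b hne.2
      rw [← Nat.card_eq_fintype_card] at ha hb
      have hc := (SL2.cast_card_zero (F := F))
      rcases hq with e | e <;> rw [e] at ha hb hc <;> norm_num [-sq_eq_one_iff] at ha hb hc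
      · have : (a ^ 2 : F) + b ^ 2 = 2 := by linear_combination ha + hb
        exact one_ne_zero (α := F) (by linear_combination -hd - this)
      · have ha' : (a ^ 2 - 1) * (a ^ 2 + 1) = 0 := by linear_combination ha
        have hb' : (b ^ 2 - 1) * (b ^ 2 + 1) = 0 := by linear_combination hb
        rcases mul_eq_zero.1 ha' with e1 | e1 <;> rcases mul_eq_zero.1 hb' with e2 | e2
        · exact one_ne_zero (α := F) (by linear_combination -(hd + e1 + e2))
        · exact one_ne_zero (α := F) (by linear_combination hd + e1 + e2)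
        · exact one_ne_zero (α := F) (by linear_combination hd + e1 + e2)
        · exact h2 (by linear_combination hc - (hd + e1 + e2))
    rcases hz with rfl | rfl
    · right
      rw [zero_smul, zero_add] at hab
      have hb1 : b * b = 1 := by linear_combination -hd
      rw [proj_eq_iff]
      rcases mul_self_eq_one_iff.1 hb1 with rfl | rfl
      · exact Or.inl (Subtype.ext (by rw [hab, one_smul]))
      · exact Or.inr (Subtype.ext (by rw [hab]; simp))
    · left
      rw [zero_smul, add_zero] at hab
      have ha1 : a * a = 1 := by linear_combination -hd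
      rw [proj_eq_one_iff]
      rcases mul_self_eq_one_iff.1 ha1 with rfl | rfl
      · exact Or.inl (Subtype.ext (by rw [hab, one_smul]; rfl))
      · exact Or.inr (Subtype.ext (by rw [hab]; simp))
  obtain ⟨U, rfl⟩ := proj_surjective u
  obtain ⟨V, rfl⟩ := proj_surjective v
  have key : ∀ Y W : SL₂F, Y * X = X * Y → proj W * proj X = proj X * proj W →
      proj Y * proj W = proj W * proj Y := by
    intro Y W hY hW
    rcases hC Y hY with e | e <;> rw [e]
    · simp
    · exact hW.symm
  rcases comm_or_anticomm hu with e1 | e1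
  · exact huv (key U V e1 hv)
  rcases comm_or_anticomm hv with e2 | e2
  · exact huv (key V U e2 hu).symm
  have e3 : U⁻¹ * V * X = X * (U⁻¹ * V) := by
    have e1' : U⁻¹ * X = -(X * U⁻¹) := by
      have h' : X = -(U⁻¹ * X * U) := by
        calc X = U⁻¹ * (U * X) := by group
          _ = -(U⁻¹ * X * U) := by rw [e1, mul_neg, mul_assoc]
      conv_rhs => rw [h', neg_mul, neg_neg, mul_inv_cancel_right]
    rw [mul_assoc, e2, mul_neg, ← mul_assoc, e1', neg_mul, neg_neg, mul_assoc]
  rcases hC _ e3 with e | e <;> rw [map_mul, map_inv, inv_mul_eq_iff_eq_mul] at e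
  · rw [mul_one] at e
    exact huv (by rw [e])
  · exact huv (by rw [e, mul_assoc (proj U) (proj X) (proj U), ← hu])

/-- `PSL(2, q)` has an involution with nonabelian centraliser for odd `q ≥ 7`. -/
theorem exists_nonabelian_centralizer (h2 : (2 : F) ≠ 0) (hq : 7 ≤ Nat.card F) :
    ∃ x u v : PSL₂F, x ∉ Subgroup.center PSL₂F ∧ u * x = x * u ∧ v * x = x * v ∧ u * v ≠ v * u := by
  classical
  haveI := Fintype.ofFinite F
  obtain ⟨p, hp⟩ := CharP.exists F
  haveI : Fact p.Prime := ⟨(CharP.char_is_prime_or_zero F p).resolve_right fun h => by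
    subst h; haveI := CharP.charP_to_charZero F; exact not_finite F⟩
  haveI : NeZero p := ⟨(Fact.out : p.Prime).ne_zero⟩
  obtain ⟨c₀, d₀, hcd₀⟩ := CharP.sq_add_sq F p (-1)
  obtain ⟨c, d, hcd⟩ : ∃ c d : F, c ^ 2 + d ^ 2 = -1 := ⟨c₀, d₀, by simpa using hcd₀⟩
  obtain ⟨s, hs0, hs1, hs2, hs3⟩ : ∃ s : F, s ≠ 0 ∧ s ≠ 1 ∧ s ≠ -1 ∧ 1 + s ^ 2 ≠ 0 := by
    by_cases hi : ∃ i : F, 1 + i ^ 2 = 0
    · obtain ⟨i, hi⟩ := hi
      obtain ⟨s, hs⟩ : ∃ s, s ∉ ({0, 1, -1, i, -i} : Finset F) := by
        by_contra hcon
        push Not at hcon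
        have h5 : ({0, 1, -1, i, -i} : Finset F).card ≤ 5 := Finset.card_le_five
        rw [Finset.eq_univ_of_forall hcon, Finset.card_univ, ← Nat.card_eq_fintype_card] at h5
        omega
      simp only [Finset.mem_insert, Finset.mem_singleton, not_or] at hs
      refine ⟨s, hs.1, hs.2.1, hs.2.2.1, fun e => ?_⟩
      have : (s - i) * (s + i) = 0 := by linear_combination e - hi
      rcases mul_eq_zero.1 this with e1 | e1
      · exact hs.2.2.2.1 (sub_eq_zero.1 e1)
      · exact hs.2.2.2.2 (eq_neg_of_add_eq_zero_left e1)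
    · push Not at hi
      obtain ⟨s, hs⟩ : ∃ s, s ∉ ({0, 1, -1} : Finset F) := by
        by_contra hcon
        push Not at hcon
        have h5 : ({0, 1, -1} : Finset F).card ≤ 3 := Finset.card_le_three
        rw [Finset.eq_univ_of_forall hcon, Finset.card_univ, ← Nat.card_eq_fintype_card] at h5
        omega
      simp only [Finset.mem_insert, Finset.mem_singleton, not_or] at hs
      exact ⟨s, hs.1, hs.2.1, hs.2.2, hi s⟩
  set a := (1 - s ^ 2) / (1 + s ^ 2) with had
  set b := 2 * s / (1 + s ^ 2) with hbd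
  have hab : a ^ 2 + b ^ 2 = 1 := by rw [had, hbd]; field_simp; ring
  have ha : a ≠ 0 := div_ne_zero (fun e => by
    rcases mul_eq_zero.1 (show (1 - s) * (1 + s) = 0 by linear_combination e) with e1 | e1
    · exact hs1 (sub_eq_zero.1 e1).symm
    · exact hs2 (eq_neg_of_add_eq_zero_right e1)) hs3
  have hb : b ≠ 0 := div_ne_zero (mul_ne_zero h2 hs0) hs3
  let X : SL₂F := ⟨!![0, 1; -1, 0], by simp [det_fin_two_of]⟩
  let U : SL₂F := ⟨!![c, d; d, -c], by rw [det_fin_two_of]; linear_combination -hcd⟩
  let W : SL₂F := ⟨!![a, b; -b, a], by rw [det_fin_two_of]; linear_combination hab⟩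
  have cX : (X : M₂) = !![0, 1; -1, 0] := rfl
  have cU : (U : M₂) = !![c, d; d, -c] := rfl
  have cW : (W : M₂) = !![a, b; -b, a] := rfl
  have hUX : U * X = -(X * U) := by
    apply Subtype.ext
    ext i j; fin_cases i <;> fin_cases j <;> simp [cX, cU, Matrix.mul_apply]
  have hWX : W * X = X * W := by
    apply Subtype.ext
    ext i j; fin_cases i <;> fin_cases j <;> simp [cX, cW, Matrix.mul_apply]
  have hne : proj U * proj W ≠ proj W * proj U := by
    intro e
    rcases comm_or_anticomm e with e1 | e1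
    · have e00 := congrArg (fun g : SL₂F => (g : M₂) 0 0) e1
      have e01 := congrArg (fun g : SL₂F => (g : M₂) 0 1) e1
      simp [cU, cW, Matrix.mul_apply] at e00 e01
      have hd0 : (2 : F) * b * d = 0 := by linear_combination -e00
      have hc0 : (2 : F) * b * c = 0 := by linear_combination e01
      rw [(mul_eq_zero.1 hd0).resolve_left (mul_ne_zero h2 hb),
        (mul_eq_zero.1 hc0).resolve_left (mul_ne_zero h2 hb)] at hcd
      exact one_ne_zero (α := F) (by linear_combination hcd)
    · have e00 := congrArg (fun g : SL₂F => (g : M₂) 0 0) e1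
      have e01 := congrArg (fun g : SL₂F => (g : M₂) 0 1) e1
      simp [cU, cW, Matrix.mul_apply] at e00 e01
      have hc0 : (2 : F) * a * c = 0 := by linear_combination e00
      have hd0 : (2 : F) * a * d = 0 := by linear_combination e01
      rw [(mul_eq_zero.1 hd0).resolve_left (mul_ne_zero h2 ha),
        (mul_eq_zero.1 hc0).resolve_left (mul_ne_zero h2 ha)] at hcd
      exact one_ne_zero (α := F) (by linear_combination hcd)
  refine ⟨proj X, proj U, proj W, fun hc => ?_, ?_, by rw [← map_mul, ← map_mul, hWX], hne⟩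
  · haveI := CfsgLib.ClassicalLinear.isSimpleGroup_psl_fin (F := F) (n := 2) le_rfl (fun _ => by omega)
    rcases Subgroup.Normal.eq_bot_or_eq_top (inferInstance : (Subgroup.center PSL₂F).Normal) with e | e
    · rw [e, Subgroup.mem_bot, proj_eq_one_iff] at hc
      rcases hc with e1 | e1 <;>
      · have := congrArg (fun g : SL₂F => (g : M₂) 0 1) e1
        simp [cX] at this
    · exact hne (Subgroup.mem_center_iff.1 (e ▸ Subgroup.mem_top (proj W)) (proj U))
  · rw [← map_mul, ← map_mul, proj_eq_iff]; exact Or.inr hUX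

theorem two_ne_zero_of_odd (h : Odd (Nat.card F)) : (2 : F) ≠ 0 := by
  intro h2
  have hc := SL2.cast_card_zero (F := F)
  obtain ⟨m, hm⟩ := h
  rw [hm] at hc
  push_cast at hc
  exact one_ne_zero (α := F) (by linear_combination hc - (m : F) * h2)

theorem card_psl_mul_two (h : Odd (Nat.card F)) :
    2 * Nat.card PSL₂F = Nat.card F * (Nat.card F ^ 2 - 1) := by
  rw [← SL2.card_SL, Subgroup.card_eq_card_quotient_mul_card_subgroup (Subgroup.center SL₂F),
    SL2.center_card_of_odd (two_ne_zero_of_odd h), mul_comm]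

omit [Finite F] in
theorem mem_borel_of_proj {g : SL₂F}
    (h : proj g ∈ Subgroup.normalizer (((CfsgLib.ClassicalLinear.upperSL : Subgroup SL₂F).map proj :
      Subgroup PSL₂F) : Set PSL₂F)) : g ∈ borel F := by
  obtain ⟨w, hw, he⟩ := (Subgroup.mem_normalizer_iff.1 h (proj (CfsgLib.ClassicalLinear.upS 1))).1
    ⟨_, CfsgLib.ClassicalLinear.mem_upperSL.2 ⟨1, rfl⟩, rfl⟩
  rw [← map_inv, ← map_mul, ← map_mul, proj_eq_iff] at he
  obtain ⟨y, rfl⟩ := CfsgLib.ClassicalLinear.mem_upperSL.1 hw
  show (g : M₂) 1 0 = 0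
  rcases he with e | e <;>
  · have e1 := congrArg (fun z : SL₂F => (z : M₂) 1 0) e
    simp [CfsgLib.ClassicalLinear.upS_coe, Matrix.mul_apply, Matrix.adjugate_fin_two] at e1
    first
      | exact e1
      | exact mul_self_eq_zero.1 (by linear_combination e1)
      | exact mul_self_eq_zero.1 (by linear_combination -e1)

theorem card_psl_lt_pgl {K : Type} [Field K] [Fintype K] (hm : Nat.card K = Nat.card F)
    (hodd : Odd (Nat.card F)) :
    Nat.card PSL₂F < Nat.card (Matrix.ProjGenLinGroup (Fin 2) K) := by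
  rw [CfsgLib.ClassicalLinear.card_PGL, SL2.card_SL (F := K), hm]
  have := card_psl_mul_two (F := F) hodd
  have : 0 < Nat.card PSL₂F := Nat.card_pos
  omega

omit [Finite F] in
theorem dvd_card_pgl {K : Type} [Field K] [Fintype K] (hK : Fintype.card K = 3 ∨ Fintype.card K = 5) :
    24 ∣ Nat.card (Matrix.ProjGenLinGroup (Fin 2) K) := by
  rw [CfsgLib.ClassicalLinear.card_PGL, SL2.card_SL (F := K), Nat.card_eq_fintype_card]
  rcases hK with e | e <;> rw [e] <;> norm_num

/-- `16 ∤ q² - 1` forces the proper subgroups to have abelian centralisers of noncentral elements,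
when the only proper subfields have three or five elements. -/
theorem properCA_psl {p : ℕ} [Fact p.Prime] [CharP F p] (hodd : Odd (Nat.card F))
    (h16 : ¬ 16 ∣ Nat.card F ^ 2 - 1)
    (hsub : ∀ q0 m : ℕ, 1 < q0 → q0 ^ m = Nat.card F → m = 1 ∨
      ((q0 = 3 ∨ q0 = 5) ∧ Odd m)) :
    ProperCA PSL₂F := by
  intro H hH a ha u hu v hv hua hva huv b hb
  by_contra hba
  have ha1 : a ≠ 1 := by rintro rfl; simp at hba
  have transfer : ∀ {B : Type} [Group B] (e : H ≃* B),
      (∀ a : B, a ≠ 1 → ∀ u : B, u * a = a * u → ∀ v : B, v * a = a * v → u * v = v * u) → False := by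
    intro B _ e hB
    exact huv (congrArg Subtype.val (comm_of_equiv e hB (a := ⟨a, ha⟩) (u := ⟨u, hu⟩) (v := ⟨v, hv⟩)
      (fun c => ha1 (congrArg Subtype.val c)) (Subtype.ext hua) (Subtype.ext hva)))
  have h2 := two_ne_zero_of_odd hodd
  rcases psl_classification p H with ⟨k, -, ⟨hc, -⟩ | ⟨⟨e⟩⟩⟩ | ⟨P, hP⟩ | ⟨⟨e⟩⟩ | ⟨⟨e⟩⟩ | ⟨⟨e⟩⟩ |
      ⟨K, iK, iF, m, hm, he⟩
  · exact huv (congrArg Subtype.val (hc.commGroup.mul_comm (⟨u, hu⟩ : H) ⟨v, hv⟩))
  · refine huv (congrArg Subtype.val (e.injective (a₁ := (⟨u, hu⟩ : H) * ⟨v, hv⟩)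
      (a₂ := ⟨v, hv⟩ * ⟨u, hu⟩) ?_))
    rw [map_mul, map_mul]
    refine dihedral_comm (e ⟨a, ha⟩) _ _ (e ⟨b, hb⟩) ?_ ?_ fun c => hba ?_
    · rw [← map_mul, ← map_mul]; exact congrArg e (Subtype.ext hua)
    · rw [← map_mul, ← map_mul]; exact congrArg e (Subtype.ext hva)
    · rw [← map_mul, ← map_mul] at c
      exact congrArg Subtype.val (e.injective c)
  · -- inside a Sylow normaliser
    haveI := Fintype.ofFinite F
    obtain ⟨g, hg⟩ := MulAction.exists_smul_eq PSL₂F P
      ((CfsgLib.ClassicalLinear.upperSLSylow (F := F) (p := p)).mapSurjective proj_surjective)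
    obtain ⟨G0, rfl⟩ := proj_surjective g
    have hb' : ∀ y ∈ H, ∀ Y : SL₂F, proj Y = y → G0 * Y * G0⁻¹ ∈ borel F := by
      intro y hy Y hY
      have h1 := Sylow.smul_eq_iff_mem_normalizer.2 (hP hy)
      have h3 : proj (G0 * Y * G0⁻¹) •
          (CfsgLib.ClassicalLinear.upperSLSylow (F := F) (p := p)).mapSurjective proj_surjective =
          (CfsgLib.ClassicalLinear.upperSLSylow (F := F) (p := p)).mapSurjective proj_surjective := by
        rw [← hg, map_mul, map_mul, map_inv, hY, mul_smul, mul_smul, inv_smul_smul, h1]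
      have h4 := Sylow.smul_eq_iff_mem_normalizer.1 h3
      exact mem_borel_of_proj h4
    obtain ⟨X, U, hX, hU, hUX, -⟩ := exists_anticomm ha1 hua hva huv
    have hUH : proj U ∈ H := by rcases hU with e | e <;> rw [e] <;> assumption
    refine false_of_borel h2 (hb' a ha X hX) (hb' _ hUH U rfl) ?_
    calc G0 * U * G0⁻¹ * (G0 * X * G0⁻¹) = G0 * (U * X) * G0⁻¹ := by group
      _ = -(G0 * (X * U) * G0⁻¹) := by rw [hUX, mul_neg, neg_mul]
      _ = _ := by congr 1; group
  · exact transfer e alt_four_comm
  · have h24 : 24 ∣ Nat.card PSL₂F := by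
      have := Subgroup.card_subgroup_dvd_card H
      rw [Nat.card_congr e.toEquiv, Nat.card_perm, Nat.card_eq_fintype_card, Fintype.card_fin] at this
      exact this
    apply h16
    have h48 : 16 ∣ Nat.card F * (Nat.card F ^ 2 - 1) := by
      rw [← card_psl_mul_two hodd]
      obtain ⟨k, hk⟩ := h24
      exact ⟨3 * k, by rw [hk]; ring⟩
    refine (Nat.Coprime.dvd_of_dvd_mul_left ?_ h48)
    exact ((Nat.coprime_two_left.2 hodd).pow_left 4)
  · exact transfer e alt_five_comm
  · have hcardF : 1 < Nat.card F := Finite.one_lt_card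
    have hK1 : 1 < Fintype.card K := Fintype.one_lt_card
    rcases hsub _ m hK1 hm with rfl | ⟨hK, hmo⟩
    · rw [pow_one, ← Nat.card_eq_fintype_card] at hm
      refine hH (Subgroup.card_eq_iff_eq_top H |>.1 ?_)
      rcases he with ⟨⟨e⟩⟩ | ⟨⟨e⟩⟩
      · rw [Nat.card_congr e.toEquiv, SL2.card_PSL, SL2.card_PSL, hm]
      · exfalso
        have h1 := Subgroup.card_le_card_group H
        rw [Nat.card_congr e.toEquiv] at h1
        exact absurd h1 (not_le.2 (card_psl_lt_pgl hm hodd))
    · rcases he with ⟨⟨e⟩⟩ | ⟨⟨e⟩⟩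
      · exact transfer e (small_comm (by rw [Nat.card_eq_fintype_card]; exact hK))
      · exfalso
        apply h16
        have h24 : 24 ∣ Nat.card H := by rw [Nat.card_congr e.toEquiv]; exact dvd_card_pgl hK
        have h48 : 16 ∣ Nat.card F * (Nat.card F ^ 2 - 1) := by
          rw [← card_psl_mul_two hodd]
          obtain ⟨k, hk⟩ := h24.trans (Subgroup.card_subgroup_dvd_card H)
          exact ⟨3 * k, by rw [hk]; ring⟩
        exact Nat.Coprime.dvd_of_dvd_mul_left ((Nat.coprime_two_left.2 hodd).pow_left 4) h48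

end PSL

end CfsgLib.MinimalNonCA
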