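import Cfsg.Agent.Lib.MinimalNonCA.Converse

/-!
The two directions of the classification inside `PSL(2, q)`: the conditions on `q` give a nonsolvable
group with nonabelian centralisers whose proper subgroups have none, and conversely.
-/

set_option autoImplicit false
set_option linter.style.haveILetI false
set_option linter.unusedSectionVars false

open Matrix
open scoped MatrixGroups

namespace CfsgLib.MinimalNonCA

universe u

variable {G : Type u} [Group G]

theorem forall_of_properCA (h : ProperCA G) : ∀ H : Subgroup G, H ≠ ⊤ → ∀ x : H,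
    x ∉ Subgroup.center H → IsMulCommutative (Subgroup.centralizer ({x} : Set H)) := by
  intro H hH x hx
  obtain ⟨b, hb⟩ : ∃ b : H, b * x ≠ x * b := by
    by_contra hcon
    push Not at hcon
    exact hx (Subgroup.mem_center_iff.2 hcon)
  exact ⟨⟨fun u v => Subtype.ext (Subtype.ext (h.comm hH (a := (x : G)) (b := (b : G)) x.2 b.2
    (fun e => hb (Subtype.ext e)) u.1.2 v.1.2
    (congrArg Subtype.val (Subgroup.mem_centralizer_singleton_iff.1 u.2))
    (congrArg Subtype.val (Subgroup.mem_centralizer_singleton_iff.1 v.2))))⟩⟩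

theorem ProperCA.of_equiv {A : Type*} [Group A] (e : G ≃* A) (h : ProperCA A) : ProperCA G := by
  intro H hH a ha u hu v hv hua hva huv b hb
  have hne : H.map e.toMonoidHom ≠ ⊤ := fun c => hH (Subgroup.map_injective e.injective
    (c.trans (Subgroup.map_top_of_surjective e.toMonoidHom e.surjective).symm))
  apply e.injective
  rw [map_mul, map_mul]
  exact h _ hne (e a) ⟨a, ha, rfl⟩ (e u) ⟨u, hu, rfl⟩ (e v) ⟨v, hv, rfl⟩
    (by rw [← map_mul, ← map_mul, hua]) (by rw [← map_mul, ← map_mul, hva])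
    (fun c => huv (e.injective (by rw [map_mul, map_mul, c]))) (e b) ⟨b, hb, rfl⟩

variable [Finite G]

/-- The conditions on `q`. -/
def QCond (q : ℕ) : Prop :=
  (q.Prime ∧ 5 < q ∧ ¬ 16 ∣ q ^ 2 - 1) ∨ (∃ p : ℕ, p.Prime ∧ p ≠ 2 ∧ (q = 3 ^ p ∨ q = 5 ^ p))

theorem not_dvd_sq_pow {c n : ℕ} (hc : c ^ 2 % 16 = 9) (hn : Odd n) :
    ¬ 16 ∣ (c ^ n) ^ 2 - 1 := by
  obtain ⟨k, rfl⟩ := hn
  intro hd
  have h1 : (c ^ (2 * k + 1)) ^ 2 % 16 = 9 := by
    rw [← pow_mul, show (2 * k + 1) * 2 = 2 * (2 * k + 1) by ring, pow_mul, Nat.pow_mod, hc, pow_succ,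
      pow_mul, Nat.mul_mod, Nat.pow_mod]
    norm_num
  omega

theorem QCond.props {q : ℕ} (h : QCond q) :
    Odd q ∧ 7 ≤ q ∧ ¬ 16 ∣ q ^ 2 - 1 ∧
      ∀ q0 m : ℕ, 1 < q0 → q0 ^ m = q → m = 1 ∨ ((q0 = 3 ∨ q0 = 5) ∧ Odd m) := by
  rcases h with ⟨hp, h5, h16⟩ | ⟨r, hr, hr2, hq⟩
  · refine ⟨hp.odd_of_ne_two (by omega), ?_, h16, fun q0 m h0 he => Or.inl ?_⟩
    · rcases Nat.lt_or_ge q 7 with h | h
      · have : q = 6 := by omega
        subst this; norm_num at hp
      · exact h
    · exact (Nat.Prime.pow_eq_iff hp).1 he |>.2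
  · have hro := hr.odd_of_ne_two hr2
    have hr3 : 3 ≤ r := by have := hr.two_le; omega
    have key : ∀ c : ℕ, c.Prime → Odd c → c ^ 2 % 16 = 9 → 3 ≤ c → (c = 3 ∨ c = 5) →
        Odd (c ^ r) ∧ 7 ≤ c ^ r ∧ ¬ 16 ∣ (c ^ r) ^ 2 - 1 ∧
          ∀ q0 m : ℕ, 1 < q0 → q0 ^ m = c ^ r → m = 1 ∨ ((q0 = 3 ∨ q0 = 5) ∧ Odd m) := by
      intro c hc hco hc16 hc3 hc35
      refine ⟨hco.pow, ?_, not_dvd_sq_pow hc16 hro, fun q0 m h0 he => ?_⟩
      · calc 7 ≤ 3 ^ 3 := by norm_num
          _ ≤ c ^ 3 := Nat.pow_le_pow_left hc3 3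
          _ ≤ c ^ r := Nat.pow_le_pow_right (by omega) hr3
      · have hm : m ≠ 0 := by
          rintro rfl
          rw [pow_zero] at he
          exact (Nat.one_lt_pow hr.ne_zero hc.one_lt).ne he
        obtain ⟨k, -, rfl⟩ := (Nat.dvd_prime_pow hc).1 (he ▸ dvd_pow_self q0 hm)
        rw [← pow_mul] at he
        have hkm := Nat.pow_right_injective hc.two_le he
        rcases (Nat.dvd_prime hr).1 ⟨k, by rw [mul_comm]; exact hkm.symm⟩ with e | e
        · exact Or.inl e
        · subst e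
          have hk1 : k = 1 := Nat.eq_of_mul_eq_mul_right hr.pos (hkm.trans (one_mul _).symm)
          subst hk1
          rw [pow_one]
          exact Or.inr ⟨hc35, hro⟩
    rcases hq with rfl | rfl
    · exact key 3 Nat.prime_three (by decide) (by norm_num) le_rfl (Or.inl rfl)
    · exact key 5 Nat.prime_five (by decide) (by norm_num) (by omega) (Or.inr rfl)

/-- The groups `PSL(2, q)` of the theorem. -/
theorem converse {F : Type} [Field F] [Fintype F]
    (e : G ≃* Matrix.ProjectiveSpecialLinearGroup (Fin 2) F) (hq : QCond (Fintype.card F)) :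
    ¬ Group.IsSolvable G ∧
    ¬ (∀ x : G, x ∉ Subgroup.center G → IsMulCommutative (Subgroup.centralizer ({x} : Set G))) ∧
    ∀ H : Subgroup G, H ≠ ⊤ → ∀ x : H, x ∉ Subgroup.center H →
      IsMulCommutative (Subgroup.centralizer ({x} : Set H)) := by
  rw [← Nat.card_eq_fintype_card] at hq
  obtain ⟨hodd, h7, h16, hsub⟩ := hq.props
  have h2 := PSL.two_ne_zero_of_odd hodd
  refine ⟨fun hs => ?_, fun hca => ?_, ?_⟩
  · exact SL2.Dickson.not_isSolvable_psl (K := F) (by omega)
      (Group.isSolvable_of_surjective (f := e.toMonoidHom) e.surjective)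
  · obtain ⟨x, u, v, hx, hu, hv, huv⟩ := PSL.exists_nonabelian_centralizer h2 h7
    have hx' : e.symm x ∉ Subgroup.center G := fun hc => hx (Subgroup.mem_center_iff.2 fun g => by
      have := congrArg e (Subgroup.mem_center_iff.1 hc (e.symm g))
      simpa using this)
    have hmem : ∀ u, u * x = x * u → e.symm u ∈ Subgroup.centralizer ({e.symm x} : Set G) := fun u hu =>
      Subgroup.mem_centralizer_singleton_iff.2 (by rw [← map_mul, ← map_mul, hu])
    have := (hca _ hx').is_comm.comm ⟨_, hmem u hu⟩ ⟨_, hmem v hv⟩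
    exact huv (e.symm.injective (by rw [map_mul, map_mul]; exact congrArg Subtype.val this))
  · obtain ⟨p, hp⟩ := CharP.exists F
    haveI : Fact p.Prime := ⟨(CharP.char_is_prime_or_zero F p).resolve_right fun h => by
      subst h; haveI := CharP.charP_to_charZero F; exact not_finite F⟩
    exact forall_of_properCA ((PSL.properCA_psl (p := p) hodd h16 hsub).of_equiv e)

/-- If all proper subgroups of `PSL(2, q)`, `q ≡ 3, 5 (mod 8)`, `q ≠ 3, 5`, have abelian centralisers
of noncentral elements, then `q` satisfies the conditions. -/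
theorem qCond_of_properCA {F : Type} [Field F] [Fintype F]
    (e : G ≃* Matrix.ProjectiveSpecialLinearGroup (Fin 2) F) (hca : ProperCA G)
    (h8 : Fintype.card F % 8 = 3 ∨ Fintype.card F % 8 = 5) (h5 : 5 < Fintype.card F) :
    QCond (Fintype.card F) := by
  obtain ⟨p, hp⟩ := CharP.exists F
  haveI hpf : Fact p.Prime := ⟨(CharP.char_is_prime_or_zero F p).resolve_right fun h => by
    subst h; haveI := CharP.charP_to_charZero F; exact not_finite F⟩
  obtain ⟨n, hpp, hn⟩ := FiniteField.card F p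
  have hmod : ∀ k, (p ^ (2 * k)) % 8 = 1 := fun k => by
    have hp2 : p % 2 = 1 := by
      rcases hpp.eq_two_or_odd with e2 | e2
      · exfalso; subst e2; rw [hn] at h8
        rcases Nat.lt_or_ge (n : ℕ) 3 with h | h
        · interval_cases (n : ℕ) <;> norm_num at h8
        · rw [Nat.mod_eq_zero_of_dvd (dvd_trans (by norm_num : 8 ∣ 2 ^ 3) (pow_dvd_pow 2 h))] at h8
          omega
      · exact e2
    have hsq : p ^ 2 % 8 = 1 := by
      rw [Nat.pow_mod]
      have : p % 8 = 1 ∨ p % 8 = 3 ∨ p % 8 = 5 ∨ p % 8 = 7 := by omega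
      rcases this with h | h | h | h <;> rw [h] <;> norm_num
    rw [pow_mul, Nat.pow_mod, hsq]; norm_num
  have hno : Odd (n : ℕ) := by
    rcases Nat.even_or_odd (n : ℕ) with ⟨k, hk⟩ | h
    · exfalso
      rw [hn, hk, ← two_mul, hmod] at h8
      omega
    · exact h
  by_cases hn1 : (n : ℕ) = 1
  · left
    rw [hn1, pow_one] at hn
    refine ⟨hn ▸ hpp, h5, fun hd => ?_⟩
    have hsq : Fintype.card F ^ 2 % 16 = 9 := by
      rw [Nat.pow_mod]
      have : Fintype.card F % 16 = 3 ∨ Fintype.card F % 16 = 5 ∨ Fintype.card F % 16 = 11 ∨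
          Fintype.card F % 16 = 13 := by omega
      rcases this with h | h | h | h <;> rw [h] <;> norm_num
    omega
  right
  obtain ⟨r, hr, hrn⟩ := Nat.exists_prime_and_dvd hn1
  obtain ⟨j, hj⟩ := hrn
  have hj0 : j ≠ 0 := fun e => by rw [e, mul_zero] at hj; exact n.ne_zero hj
  let _ : Algebra (ZMod p) F := ZMod.algebra F p
  have hfin : Module.finrank (ZMod p) F = n := by
    have := Module.natCard_eq_pow_finrank (K := ZMod p) (V := F)
    rw [Nat.card_eq_fintype_card, hn, Nat.card_zmod] at this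
    exact (Nat.pow_right_injective hpp.two_le this).symm
  have hp2 : p ≠ 2 := fun e => by
    have := hmod 1
    rw [e] at this; norm_num at this
  have hr2 : r ≠ 2 := fun e => by
    rw [e] at hj
    exact Nat.not_even_iff_odd.2 hno ⟨j, by omega⟩
  have hsmall : p ^ j < 7 := by
    by_contra hge
    rw [not_lt] at hge
    have hK := GaloisField.card p j hj0
    obtain ⟨f⟩ := FiniteField.nonempty_algHom_of_finrank_dvd (F := ZMod p) (K := GaloisField p j)
      (L := F) (by rw [GaloisField.finrank p hj0, hfin, hj]; exact dvd_mul_left _ _)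
    obtain ⟨φ, hφ⟩ := SL2.Dickson.exists_pslMap f.toRingHom
    have hodd : Odd (Nat.card (GaloisField p j)) := by rw [hK]; exact (hpp.odd_of_ne_two hp2).pow
    obtain ⟨x, u, v, hx, hu, hv, huv⟩ := PSL.exists_nonabelian_centralizer
      (PSL.two_ne_zero_of_odd hodd) (by rw [hK]; exact hge)
    set ψ : Matrix.ProjectiveSpecialLinearGroup (Fin 2) (GaloisField p j) →* G :=
      e.symm.toMonoidHom.comp φ with hψ
    have hψi : Function.Injective ψ := e.symm.injective.comp hφ
    have hne : ψ.range ≠ ⊤ := by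
      intro c
      have h1 := Nat.card_eq_of_bijective ψ ⟨hψi, MonoidHom.range_eq_top.1 c⟩
      rw [Nat.card_congr e.toEquiv] at h1
      have e1 := PSL.card_psl_mul_two (F := GaloisField p j) hodd
      have e2 := PSL.card_psl_mul_two (F := F)
        (by rw [Nat.card_eq_fintype_card, hn]; exact (hpp.odd_of_ne_two hp2).pow)
      rw [h1, hK] at e1
      rw [Nat.card_eq_fintype_card (α := F), hn] at e2
      have hlt : p ^ j < p ^ (n : ℕ) := Nat.pow_lt_pow_right hpp.one_lt (by
        rw [hj]; exact lt_mul_of_one_lt_left (Nat.pos_of_ne_zero hj0) hr.one_lt)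
      have hsq : (p ^ j) ^ 2 - 1 < (p ^ (n : ℕ)) ^ 2 - 1 := by
        have := Nat.pow_lt_pow_left hlt (show (2 : ℕ) ≠ 0 by norm_num)
        have : 1 ≤ (p ^ j) ^ 2 := Nat.one_le_pow _ _ (by positivity)
        omega
      have := Nat.mul_lt_mul_of_lt_of_lt hlt hsq
      rw [← e1, ← e2] at this
      omega
    obtain ⟨b, hb⟩ : ∃ b, b * x ≠ x * b := by
      by_contra hcon
      push Not at hcon
      exact hx (Subgroup.mem_center_iff.2 hcon)
    exact huv (hψi (by
      rw [map_mul, map_mul]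
      exact hca.comm hne (a := ψ x) (b := ψ b) ⟨x, rfl⟩ ⟨b, rfl⟩
        (fun c => hb (hψi (by rw [map_mul, map_mul, c]))) ⟨u, rfl⟩ ⟨v, rfl⟩
        (by rw [← map_mul, ← map_mul, hu]) (by rw [← map_mul, ← map_mul, hv])))
  have hp3 : 3 ≤ p := by have := hpp.two_le; omega
  have hj1 : j = 1 := by
    by_contra hne
    have : p ^ 2 ≤ p ^ j := Nat.pow_le_pow_right hpp.pos (by omega)
    have := Nat.pow_le_pow_left hp3 2
    omega
  subst hj1
  rw [mul_one] at hj
  rw [pow_one] at hsmall
  refine ⟨r, hr, hr2, ?_⟩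
  rw [hn, hj]
  have : p = 3 ∨ p = 5 := by
    have hpodd := hpp.odd_of_ne_two hp2
    rw [Nat.odd_iff] at hpodd
    omega
  rcases this with rfl | rfl <;> simp

end CfsgLib.MinimalNonCA
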