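import Cfsg.Agent.Lib.MinimalNonCA.Basic

/-!
A minimal noncentral solvable normal subgroup `N` of a perfect group all of whose proper subgroups
have abelian centralisers of noncentral elements: `N/(N ∩ Z(G))` has prime exponent and elements
coprime to that prime act on it without fixed points.
-/

set_option autoImplicit false
set_option linter.style.haveILetI false
set_option linter.unusedSectionVars false

open scoped commutatorElement

namespace CfsgLib.MinimalNonCA

open Subgroup

variable {G : Type*} [Group G] [Finite G]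

theorem mem_normalizer_of_forall {S : Subgroup G} {x : G} (h : ∀ s ∈ S, x * s * x⁻¹ ∈ S) :
    x ∈ Subgroup.normalizer (S : Set G) := by
  haveI : Finite (S : Set G) := inferInstance
  exact Subgroup.mem_normalizer_fintype (S := (S : Set G)) h

theorem mem_center_quotient_iff {a : G} :
    (QuotientGroup.mk' (Subgroup.center G) a = 1) ↔ a ∈ Subgroup.center G :=
  QuotientGroup.eq_one_iff a

/-- The centralizer of a noncentral normal subgroup is solvable. -/
theorem isSolvable_centralizer (h : ProperCA G) {N : Subgroup G} (hN : N.Normal)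
    (hc : ¬ N ≤ Subgroup.center G) : Group.IsSolvable (Subgroup.centralizer (N : Set G)) := by
  classical
  haveI := hN
  by_contra hs
  obtain ⟨D, hDC, hD⟩ := Finite.exists_le_minimal
    (p := fun D : Subgroup G => D.Normal ∧ D ≤ Subgroup.centralizer (N : Set G) ∧ ¬ Group.IsSolvable D)
    (a := Subgroup.centralizer (N : Set G)) ⟨inferInstance, le_rfl, hs⟩
  haveI := hD.1.1
  have hD1 : D ≠ ⊥ := fun e => hD.1.2.2 (by subst e; infer_instance)
  have hDD : commutator D = ⊤ := by
    have hns : ¬ Group.IsSolvable (commutator D) := fun e => hD.1.2.2 (by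
      haveI := e
      haveI : Group.IsSolvable (D ⧸ commutator D) := by
        haveI : IsMulCommutative (Abelianization D) := ⟨⟨mul_comm⟩⟩
        exact (inferInstance : Group.IsSolvable (Abelianization D))
      exact (Group.isSolvable_iff_subgroup_quotient (commutator D)).2 ⟨inferInstance, inferInstance⟩)
    have hle : ⁅D, D⁆ ≤ D := Subgroup.commutator_le_self D
    have hmap : (commutator D).map D.subtype = ⁅D, D⁆ := Subgroup.map_subtype_commutator D
    have hns' : ¬ Group.IsSolvable (⁅D, D⁆ : Subgroup G) := fun e => hns (by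
      rw [← hmap] at e
      haveI := e
      exact Group.isSolvable_of_surjective
        (f := ((commutator D).equivMapOfInjective D.subtype D.subtype_injective).symm.toMonoidHom)
        (MulEquiv.surjective _))
    have e : D ≤ ⁅D, D⁆ := hD.2 ⟨inferInstance, hle.trans hD.1.2.1, hns'⟩ hle
    refine Subgroup.map_injective D.subtype_injective ?_
    rw [hmap, ← MonoidHom.range_eq_map, Subgroup.range_subtype]
    exact le_antisymm hle e
  refine hc fun n hn => centralizer_perfect_le_center h D hDD hD1 ?_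
  exact Subgroup.mem_centralizer_iff.2 fun d hd =>
    (Subgroup.mem_centralizer_iff.1 (hD.1.2.1 hd) n hn).symm

/-- The centralizer of a noncentral solvable normal subgroup is abelian. -/
theorem centralizer_comm (h : ProperCA G) (hns : ¬ Group.IsSolvable G) {N : Subgroup G}
    (hN : N.Normal) (hs : Group.IsSolvable N) (hc : ¬ N ≤ Subgroup.center G) {u v : G}
    (hu : u ∈ Subgroup.centralizer (N : Set G)) (hv : v ∈ Subgroup.centralizer (N : Set G)) :
    u * v = v * u := by
  haveI := hN
  haveI := hs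
  haveI := isSolvable_centralizer h hN hc
  obtain ⟨n, hn, hnc⟩ := SetLike.not_le_iff_exists.1 hc
  obtain ⟨g, hg⟩ : ∃ g : G, g * n ≠ n * g := by
    by_contra hcon
    push Not at hcon
    exact hnc (mem_center_iff.2 hcon)
  haveI := isSolvable_sup_normal N (Subgroup.centralizer (N : Set G))
  haveI := isSolvable_sup_normal (N ⊔ Subgroup.centralizer (N : Set G)) (Subgroup.zpowers g)
  exact h.comm (ne_top_of_isSolvable hns (N ⊔ Subgroup.centralizer (N : Set G) ⊔ Subgroup.zpowers g))
    (a := n) (mem_sup_left (mem_sup_left hn)) (mem_sup_right (mem_zpowers g)) hg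
    (mem_sup_left (mem_sup_right hu)) (mem_sup_left (mem_sup_right hv))
    (mem_centralizer_iff.1 hu n hn).symm (mem_centralizer_iff.1 hv n hn).symm

/-- The standing hypotheses: a minimal noncentral solvable normal subgroup `N`, the largest normal
solvable subgroup `R` and the exponent `p` of `N` modulo the center. -/
structure Min (N R : Subgroup G) (p : ℕ) : Prop where
  ca : ProperCA G
  perfect : commutator G = ⊤
  nsolv : ¬ Group.IsSolvable G
  radN : R.Normal
  radS : Group.IsSolvable R
  radMax : ∀ M : Subgroup G, M.Normal → Group.IsSolvable M → M ≤ R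
  normal : N.Normal
  le_rad : N ≤ R
  ncentral : ¬ N ≤ Subgroup.center G
  minimal : ∀ M : Subgroup G, M.Normal → M < N → M ≤ Subgroup.center G
  prime : p.Prime
  pow_center : ∀ a ∈ N, a ^ p ∈ Subgroup.center G

/-- The elements centralising `N` modulo the center. -/
def stab (N : Subgroup G) : Subgroup G :=
  (Subgroup.centralizer
    ((N.map (QuotientGroup.mk' (Subgroup.center G))) : Set (G ⧸ Subgroup.center G))).comap
    (QuotientGroup.mk' (Subgroup.center G))

theorem mem_stab_iff {N : Subgroup G} {g : G} :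
    g ∈ stab N ↔ ∀ a ∈ N, g * a * g⁻¹ * a⁻¹ ∈ Subgroup.center G := by
  rw [stab, Subgroup.mem_comap, Subgroup.mem_centralizer_iff]
  constructor
  · intro hg a ha
    rw [← mem_center_quotient_iff, map_mul, map_mul, map_mul, map_inv, map_inv, ← hg _ ⟨a, ha, rfl⟩,
      mul_inv_cancel_right, mul_inv_cancel]
  · rintro hg _ ⟨a, ha, rfl⟩
    have e := mem_center_quotient_iff.2 (hg a ha)
    rw [map_mul, map_mul, map_mul, map_inv, map_inv, mul_inv_eq_one, mul_inv_eq_iff_eq_mul] at e
    exact e.symm

namespace Min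

variable {N R : Subgroup G} {p : ℕ} (h : Min N R p)
include h

local notation "Z" => Subgroup.center G
local notation "B" => Subgroup.centralizer (N : Set G)

theorem eq_or_le {M : Subgroup G} (hM : M.Normal) (hle : M ≤ N) : M = N ∨ M ≤ Z :=
  (eq_or_lt_of_le hle).imp id (h.minimal M hM)

theorem commutator_mem_center {a b : G} (ha : a ∈ N) (hb : b ∈ N) :
    a * b * a⁻¹ * b⁻¹ ∈ Z := by
  haveI := h.normal
  haveI := h.radS
  haveI : Group.IsSolvable N :=
    Group.isSolvable_of_isSolvable_injective (Subgroup.inclusion_injective h.le_rad)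
  rcases h.eq_or_le (M := ⁅N, N⁆) inferInstance (Subgroup.commutator_le_self N) with e | e
  · exfalso
    have : commutator N = ⊤ := by
      refine Subgroup.map_injective N.subtype_injective ?_
      rw [Subgroup.map_subtype_commutator, e, ← MonoidHom.range_eq_map, Subgroup.range_subtype]
    refine h.ncentral fun x hx => ?_
    have e1 := congrArg Subtype.val (subsingleton_of_perfect_solvable this (⟨x, hx⟩ : N))
    simp only [Subgroup.coe_one] at e1
    rw [e1]; exact one_mem _
  · exact e (Subgroup.commutator_mem_commutator ha hb)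

/-- If `g` centralises `a` modulo the center and a power of `g` coprime to `p` centralises `a`, then
`g` centralises `a`. -/
theorem commute_of_coset {g a : G} (ha : a ∈ N) (hz : g * a * g⁻¹ * a⁻¹ ∈ Z) {k : ℕ}
    (hk : k.Coprime p) (hgk : g ^ k * a = a * g ^ k) : g * a = a * g := by
  set z := g * a * g⁻¹ * a⁻¹ with hzdef
  have hzc : ∀ x, x * z = z * x := mem_center_iff.1 hz
  have he : g * a * g⁻¹ = z * a := by rw [hzdef]; group
  have hj : ∀ j : ℕ, g ^ j * a * (g ^ j)⁻¹ = z ^ j * a := by
    intro j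
    induction j with
    | zero => simp
    | succ j ih =>
      calc g ^ (j + 1) * a * (g ^ (j + 1))⁻¹ = g * (g ^ j * a * (g ^ j)⁻¹) * g⁻¹ := by
            rw [pow_succ']; group
        _ = g * z ^ j * a * g⁻¹ := by rw [ih]; group
        _ = z ^ j * (g * a * g⁻¹) := by
            rw [((show Commute g z from hzc g).pow_right j).eq]; group
        _ = z ^ (j + 1) * a := by rw [he, ← mul_assoc, ← pow_succ]
  have h1 : z ^ k = 1 := by
    have := hj k
    rw [hgk, mul_inv_cancel_right] at this
    exact (mul_eq_right.1 this.symm)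
  have h2 : z ^ p = 1 := by
    have e : g * a ^ p * g⁻¹ = z ^ p * a ^ p := by
      rw [← conj_pow, he, (show Commute z a from (hzc a).symm).mul_pow]
    rw [mem_center_iff.1 (h.pow_center a ha) g, mul_inv_cancel_right] at e
    exact mul_eq_right.1 e.symm
  have hz1 : z = 1 := orderOf_eq_one_iff.1 (Nat.eq_one_of_dvd_coprimes hk
    (orderOf_dvd_of_pow_eq_one h1) (orderOf_dvd_of_pow_eq_one h2))
  rw [hz1, one_mul] at he
  exact mul_inv_eq_iff_eq_mul.1 he

theorem mem_B_of_mem_stab {g : G} (hg : g ∈ stab N) {k : ℕ} (hk : k.Coprime p)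
    (hgk : g ^ k = 1) : g ∈ B :=
  mem_centralizer_iff.2 fun a ha =>
    (h.commute_of_coset ha (mem_stab_iff.1 hg a ha) hk (by rw [hgk]; simp)).symm

theorem stab_normal : (stab N).Normal := by
  haveI := h.normal
  haveI : (N.map (QuotientGroup.mk' Z)).Normal :=
    Subgroup.Normal.map h.normal _ (QuotientGroup.mk'_surjective _)
  exact Subgroup.Normal.comap inferInstance _

theorem centralizer_le_stab : B ≤ stab N := fun g hg => mem_stab_iff.2 fun a ha => by
  rw [← mem_centralizer_iff.1 hg a ha, mul_inv_cancel_right, mul_inv_cancel]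
  exact one_mem _

theorem stab_ne_top : stab N ≠ ⊤ := by
  intro e
  refine h.ncentral fun a ha => mem_center_iff.2 fun g => ?_
  have hall : ∀ g, g * a * g⁻¹ * a⁻¹ ∈ Z := fun g =>
    mem_stab_iff.1 (e ▸ mem_top g : g ∈ stab N) a ha
  let f : G →* G := MonoidHom.mk' (fun g => g * a * g⁻¹ * a⁻¹) fun x y => by
    have hc := mem_center_iff.1 (hall y) x
    calc x * y * a * (x * y)⁻¹ * a⁻¹ = x * (y * a * y⁻¹ * a⁻¹) * a * x⁻¹ * a⁻¹ := by group
      _ = (y * a * y⁻¹ * a⁻¹) * (x * a * x⁻¹ * a⁻¹) := by rw [hc]; group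
      _ = (x * a * x⁻¹ * a⁻¹) * (y * a * y⁻¹ * a⁻¹) := (mem_center_iff.1 (hall x) _)
  have := hom_eq_one_of_perfect h.perfect f (fun x y => (mem_center_iff.1 (hall y) _)) g
  have e1 : g * a * g⁻¹ * a⁻¹ = 1 := this
  rw [mul_inv_eq_one, mul_inv_eq_iff_eq_mul] at e1
  exact e1

theorem isSolvable_stab : Group.IsSolvable (stab N) := by
  haveI := h.normal
  haveI := isSolvable_centralizer h.ca h.normal h.ncentral
  set B' := (B).subgroupOf (stab N)
  haveI : Group.IsSolvable B' :=
    Group.isSolvable_of_surjective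
      (f := (Subgroup.subgroupOfEquivOfLe h.centralizer_le_stab).symm.toMonoidHom)
      (MulEquiv.surjective _)
  have key : ∀ x ∈ stab N, ∀ y ∈ stab N, (y * x)⁻¹ * (x * y) ∈ B := by
    intro x hx y hy
    refine mem_centralizer_iff.2 fun a ha => ?_
    have e : ∀ x ∈ stab N, ∀ y ∈ stab N, x * y * a * (x * y)⁻¹ =
        (y * a * y⁻¹ * a⁻¹) * (x * a * x⁻¹ * a⁻¹) * a := by
      intro x hx y hy
      calc x * y * a * (x * y)⁻¹ = x * (y * a * y⁻¹ * a⁻¹) * a * x⁻¹ := by group
        _ = _ := by rw [mem_center_iff.1 (mem_stab_iff.1 hy a ha) x]; group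
    have e1 : x * y * a * (x * y)⁻¹ = y * x * a * (y * x)⁻¹ := by
      rw [e x hx y hy, e y hy x hx, mem_center_iff.1 (mem_stab_iff.1 hy a ha) (x * a * x⁻¹ * a⁻¹)]
    calc a * ((y * x)⁻¹ * (x * y)) = (y * x)⁻¹ * (y * x * a * (y * x)⁻¹) * (x * y) := by group
      _ = (y * x)⁻¹ * (x * y * a * (x * y)⁻¹) * (x * y) := by rw [e1]
      _ = _ := by group
  haveI : B'.Normal := Subgroup.normal_subgroupOf
  haveI : IsMulCommutative (stab N ⧸ B') := ⟨⟨fun u v => by
    obtain ⟨x, rfl⟩ := QuotientGroup.mk_surjective u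
    obtain ⟨y, rfl⟩ := QuotientGroup.mk_surjective v
    rw [← QuotientGroup.mk_mul, ← QuotientGroup.mk_mul, eq_comm, QuotientGroup.eq,
      Subgroup.mem_subgroupOf]
    exact key x x.2 y y.2⟩⟩
  exact (Group.isSolvable_iff_subgroup_quotient B').2
    ⟨inferInstance, Group.isSolvable_of_comm fun u v => (IsMulCommutative.is_comm.comm u v)⟩

theorem stab_le_rad : stab N ≤ R := h.radMax _ h.stab_normal h.isSolvable_stab

theorem centralizer_le_rad : B ≤ R := h.centralizer_le_stab.trans h.stab_le_rad

/-- If `N` is abelian, elements outside its centralizer fix only central elements, provided the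
radical does not centralise `N`. -/
theorem fix_center (hR : ¬ R ≤ B) {g a : G} (hgB : g ∉ B) (hN : N ≤ B) (ha : a ∈ N)
    (hga : g * a = a * g) : a ∈ Z := by
  haveI := h.normal
  haveI := h.radN
  haveI := h.radS
  haveI := isSolvable_sup_normal R (Subgroup.zpowers g)
  have hW : a ∈ Subgroup.centralizer (R : Set G) := mem_centralizer_iff.2 fun r hr => by
    by_contra hra
    exact hgB (mem_centralizer_iff.2 fun n hn =>
      (h.ca.comm (ne_top_of_isSolvable h.nsolv (R ⊔ Subgroup.zpowers g)) (a := a) (b := r)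
        (mem_sup_left (h.le_rad ha)) (mem_sup_left hr) hra (mem_sup_right (mem_zpowers g))
        (mem_sup_left (h.le_rad hn)) hga (mem_centralizer_iff.1 (hN ha) n hn)).symm)
  rcases h.eq_or_le (M := N ⊓ Subgroup.centralizer (R : Set G)) inferInstance inf_le_left with e | e
  · exfalso
    refine hR fun r hr => mem_centralizer_iff.2 fun n hn => ?_
    exact (mem_centralizer_iff.1 ((e.ge hn).2) r hr).symm
  · exact e ⟨ha, hW⟩

/-- Elements of order coprime to `p` outside `C(N)` act without fixed points on `N` modulo the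
center. -/
theorem fpf (hR : ¬ R ≤ B) {g : G} (hg : (orderOf g).Coprime p) (hgB : g ∉ B) {a : G}
    (ha : a ∈ N) (hz : g * a * g⁻¹ * a⁻¹ ∈ Z) : a ∈ Z := by
  haveI := h.normal
  have hga : g * a = a * g := h.commute_of_coset ha hz hg (by rw [pow_orderOf_eq_one]; simp)
  by_cases hN : N ≤ B
  · exact h.fix_center hR hgB hN ha hga
  by_contra hac
  -- `a` is not central in `N`
  obtain ⟨b, hb, hab⟩ : ∃ b ∈ N, b * a ≠ a * b := by
    by_contra hcon
    push Not at hcon
    rcases h.eq_or_le (M := N ⊓ B) inferInstance inf_le_left with e | e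
    · exact hN (e.ge.trans inf_le_right)
    · exact hac (e ⟨ha, mem_centralizer_iff.2 hcon⟩)
  haveI := h.radS
  haveI : Group.IsSolvable N :=
    Group.isSolvable_of_isSolvable_injective (Subgroup.inclusion_injective h.le_rad)
  haveI := isSolvable_sup_normal N (Subgroup.zpowers g)
  have hcen : ∀ v ∈ N, v * a = a * v → g * v = v * g := fun v hv hva =>
    h.ca.comm (ne_top_of_isSolvable h.nsolv (N ⊔ Subgroup.zpowers g)) (a := a) (b := b)
      (mem_sup_left ha) (mem_sup_left hb) hab (mem_sup_right (mem_zpowers g)) (mem_sup_left hv)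
      hga hva
  refine hgB (mem_centralizer_iff.2 fun d hd => Eq.symm ?_)
  set c := d⁻¹ * (g * d * g⁻¹) with hcdef
  have hcN : c ∈ N := mul_mem (inv_mem hd) (h.normal.conj_mem d hd g)
  have hca : c * a = a * c := by
    set z := a * d * a⁻¹ * d⁻¹ with hzdef
    have hzc : ∀ x, x * z = z * x := mem_center_iff.1 (h.commutator_mem_center ha hd)
    have e1 : a * (g * d * g⁻¹) * a⁻¹ = z * (g * d * g⁻¹) := by
      calc a * (g * d * g⁻¹) * a⁻¹ = a * g * d * g⁻¹ * a⁻¹ := by group
        _ = g * a * d * (a * g)⁻¹ := by rw [hga]; group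
        _ = g * a * d * (g * a)⁻¹ := by rw [hga]
        _ = g * z * d * g⁻¹ := by rw [hzdef]; group
        _ = _ := by rw [hzc g]; group
    have e2 : a * c * a⁻¹ = c := by
      calc a * c * a⁻¹ = (a * d * a⁻¹)⁻¹ * (a * (g * d * g⁻¹) * a⁻¹) := by rw [hcdef]; group
        _ = (z * d)⁻¹ * (z * (g * d * g⁻¹)) := by rw [e1, hzdef]; group
        _ = c := by rw [hcdef]; group
    exact (mul_inv_eq_iff_eq_mul.1 e2).symm
  have hgc : g * c = c * g := hcen c hcN hca
  have hj : ∀ j : ℕ, g ^ j * d * (g ^ j)⁻¹ = d * c ^ j := by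
    intro j
    induction j with
    | zero => simp
    | succ j ih =>
      calc g ^ (j + 1) * d * (g ^ (j + 1))⁻¹ = g * (g ^ j * d * (g ^ j)⁻¹) * g⁻¹ := by
            rw [pow_succ']; group
        _ = g * d * g⁻¹ * (g * c ^ j * g⁻¹) := by rw [ih]; group
        _ = d * c * c ^ j := by
            rw [((show Commute g c from hgc).pow_right j).eq, mul_inv_cancel_right, hcdef]; group
        _ = d * c ^ (j + 1) := by rw [mul_assoc, ← pow_succ']
  have hck : c ^ orderOf g = 1 := by
    have := hj (orderOf g)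
    rw [pow_orderOf_eq_one, one_mul, inv_one, mul_one] at this
    exact mul_eq_left.1 this.symm
  have hcZ : c ∈ Z := by
    rw [← mem_center_quotient_iff, ← orderOf_eq_one_iff]
    refine Nat.eq_one_of_dvd_coprimes hg (orderOf_dvd_of_pow_eq_one ?_) (orderOf_dvd_of_pow_eq_one ?_)
    · rw [← map_pow, hck, map_one]
    · rw [← map_pow]; exact mem_center_quotient_iff.2 (h.pow_center c hcN)
  refine h.commute_of_coset hd ?_ hg (by rw [pow_orderOf_eq_one]; simp)
  have e : g * d * g⁻¹ * d⁻¹ = c := by
    have : g * d * g⁻¹ = d * c := by rw [hcdef]; group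
    rw [this, mem_center_iff.1 hcZ d, mul_inv_cancel_right]
  rw [e]; exact hcZ

/-- If the radical centralises `N`, the elements with square in `C(N)` give a contradiction. -/
theorem not_rad_le (hp : p = 2 ∨ Odd p) : ¬ R ≤ B := by
  intro hR
  haveI := h.normal
  haveI := h.radN
  haveI := h.radS
  have hN : N ≤ B := h.le_rad.trans hR
  have hRB : R = B := le_antisymm hR h.centralizer_le_rad
  have hK : stab N ≤ B := h.stab_le_rad.trans hR
  -- an involution modulo `R`
  have heven : 2 ∣ Nat.card (G ⧸ R) := by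
    by_contra hodd
    haveI := Cfsg.Agent.S0205.result (G := G ⧸ R) (Nat.odd_iff.2 (by omega))
    exact h.nsolv ((Group.isSolvable_iff_subgroup_quotient R).2 ⟨inferInstance, inferInstance⟩)
  haveI : Fact (Nat.Prime 2) := ⟨Nat.prime_two⟩
  obtain ⟨xb, hxb⟩ := exists_prime_orderOf_dvd_card' (G := G ⧸ R) 2 heven
  obtain ⟨x, rfl⟩ := QuotientGroup.mk_surjective xb
  have hx2 : x * x ∈ B := by
    rw [← hRB, ← QuotientGroup.eq_one_iff, QuotientGroup.mk_mul, ← pow_two, ← hxb, pow_orderOf_eq_one]
  have hxB : x ∉ B := fun e => by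
    rw [← hRB, ← QuotientGroup.eq_one_iff] at e
    rw [e, orderOf_one] at hxb
    omega
  -- the fixed points of `x` are central
  have hfix : ∀ a ∈ N, x * a = a * x → a ∈ Z := by
    intro a ha hxa
    have hW : ∀ g : G, g * x * g⁻¹ * a = a * (g * x * g⁻¹) := by
      intro g
      by_contra hy
      set y := g * x * g⁻¹ with hydef
      have hy2 : y * y ∈ B := by
        have := (inferInstance : (B).Normal).conj_mem _ hx2 g
        rwa [show g * (x * x) * g⁻¹ = y * y by rw [hydef]; group] at this
      have hxN : x ∈ Subgroup.normalizer ((B ⊔ Subgroup.zpowers (x * y) : Subgroup G) : Set G) := by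
        refine mem_normalizer_of_forall fun s hs => ?_
        have hle : B ⊔ Subgroup.zpowers (x * y) ≤
            (B ⊔ Subgroup.zpowers (x * y)).comap (MulAut.conj x).toMonoidHom := by
          refine sup_le (fun b hb => mem_sup_left ((inferInstance : (B).Normal).conj_mem b hb x))
            (Subgroup.zpowers_le.2 ?_)
          show x * (x * y) * x⁻¹ ∈ B ⊔ Subgroup.zpowers (x * y)
          rw [show x * (x * y) * x⁻¹ = x * x * (y * y) * (x * y)⁻¹ by group]
          exact mul_mem (mem_sup_left (mul_mem hx2 hy2)) (mem_sup_right (inv_mem (mem_zpowers _)))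
        exact hle hs
      haveI := isSolvable_centralizer h.ca h.normal h.ncentral
      haveI := isSolvable_sup_normal B (Subgroup.zpowers (x * y))
      haveI : Group.IsSolvable ↥(B ⊔ Subgroup.zpowers (x * y) ⊔ Subgroup.zpowers x) :=
        Balance.isSolvable_sup (Subgroup.zpowers_le.2 hxN)
      have hyH : y ∈ B ⊔ Subgroup.zpowers (x * y) ⊔ Subgroup.zpowers x := by
        have e : x⁻¹ * (x * y) ∈ B ⊔ Subgroup.zpowers (x * y) ⊔ Subgroup.zpowers x :=
          mul_mem (mem_sup_right (inv_mem (mem_zpowers x)))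
            (mem_sup_left (mem_sup_right (mem_zpowers (x * y))))
        rwa [inv_mul_cancel_left] at e
      exact hxB (mem_centralizer_iff.2 fun n hn =>
        (h.ca.comm (ne_top_of_isSolvable h.nsolv
            (B ⊔ Subgroup.zpowers (x * y) ⊔ Subgroup.zpowers x)) (a := a) (b := y)
          (mem_sup_left (mem_sup_left (hN ha))) hyH hy (mem_sup_right (mem_zpowers x))
          (mem_sup_left (mem_sup_left (hN hn))) hxa (mem_centralizer_iff.1 (hN ha) n hn)).symm)
    rcases h.eq_or_le (M := N ⊓ Subgroup.centralizer (Group.conjugatesOfSet ({x} : Set G)))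
        (by
          refine ⟨fun n hn g => ⟨h.normal.conj_mem n hn.1 g, mem_centralizer_iff.2 fun c hc => ?_⟩⟩
          have e := mem_centralizer_iff.1 hn.2 _ (Group.conj_mem_conjugatesOfSet (c := g⁻¹) hc)
          calc c * (g * n * g⁻¹) = g * (g⁻¹ * c * g⁻¹⁻¹ * n) * g⁻¹ := by group
            _ = g * (n * (g⁻¹ * c * g⁻¹⁻¹)) * g⁻¹ := by rw [e]
            _ = g * n * g⁻¹ * c := by group)
        inf_le_left with e | e
    · exfalso
      exact hxB (mem_centralizer_iff.2 fun n hn => (mem_centralizer_iff.1 ((e.ge hn).2) x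
        (Group.subset_conjugatesOfSet rfl)).symm)
    · refine e ⟨ha, mem_centralizer_iff.2 fun c hc => ?_⟩
      obtain ⟨y, hy, hyc⟩ := Group.mem_conjugatesOfSet_iff.1 hc
      rw [Set.mem_singleton_iff] at hy
      subst hy
      obtain ⟨g, rfl⟩ := isConj_iff.1 hyc
      exact hW g
  -- `x` inverts `N` modulo the center
  have hinv : ∀ a ∈ N, a * (x * a * x⁻¹) ∈ Z := by
    intro a ha
    have hxaN := h.normal.conj_mem a ha x
    refine hfix _ (mul_mem ha hxaN) ?_
    have hcm : x * a * x⁻¹ * a = a * (x * a * x⁻¹) :=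
      mem_centralizer_iff.1 (hN ha) _ hxaN
    have hxx : x * x * a * (x * x)⁻¹ = a := by
      rw [← mem_centralizer_iff.1 hx2 a ha, mul_inv_cancel_right]
    calc x * (a * (x * a * x⁻¹)) = x * a * x⁻¹ * (x * x * a * (x * x)⁻¹) * x := by group
      _ = a * (x * a * x⁻¹) * x := by rw [hxx, hcm]
  have hxK : x ∉ stab N := fun e => hxB (hK e)
  rcases hp with rfl | hpo
  · refine hxK (mem_stab_iff.2 fun a ha => ?_)
    have e : x * a * x⁻¹ * a⁻¹ = (a ^ 2)⁻¹ * (a * (x * a * x⁻¹)) := by
      rw [← mem_centralizer_iff.1 (hN (h.normal.conj_mem a ha x)) a⁻¹ (inv_mem ha), pow_two]; group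
    rw [e]
    exact mul_mem (inv_mem (h.pow_center a ha)) (hinv a ha)
  · -- `[x, G] ≤ C(N)`
    have hcomm : ∀ g : G, g * x * g⁻¹ * x⁻¹ ∈ B := by
      intro g
      refine hK (mem_stab_iff.2 fun a ha => ?_)
      rw [← mem_center_quotient_iff]
      have hπ : ∀ a ∈ N, QuotientGroup.mk' Z (x * a * x⁻¹) = (QuotientGroup.mk' Z a)⁻¹ := fun a ha =>
        eq_inv_of_mul_eq_one_right (by rw [← map_mul]; exact mem_center_quotient_iff.2 (hinv a ha))
      have hπ' : ∀ a ∈ N, QuotientGroup.mk' Z (x⁻¹ * a * x) = (QuotientGroup.mk' Z a)⁻¹ := by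
        intro a ha
        have h' := hπ (x⁻¹ * a * x) (by simpa using h.normal.conj_mem a ha x⁻¹)
        rw [show x * (x⁻¹ * a * x) * x⁻¹ = a by group] at h'
        rw [h', inv_inv]
      have e1 : g * x * g⁻¹ * x⁻¹ * a * (g * x * g⁻¹ * x⁻¹)⁻¹ =
          g * (x * (g⁻¹ * (x⁻¹ * a * x) * g) * x⁻¹) * g⁻¹ := by group
      have ha1 : g⁻¹ * (x⁻¹ * a * x) * g ∈ N := by
        simpa using h.normal.conj_mem _ (h.normal.conj_mem a ha x⁻¹) g⁻¹
      rw [e1, map_mul, map_mul, map_mul, hπ _ ha1]
      simp only [map_mul, map_inv] at hπ' ⊢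
      rw [hπ' a ha]
      group
    haveI : (B ⊔ Subgroup.zpowers x).Normal := by
      refine ⟨fun m hm g => ?_⟩
      have hle : B ⊔ Subgroup.zpowers x ≤ (B ⊔ Subgroup.zpowers x).comap (MulAut.conj g).toMonoidHom := by
        refine sup_le (fun b hb => mem_sup_left ((inferInstance : (B).Normal).conj_mem b hb g))
          (Subgroup.zpowers_le.2 ?_)
        show g * x * g⁻¹ ∈ B ⊔ Subgroup.zpowers x
        rw [show g * x * g⁻¹ = g * x * g⁻¹ * x⁻¹ * x by group]
        exact mul_mem (mem_sup_left (hcomm g)) (mem_sup_right (mem_zpowers x))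
      exact hle hm
    haveI := isSolvable_centralizer h.ca h.normal h.ncentral
    have := h.radMax (B ⊔ Subgroup.zpowers x) inferInstance (isSolvable_sup_normal _ _)
    exact hxB (hR (this (mem_sup_right (mem_zpowers x))))

end Min

end CfsgLib.MinimalNonCA
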