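import Cfsg.Agent.Lib.MinimalNonCA.Central
import Cfsg.Agent.Lib.Frobenius.Kernel
import Cfsg.Agent.Lib.NormalPComplement.FixedPointFree

/-!
A proper perfect normal subgroup `L` of a group all of whose proper subgroups have abelian
centralisers of noncentral elements: the group itself has abelian centralisers of noncentral
elements, apart from one configuration handled separately.
-/

set_option autoImplicit false
set_option linter.style.haveILetI false
set_option linter.unusedSectionVars false

open scoped Pointwise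

namespace CfsgLib.MinimalNonCA

open Subgroup

variable {G : Type*} [Group G] [Finite G]

/-- An abelian centraliser in a perfect group with abelian centralisers is not self-normalising. -/
theorem exists_normalizer_not_mem {L : Type*} [Group L] [Finite L] (hp : commutator L = ⊤)
    (hCA : ∀ a : L, a ∉ Subgroup.center L → ∀ u v : L, u * a = a * u → v * a = a * v → u * v = v * u)
    {l : L} (hl : l ∉ Subgroup.center L) :
    ∃ n ∈ Subgroup.normalizer ((Subgroup.centralizer ({l} : Set L) : Subgroup L) : Set L),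
      n * l ≠ l * n := by
  classical
  by_contra hcon
  push Not at hcon
  set A := Subgroup.centralizer ({l} : Set L)
  set π := QuotientGroup.mk' (Subgroup.center L)
  have hZA : Subgroup.center L ≤ A := fun z hz =>
    mem_centralizer_singleton_iff.2 (mem_center_iff.1 hz l).symm
  set Ab := A.map π
  have hlb : π l ∈ Ab := ⟨l, mem_centralizer_singleton_iff.2 rfl, rfl⟩
  have hl1 : π l ≠ 1 := fun e => hl ((QuotientGroup.eq_one_iff l).1 e)
  have hne1 : Ab ≠ ⊥ := fun e => hl1 (by rw [e, Subgroup.mem_bot] at hlb; exact hlb)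
  have hne2 : Ab ≠ ⊤ := fun e => hl (mem_center_iff.2 fun g => by
    obtain ⟨a, ha, hag⟩ := (e ▸ mem_top (π g) : π g ∈ Ab)
    have h1 : a⁻¹ * g ∈ A := hZA (QuotientGroup.eq.1 hag)
    have := mul_mem ha h1
    rw [mul_inv_cancel_left] at this
    exact mem_centralizer_singleton_iff.1 this)
  have hF : Cfsg.IsFrobeniusComplement Ab := by
    refine ⟨hne1, hne2, fun g hg => (Subgroup.eq_bot_iff_forall _).2 ?_⟩
    rintro y ⟨⟨a, ha, rfl⟩, hy⟩
    replace hy := Subgroup.mem_pointwise_smul_iff_inv_smul_mem.1 hy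
    obtain ⟨k, rfl⟩ := QuotientGroup.mk'_surjective _ g
    obtain ⟨c, hc, hck⟩ := hy
    have hck' : π c = π (k⁻¹ * a * k) := by
      rw [hck]
      simp [MulAut.smul_def, π]
    have hcA : k⁻¹ * a * k ∈ A := by
      have := mul_mem hc (hZA (QuotientGroup.eq.1 hck'))
      rwa [mul_inv_cancel_left] at this
    by_contra hne
    have hac : a ∉ Subgroup.center L := fun e => hne ((QuotientGroup.eq_one_iff a).2 e)
    have hkc : k⁻¹ * a * k ∉ Subgroup.center L := fun e => hac (by
      have := (inferInstance : (Subgroup.center L).Normal).conj_mem _ e k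
      rwa [show k * (k⁻¹ * a * k) * k⁻¹ = a by group] at this)
    have hCeq : ∀ b ∈ A, b ∉ Subgroup.center L → ∀ u : L, u ∈ A ↔ u * b = b * u := by
      intro b hb hbc u
      refine ⟨fun hu => hCA l hl u b (mem_centralizer_singleton_iff.1 hu)
        (mem_centralizer_singleton_iff.1 hb), fun hu => mem_centralizer_singleton_iff.2 ?_⟩
      exact hCA b hbc u l hu (mem_centralizer_singleton_iff.1 hb).symm
    have hkN : k ∈ Subgroup.normalizer (A : Set L) := by
      refine Subgroup.mem_normalizer_iff.2 fun u => ?_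
      rw [hCeq _ hcA hkc u, hCeq a ha hac (k * u * k⁻¹)]
      constructor
      · intro e
        calc k * u * k⁻¹ * a = k * (u * (k⁻¹ * a * k)) * k⁻¹ := by group
          _ = k * (k⁻¹ * a * k * u) * k⁻¹ := by rw [e]
          _ = a * (k * u * k⁻¹) := by group
      · intro e
        calc u * (k⁻¹ * a * k) = k⁻¹ * (k * u * k⁻¹ * a) * k := by group
          _ = k⁻¹ * (a * (k * u * k⁻¹)) * k := by rw [e]
          _ = k⁻¹ * a * k * u := by group
    exact hg ⟨k, mem_centralizer_singleton_iff.2 (hcon k hkN), rfl⟩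
  obtain ⟨N, -, hN, hcompl⟩ := Frobenius.exists_kernel hF
  haveI := hN
  have hqp : commutator (L ⧸ Subgroup.center L) = ⊤ := by
    rw [_root_.commutator_def, ← Subgroup.map_top_of_surjective _
      (QuotientGroup.mk'_surjective (Subgroup.center L)), ← Subgroup.map_commutator,
      ← _root_.commutator_def, hp]
  have hcomm : ∀ x y : Ab, x * y = y * x := by
    rintro ⟨_, a, ha, rfl⟩ ⟨_, b, hb, rfl⟩
    refine Subtype.ext ?_
    show π a * π b = π b * π a
    rw [← map_mul, ← map_mul, hCA l hl a b (mem_centralizer_singleton_iff.1 ha)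
      (mem_centralizer_singleton_iff.1 hb)]
  let e := hcompl.symm.QuotientMulEquiv
  have h1 := hom_eq_one_of_perfect hqp (e.toMonoidHom.comp (QuotientGroup.mk' N))
    (fun x y => hcomm _ _) (π l)
  have : π l ∈ N := (QuotientGroup.eq_one_iff (π l)).1 (e.injective (h1.trans (map_one e).symm))
  exact hl1 ((Subgroup.mem_bot).1 (hcompl.disjoint.le_bot ⟨this, hlb⟩))

variable (hca : ProperCA G) (L : Subgroup G) [hLn : L.Normal] (hLp : commutator L = ⊤)
  (hL1 : L ≠ ⊥) (hLtop : L ≠ ⊤)
include hca hLp hL1 hLtop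

theorem mem_center_of_centralizes {a : G} (ha : ∀ l ∈ L, l * a = a * l) : a ∈ Subgroup.center G :=
  centralizer_perfect_le_center hca L hLp hL1 (mem_centralizer_iff.2 ha)

theorem exists_not_commute {a : G} (ha : a ∉ Subgroup.center G) : ∃ l ∈ L, l * a ≠ a * l := by
  by_contra hcon
  push Not at hcon
  exact ha (mem_center_of_centralizes hca L hLp hL1 hLtop hcon)

theorem subgroupCA : ∀ a : L, a ∉ Subgroup.center L → ∀ u v : L, u * a = a * u → v * a = a * v →
    u * v = v * u := by
  intro a ha u v hu hv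
  obtain ⟨b, hb⟩ : ∃ b : L, b * a ≠ a * b := by
    by_contra hcon
    push Not at hcon
    exact ha (mem_center_iff.2 hcon)
  exact Subtype.ext (hca.comm hLtop a.2 b.2 (fun e => hb (Subtype.ext e)) u.2 v.2
    (congrArg Subtype.val hu) (congrArg Subtype.val hv))

/-- A solvable subgroup of `L` normal in `G` is central. -/
theorem le_center_of_normal {A : Subgroup G} (hA : A ≤ L) [hAn : A.Normal] [hAs : Group.IsSolvable A] :
    A ≤ Subgroup.center G := by
  intro a ha
  refine mem_center_of_centralizes hca L hLp hL1 hLtop fun l hl => ?_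
  haveI : (A.subgroupOf L).Normal := hAn.comap L.subtype
  haveI : Group.IsSolvable (A.subgroupOf L) :=
    Group.isSolvable_of_surjective (f := (Subgroup.subgroupOfEquivOfLe hA).symm.toMonoidHom)
      (MulEquiv.surjective _)
  have := le_center_of_isSolvable (hca.subgroup L) hLp (A.subgroupOf L) (x := ⟨a, hA ha⟩) ha
  exact congrArg Subtype.val (mem_center_iff.1 this ⟨l, hl⟩)

/-- The normalizer of a solvable noncentral subgroup of `L` is proper. -/
theorem normalizer_ne_top {A : Subgroup G} (hA : A ≤ L) [Group.IsSolvable A] {a : G} (ha : a ∈ A)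
    (hac : a ∉ Subgroup.center G) : Subgroup.normalizer (A : Set G) ≠ ⊤ := fun e => by
  haveI : A.Normal := Subgroup.normalizer_eq_top_iff.1 e
  exact hac (le_center_of_normal hca L hLp hL1 hLtop hA ha)

omit [Finite G] hca hLp hL1 hLtop in
/-- Elements commuting with `x` normalise `L ⊓ C(x)`. -/
theorem mem_normalizer_inf {x u : G} (hu : u * x = x * u) :
    u ∈ Subgroup.normalizer ((L ⊓ Subgroup.centralizer ({x} : Set G) : Subgroup G) : Set G) := by
  refine Subgroup.mem_normalizer_iff.2 fun w => ?_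
  simp only [Subgroup.mem_inf, mem_centralizer_singleton_iff]
  have hux : u⁻¹ * x * u = x := by rw [mul_assoc, ← hu, inv_mul_cancel_left]
  constructor
  · rintro ⟨h1, h2⟩
    refine ⟨hLn.conj_mem w h1 u, ?_⟩
    calc u * w * u⁻¹ * x = u * (w * (u⁻¹ * x * u)) * u⁻¹ := by group
      _ = u * (x * w) * u⁻¹ := by rw [hux, h2]
      _ = x * (u * w * u⁻¹) := by rw [← mul_assoc u x w, hu]; group
  · rintro ⟨h1, h2⟩
    refine ⟨by simpa [mul_assoc] using hLn.conj_mem _ h1 u⁻¹, ?_⟩
    calc w * x = u⁻¹ * (u * w * u⁻¹ * (u * x * u⁻¹)) * u := by group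
      _ = u⁻¹ * (u * w * u⁻¹ * x) * u := by rw [hu, mul_inv_cancel_right]
      _ = u⁻¹ * (x * (u * w * u⁻¹)) * u := by rw [h2]
      _ = u⁻¹ * x * u * w := by group
      _ = x * w := by rw [hux]

/-- A centraliser in `G` is abelian when its intersection with `L` is abelian and noncentral. -/
theorem comm_of_abelian_inf {x : G}
    (hD : ∀ a ∈ L, a * x = x * a → ∀ b ∈ L, b * x = x * b → a * b = b * a)
    {d : G} (hd : d ∈ L) (hdx : d * x = x * d) (hdc : d ∉ Subgroup.center G) {u v : G}
    (hu : u * x = x * u) (hv : v * x = x * v) : u * v = v * u := by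
  classical
  set D := L ⊓ Subgroup.centralizer ({x} : Set G)
  have hdD : d ∈ D := ⟨hd, mem_centralizer_singleton_iff.2 hdx⟩
  haveI : Group.IsSolvable D := Group.isSolvable_of_comm fun a b => Subtype.ext
    (hD a a.2.1 (mem_centralizer_singleton_iff.1 a.2.2) b b.2.1 (mem_centralizer_singleton_iff.1 b.2.2))
  have hH := normalizer_ne_top hca L hLp hL1 hLtop (A := D) inf_le_left hdD hdc
  obtain ⟨n, hn, hnx⟩ : ∃ n ∈ Subgroup.normalizer (D : Set G), n * x ≠ x * n := by
    by_contra hcon
    push Not at hcon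
    have hdcL : (⟨d, hd⟩ : L) ∉ Subgroup.center L := fun e => hdc
      (mem_center_of_centralizes hca L hLp hL1 hLtop fun l hl =>
        congrArg Subtype.val (mem_center_iff.1 e ⟨l, hl⟩))
    have hCA := subgroupCA hca L hLp hL1 hLtop
    obtain ⟨m, hm, hmd⟩ := exists_normalizer_not_mem hLp hCA hdcL
    -- `C_L(d) = D`
    have hA : ∀ w : L, w * ⟨d, hd⟩ = ⟨d, hd⟩ * w ↔ (w : G) * x = x * w := by
      intro w
      constructor
      · intro hw
        refine hcon w (Subgroup.mem_normalizer_iff.2 fun y => ?_)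
        have hfix : ∀ z : G, z ∈ D → (w : G) * z * (w : G)⁻¹ = z := fun z hz => by
          have := hCA _ hdcL w ⟨z, hz.1⟩ hw (Subtype.ext (hD z hz.1
            (mem_centralizer_singleton_iff.1 hz.2) d hd hdx))
          have e' : (w : G) * z = z * w := congrArg Subtype.val this
          rw [e', mul_inv_cancel_right]
        refine ⟨fun hy => by rw [hfix y hy]; exact hy, fun hy => ?_⟩
        have e : y = (w : G) * y * (w : G)⁻¹ := by
          have e1 := hfix _ hy
          calc y = (w : G)⁻¹ * ((w : G) * y * (w : G)⁻¹) * w := by group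
            _ = (w : G)⁻¹ * ((w : G) * ((w : G) * y * (w : G)⁻¹) * (w : G)⁻¹) * w := by rw [e1]
            _ = _ := by group
        rw [e]; exact hy
      · intro hw
        exact Subtype.ext (hD w w.2 hw d hd hdx)
    refine hmd ((hA m).2 (hcon m ?_))
    refine Subgroup.mem_normalizer_iff.2 fun y => ?_
    have hy' : ∀ y : L, ((y : G) ∈ D ↔ ((m * y * m⁻¹ : L) : G) ∈ D) := by
      intro y
      have e := Subgroup.mem_normalizer_iff.1 hm y
      simp only [mem_centralizer_singleton_iff, hA] at e
      simp only [D, Subgroup.mem_inf, mem_centralizer_singleton_iff, SetLike.coe_mem, true_and]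
      exact e
    constructor
    · intro hy; exact (hy' ⟨y, hy.1⟩).1 hy
    · intro hy
      have hyL : y ∈ L := by simpa [mul_assoc] using hLn.conj_mem _ hy.1 (m : G)⁻¹
      exact (hy' ⟨y, hyL⟩).2 hy
  exact hca.comm hH (mem_normalizer_inf L (u := x) rfl) hn hnx (mem_normalizer_inf L hu)
    (mem_normalizer_inf L hv) hu hv

/-- Noncentral elements of `L` have abelian centralisers in `G`. -/
theorem comm_of_mem {l : G} (hl : l ∈ L) (hlc : l ∉ Subgroup.center G) {u v : G}
    (hu : u * l = l * u) (hv : v * l = l * v) : u * v = v * u := by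
  obtain ⟨b, hb, hbl⟩ := exists_not_commute hca L hLp hL1 hLtop hlc
  exact comm_of_abelian_inf hca L hLp hL1 hLtop
    (fun a ha hal c hc hcl => hca.comm hLtop hl hb hbl ha hc hal hcl) hl rfl hlc hu hv

/-- **The reduction.** If no noncentral element centralises a nonabelian subgroup of `L`, then all
centralisers of noncentral elements of `G` are abelian. -/
theorem isCA_of_proper_perfect
    (hbad : ∀ x : G, x ∉ Subgroup.center G → (∃ r : ℕ, r.Prime ∧ x ^ r ∈ Subgroup.center G) →
      ∀ a ∈ L, a * x = x * a → ∀ b ∈ L, b * x = x * b → a * b = b * a) :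
    ∀ x : G, x ∉ Subgroup.center G → IsMulCommutative (Subgroup.centralizer ({x} : Set G)) := by
  classical
  intro x hx
  -- reduce to an element of prime order modulo the centre
  set π := QuotientGroup.mk' (Subgroup.center G)
  have hx1 : π x ≠ 1 := fun e => hx ((QuotientGroup.eq_one_iff x).1 e)
  obtain ⟨r, hr, hrd⟩ := Nat.exists_prime_and_dvd (fun e => hx1 (orderOf_eq_one_iff.1 e))
  set y := x ^ (orderOf (π x) / r) with hy
  have hyc : y ∉ Subgroup.center G := fun e => by
    have h1 : π x ^ (orderOf (π x) / r) = 1 := by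
      rw [← map_pow]; exact (QuotientGroup.eq_one_iff _).2 e
    have hpos := orderOf_pos (π x)
    have := Nat.le_of_dvd (Nat.div_pos (Nat.le_of_dvd hpos hrd) hr.pos) (orderOf_dvd_of_pow_eq_one h1)
    have := Nat.div_lt_self hpos hr.one_lt
    omega
  have hyr : y ^ r ∈ Subgroup.center G := (QuotientGroup.eq_one_iff _).1 (by
    show π (y ^ r) = 1
    rw [hy, ← pow_mul, map_pow, Nat.div_mul_cancel hrd, pow_orderOf_eq_one])
  have hcy : ∀ u : G, u * x = x * u → u * y = y * u := fun u hu =>
    ((show Commute u x from hu).pow_right _).eq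
  refine ⟨⟨fun u v => Subtype.ext ?_⟩⟩
  have hu := hcy _ (mem_centralizer_singleton_iff.1 u.2)
  have hv := hcy _ (mem_centralizer_singleton_iff.1 v.2)
  show (u : G) * v = v * u
  have hD := hbad y hyc ⟨r, hr, hyr⟩
  by_cases hd : ∃ d ∈ L, d * y = y * d ∧ d ∉ Subgroup.center G
  · obtain ⟨d, hd, hdy, hdc⟩ := hd
    exact comm_of_abelian_inf hca L hLp hL1 hLtop hD hd hdy hdc hu hv
  push Not at hd
  let Ds : Subgroup G :=
    { carrier := {l | l ∈ L ∧ y * l * y⁻¹ * l⁻¹ ∈ Subgroup.center G}
      one_mem' := ⟨one_mem _, by simp [one_mem]⟩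
      mul_mem' := by
        rintro a b ⟨ha, ha'⟩ ⟨hb, hb'⟩
        refine ⟨mul_mem ha hb, ?_⟩
        have e : y * (a * b) * y⁻¹ * (a * b)⁻¹ =
            (y * a * y⁻¹ * a⁻¹) * (y * b * y⁻¹ * b⁻¹) := by
          calc y * (a * b) * y⁻¹ * (a * b)⁻¹ =
              y * a * y⁻¹ * a⁻¹ * (a * (y * b * y⁻¹ * b⁻¹)) * a⁻¹ := by group
            _ = _ := by rw [mem_center_iff.1 hb' a]; group
        rw [e]; exact mul_mem ha' hb'
      inv_mem' := by
        rintro a ⟨ha, ha'⟩
        refine ⟨inv_mem ha, ?_⟩
        rw [show y * a⁻¹ * y⁻¹ * a⁻¹⁻¹ = a⁻¹ * (y * a * y⁻¹ * a⁻¹)⁻¹ * a by group,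
          mem_center_iff.1 (inv_mem ha') a⁻¹]
        simpa using inv_mem ha' }
  by_cases hds : ∀ l ∈ Ds, l ∈ Subgroup.center G
  · -- `y` acts without fixed points on `L / Z(L)`
    exfalso
    have hmem : ∀ l : L, l ∈ Subgroup.center L ↔ (l : G) ∈ Subgroup.center G := fun l =>
      ⟨fun e => mem_center_of_centralizes hca L hLp hL1 hLtop fun m hm =>
        congrArg Subtype.val (mem_center_iff.1 e ⟨m, hm⟩),
      fun e => mem_center_iff.2 fun m => Subtype.ext (mem_center_iff.1 e m)⟩
    let c : MulAut L := MulAut.conjNormal y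
    have hc : (Subgroup.center L).map c.toMonoidHom = Subgroup.center L :=
      SL2.Dickson.map_center_of_mulEquiv c
    let φ := QuotientGroup.congr _ _ c hc
    have hφ : ∀ l : L, φ (QuotientGroup.mk l) = QuotientGroup.mk (c l) := fun l => rfl
    haveI : Group.IsNilpotent (L ⧸ Subgroup.center L) := by
      refine NormalPComplement.isNilpotent_of_fixedPointFree φ hr (fun g hg => ?_) fun g => ?_
      · obtain ⟨l, rfl⟩ := QuotientGroup.mk_surjective g
        rw [hφ, QuotientGroup.eq] at hg
        refine (QuotientGroup.eq_one_iff l).2 ((hmem l).2 (hds _ ⟨l.2, ?_⟩))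
        have h1 := (hmem _).1 hg
        simp only [Subgroup.coe_mul, Subgroup.coe_inv, c, MulAut.conjNormal_apply] at h1
        have h3 := inv_mem ((inferInstance : (Subgroup.center G).Normal).conj_mem _ h1
          (y * (l : G) * y⁻¹))
        rw [mul_inv_cancel_left, mul_inv_rev, inv_inv] at h3
        exact h3
      · obtain ⟨l, rfl⟩ := QuotientGroup.mk_surjective g
        have key : ∀ i : ℕ, φ^[i] (QuotientGroup.mk l) = QuotientGroup.mk ((c ^ i) l) := by
          intro i
          induction i with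
          | zero => simp
          | succ i ih => rw [Function.iterate_succ_apply', ih, hφ, pow_succ', MulAut.mul_apply]
        rw [key]
        congr 1
        refine Subtype.ext ?_
        rw [show c ^ r = MulAut.conjNormal (y ^ r) from (map_pow _ _ _).symm, MulAut.conjNormal_apply,
          ← mem_center_iff.1 hyr, mul_inv_cancel_right]
    have hqp : commutator (L ⧸ Subgroup.center L) = ⊤ := by
      rw [_root_.commutator_def, ← Subgroup.map_top_of_surjective _
        (QuotientGroup.mk'_surjective (Subgroup.center L)), ← Subgroup.map_commutator,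
        ← _root_.commutator_def, hLp]
    refine hL1 ((Subgroup.eq_bot_iff_forall _).2 fun l hl => ?_)
    have hlc := (QuotientGroup.eq_one_iff (⟨l, hl⟩ : L)).1
      (subsingleton_of_perfect_solvable hqp _)
    have hall : ∀ m : L, m ∈ Subgroup.center L := fun m =>
      (QuotientGroup.eq_one_iff m).1 (subsingleton_of_perfect_solvable hqp _)
    exact congrArg Subtype.val (hom_eq_one_of_perfect hLp (MonoidHom.id L)
      (fun a b => mem_center_iff.1 (hall b) a) ⟨l, hl⟩)
  push Not at hds
  obtain ⟨d, hdDs, hdc⟩ := hds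
  haveI : Group.IsSolvable Ds := by
    let f : Ds →* Subgroup.center G := MonoidHom.mk' (fun l => ⟨_, l.2.2⟩) fun a b => Subtype.ext (by
      show y * (a * b : G) * y⁻¹ * (a * b : G)⁻¹ =
        (y * a * y⁻¹ * (a : G)⁻¹) * (y * b * y⁻¹ * (b : G)⁻¹)
      calc y * (a * b : G) * y⁻¹ * (a * b : G)⁻¹ =
          y * a * y⁻¹ * (a : G)⁻¹ * (a * (y * b * y⁻¹ * (b : G)⁻¹)) * (a : G)⁻¹ := by group
        _ = _ := by rw [mem_center_iff.1 b.2.2 (a : G)]; group)
    haveI : Group.IsSolvable f.ker := Group.isSolvable_of_comm fun a b => Subtype.ext (Subtype.ext (by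
      have h1 : y * ((a : Ds) : G) * y⁻¹ * ((a : Ds) : G)⁻¹ = 1 := congrArg Subtype.val a.2
      rw [mul_inv_eq_one, mul_inv_eq_iff_eq_mul] at h1
      exact (mem_center_iff.1 (hd _ a.1.2.1 h1.symm) ((b : Ds) : G)).symm))
    haveI : Group.IsSolvable (Subgroup.center G) :=
      Group.isSolvable_of_comm fun a b => Subtype.ext ((mem_center_iff.1 a.2 (b : G)).symm)
    haveI : Group.IsSolvable (Ds ⧸ f.ker) := Group.isSolvable_of_isSolvable_injective
      (f := QuotientGroup.kerLift f) (QuotientGroup.kerLift_injective f)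
    exact (Group.isSolvable_iff_subgroup_quotient f.ker).2 ⟨inferInstance, inferInstance⟩
  have hH := normalizer_ne_top hca L hLp hL1 hLtop (A := Ds) (fun l hl => hl.1) hdDs hdc
  have hN : ∀ w : G, w * y = y * w → w ∈ Subgroup.normalizer (Ds : Set G) := by
    intro w hw
    refine mem_normalizer_of_forall fun s hs => ⟨hLn.conj_mem s hs.1 w, ?_⟩
    have hwy : y * w = w * y := hw.symm
    have hwi : y⁻¹ * w⁻¹ = w⁻¹ * y⁻¹ := by rw [← mul_inv_rev, ← mul_inv_rev, hw]
    rw [show y * (w * s * w⁻¹) * y⁻¹ * (w * s * w⁻¹)⁻¹ =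
      (y * w) * s * (w⁻¹ * y⁻¹) * w * s⁻¹ * w⁻¹ by group, hwy, ← hwi,
      show w * y * s * (y⁻¹ * w⁻¹) * w * s⁻¹ * w⁻¹ = w * (y * s * y⁻¹ * s⁻¹) * w⁻¹ by group]
    exact (inferInstance : (Subgroup.center G).Normal).conj_mem _ hs.2 w
  have hdy : d * y ≠ y * d := fun e => hdc (hd d hdDs.1 e)
  have hdH : d ∈ Subgroup.normalizer (Ds : Set G) := Subgroup.le_normalizer hdDs
  exact hca.comm hH (hN y rfl) hdH hdy (hN _ hu) (hN _ hv) hu hv

end CfsgLib.MinimalNonCA
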