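import Cfsg.Agent.Lib.MinimalNonCA.PSLTop
import Cfsg.Agent.Lib.TwMult.D4PPart

/-!
A perfect group all of whose proper subgroups have abelian centralisers of noncentral elements, with
some nonabelian such centraliser and with central quotient `PSL(2, q)`: `q ≡ 3, 5 (mod 8)`, `5 < q`
and the centre is trivial.
-/

set_option autoImplicit false
set_option linter.style.haveILetI false
set_option linter.unusedSectionVars false

open Matrix
open scoped MatrixGroups commutatorElement

namespace CfsgLib.MinimalNonCA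

theorem isSolvable_comap_of_central {G A : Type*} [Group G] [Group A] (π : G →* A)
    (hc : π.ker ≤ Subgroup.center G) (V : Subgroup A) [Group.IsSolvable V] :
    Group.IsSolvable (V.comap π) := by
  let f : V.comap π →* V := π.subgroupComap V
  haveI : IsMulCommutative f.ker := ⟨⟨fun a b => Subtype.ext (Subtype.ext
    (Subgroup.mem_center_iff.1 (hc (show ((b : V.comap π) : G) ∈ π.ker from
      congrArg Subtype.val (show f (b : V.comap π) = 1 from b.2))) ((a : V.comap π) : G)))⟩⟩
  haveI : Group.IsSolvable f.ker := Group.isSolvable_of_comm fun a b => IsMulCommutative.is_comm.comm a b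
  exact Group.isSolvable_of_ker_le_range f.ker.subtype f (by rw [Subgroup.range_subtype])

theorem mem_center_of_comm_mem_center {G : Type*} [Group G] (hp : commutator G = ⊤) {x : G}
    (h : ∀ g : G, g * x * g⁻¹ * x⁻¹ ∈ Subgroup.center G) : x ∈ Subgroup.center G := by
  let f : G →* Subgroup.center G := MonoidHom.mk' (fun g => ⟨g * x * g⁻¹ * x⁻¹, h g⟩) fun g k => by
    apply Subtype.ext
    show g * k * x * (g * k)⁻¹ * x⁻¹ = g * x * g⁻¹ * x⁻¹ * (k * x * k⁻¹ * x⁻¹)
    calc g * k * x * (g * k)⁻¹ * x⁻¹ = g * (k * x * k⁻¹ * x⁻¹) * x * g⁻¹ * x⁻¹ := by group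
      _ = (k * x * k⁻¹ * x⁻¹) * g * x * g⁻¹ * x⁻¹ := by rw [Subgroup.mem_center_iff.1 (h k) g]
      _ = (k * x * k⁻¹ * x⁻¹) * (g * x * g⁻¹ * x⁻¹) := by group
      _ = _ := (Subgroup.mem_center_iff.1 (h k) _).symm
  refine Subgroup.mem_center_iff.2 fun g => ?_
  have e : g * x * g⁻¹ * x⁻¹ = 1 := congrArg Subtype.val (hom_eq_one_of_perfect hp f
    (fun a b => Subtype.ext (Subgroup.mem_center_iff.1 (f b).2 ((f a : Subgroup.center G) : G))) g)
  rwa [mul_inv_eq_one, mul_inv_eq_iff_eq_mul] at e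

namespace PSL

open CfsgLib.SL2 CfsgLib.SL2.Dickson

variable {F : Type} [Field F] [Fintype F]

local notation "SL₂F" => Matrix.SpecialLinearGroup (Fin 2) F
local notation "PSL₂F" => Matrix.ProjectiveSpecialLinearGroup (Fin 2) F
local notation "M₂" => Matrix (Fin 2) (Fin 2) F

/-- The standard element of order four. -/
def jmat : SL₂F := ⟨!![0, 1; -1, 0], by simp [det_fin_two_of]⟩

theorem jmat_coe : ((jmat : SL₂F) : M₂) = !![0, 1; -1, 0] := rfl

theorem exists_umat (h2 : (2 : F) ≠ 0) : ∃ (c d : F) (U : SL₂F), c ^ 2 + d ^ 2 = -1 ∧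
    (U : M₂) = !![c, d; d, -c] ∧ U * jmat = -(jmat * U) := by
  obtain ⟨p, hp⟩ := CharP.exists F
  haveI : Fact p.Prime := ⟨(CharP.char_is_prime_or_zero F p).resolve_right fun h => by
    subst h; haveI := CharP.charP_to_charZero F; exact not_finite F⟩
  haveI : NeZero p := ⟨(Fact.out : p.Prime).ne_zero⟩
  obtain ⟨c₀, d₀, hcd₀⟩ := CharP.sq_add_sq F p (-1)
  obtain ⟨c, d, hcd⟩ : ∃ c d : F, c ^ 2 + d ^ 2 = -1 := ⟨c₀, d₀, by simpa using hcd₀⟩
  let U : SL₂F := ⟨!![c, d; d, -c], by rw [det_fin_two_of]; linear_combination -hcd⟩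
  have cU : (U : M₂) = !![c, d; d, -c] := rfl
  refine ⟨c, d, U, hcd, cU, ?_⟩
  apply Subtype.ext
  ext i j; fin_cases i <;> fin_cases j <;> simp [jmat_coe, cU, Matrix.mul_apply]

variable {G : Type} [Group G] [Finite G] (ρ : G →* Matrix.ProjectiveSpecialLinearGroup (Fin 2) F) {x : G}

/-- If two is a square, an element of order three moves the given element inside a proper
subgroup. -/
theorem false_of_isSquare_two (hca : ProperCA G) (hp : commutator G = ⊤)
    (hs : Function.Surjective ρ) (hk : ρ.ker = Subgroup.center G) (hxc : x ∉ Subgroup.center G)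
    (hx : ρ x = proj (jmat : SL₂F)) (hWx : ∀ g, ρ g * ρ x = ρ x * ρ g → g * x = x * g)
    (h2 : (2 : F) ≠ 0) (hsq : IsSquare (2 : F)) : False := by
  obtain ⟨c, d, U, hcd, cU, hUJ⟩ := exists_umat (F := F) h2
  obtain ⟨r, hr⟩ := hsq
  have hr0 : r ≠ 0 := fun e => h2 (by rw [hr, e, mul_zero])
  set b := r⁻¹ with hbd
  have hb : 2 * b ^ 2 = 1 := by rw [hr, hbd]; field_simp
  have hb0 : b ≠ 0 := inv_ne_zero hr0
  let S : SL₂F := ⟨!![b, b; -b, b], by rw [det_fin_two_of]; linear_combination hb⟩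
  let N : SL₂F := ⟨!![(-1 + c + d) / 2, (1 + d - c) / 2; (-1 + d - c) / 2, (-1 - c - d) / 2], by
    rw [det_fin_two_of]; field_simp; linear_combination -2 * hcd⟩
  have cS : (S : M₂) = !![b, b; -b, b] := rfl
  have cN : (N : M₂) = !![(-1 + c + d) / 2, (1 + d - c) / 2; (-1 + d - c) / 2, (-1 - c - d) / 2] := rfl
  have hSJ : S * jmat = jmat * S := by
    apply Subtype.ext
    ext i j; fin_cases i <;> fin_cases j <;> simp [jmat_coe, cS, Matrix.mul_apply]
  have hSU : S * U = jmat * U * S := by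
    apply Subtype.ext
    ext i j
    fin_cases i <;> fin_cases j <;> simp [jmat_coe, cU, cS, Matrix.mul_apply] <;> ring
  have hNJ : N * jmat = jmat * U * N := by
    apply Subtype.ext
    ext i j
    fin_cases i <;> fin_cases j <;> simp [jmat_coe, cU, cN, Matrix.mul_apply] <;> field_simp <;>
      first | linear_combination hcd | linear_combination -hcd
  have hNU : N * U = jmat * N := by
    apply Subtype.ext
    ext i j
    fin_cases i <;> fin_cases j <;> simp [jmat_coe, cU, cN, Matrix.mul_apply] <;> field_simp <;>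
      first | linear_combination hcd | linear_combination -hcd
  -- the four-group
  have hJU : proj U * proj (jmat : SL₂F) = proj (jmat : SL₂F) * proj U := by
    rw [← map_mul, ← map_mul, proj_eq_iff]; exact Or.inr hUJ
  set V : Subgroup PSL₂F := Subgroup.closure {proj (jmat : SL₂F), proj U} with hV
  have hJV : proj (jmat : SL₂F) ∈ V := Subgroup.subset_closure (Set.mem_insert _ _)
  have hUV : proj U ∈ V := Subgroup.subset_closure (Set.mem_insert_of_mem _ rfl)
  have hVcomm : V ≤ Subgroup.centralizer (V : Set PSL₂F) := by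
    rw [hV, Subgroup.centralizer_closure, Subgroup.closure_le]
    rintro a (rfl | rfl) <;> rintro e (rfl | rfl) <;> first | rfl | exact hJU | exact hJU.symm
  haveI : IsMulCommutative V :=
    ⟨⟨fun a b => Subtype.ext (Subgroup.mem_centralizer_iff.1 (hVcomm b.2) a a.2)⟩⟩
  haveI : Group.IsSolvable V := Group.isSolvable_of_comm fun a b => IsMulCommutative.is_comm.comm a b
  haveI := isSolvable_comap_of_central ρ hk.le V
  set H := Subgroup.normalizer ((V.comap ρ : Subgroup G) : Set G) with hH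
  have hxV : x ∈ V.comap ρ := by rw [Subgroup.mem_comap, hx]; exact hJV
  have hH_ne : H ≠ ⊤ := fun e => by
    haveI : (V.comap ρ).Normal := Subgroup.normalizer_eq_top_iff.1 e
    exact hxc (le_center_of_isSolvable hca hp _ hxV)
  have hmem : ∀ (g : G) (T : SL₂F), ρ g = proj T → proj (T * jmat * T⁻¹) ∈ V →
      proj (T * U * T⁻¹) ∈ V → g ∈ H := by
    intro g T hg hTJ hTU
    refine mem_normalizer_of_forall fun s hs => ?_
    have hle : V ≤ V.comap (MulAut.conj (proj T)).toMonoidHom := by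
      conv_lhs => rw [hV]
      rw [Subgroup.closure_le]
      rintro a (rfl | rfl)
      · simpa using hTJ
      · simpa using hTU
    show ρ (g * s * g⁻¹) ∈ V
    rw [map_mul, map_mul, map_inv, hg]
    exact hle hs
  obtain ⟨s, hs'⟩ := hs (proj S)
  obtain ⟨u, hu'⟩ := hs (proj U)
  obtain ⟨n, hn'⟩ := hs (proj N)
  have hJUV : proj (jmat * U : SL₂F) ∈ V := by rw [map_mul]; exact mul_mem hJV hUV
  have hsH : s ∈ H := hmem s S hs' (by rw [hSJ, mul_inv_cancel_right]; exact hJV)
    (by rw [hSU, mul_inv_cancel_right]; exact hJUV)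
  have huH : u ∈ H := hmem u U hu'
    (by rw [map_mul, map_mul, map_inv]; exact mul_mem (mul_mem hUV hJV) (inv_mem hUV))
    (by rw [mul_inv_cancel_right]; exact hUV)
  have hnH : n ∈ H := hmem n N hn' (by rw [hNJ, mul_inv_cancel_right]; exact hJUV)
    (by rw [hNU, mul_inv_cancel_right]; exact hJV)
  have hxH : x ∈ H := Subgroup.le_normalizer hxV
  have hne : proj S * proj U ≠ proj U * proj S := by
    intro e
    rcases comm_or_anticomm e with e1 | e1 <;>
    · have e00 := congrArg (fun g : SL₂F => (g : M₂) 0 0) e1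
      have e01 := congrArg (fun g : SL₂F => (g : M₂) 0 1) e1
      simp [cU, cS, Matrix.mul_apply] at e00 e01
      have hd0 : (2 * b) * d = 0 := by
        first | linear_combination e00 | linear_combination e01
      have hc0 : (2 * b) * c = 0 := by
        first | linear_combination -e01 | linear_combination e00
      rw [(mul_eq_zero.1 hd0).resolve_left (mul_ne_zero h2 hb0),
        (mul_eq_zero.1 hc0).resolve_left (mul_ne_zero h2 hb0)] at hcd
      exact one_ne_zero (α := F) (by linear_combination hcd)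
  by_cases hnx : n * x = x * n
  · have e := congrArg ρ hnx
    rw [map_mul, map_mul, hn', hx, ← map_mul, hNJ, map_mul, map_mul, mul_left_inj, mul_eq_left,
      proj_eq_one_iff] at e
    rcases e with e | e <;>
    · have e00 := congrArg (fun g : SL₂F => (g : M₂) 0 0) e
      have e11 := congrArg (fun g : SL₂F => (g : M₂) 1 1) e
      simp [cU] at e00 e11
      exact h2 (by first | linear_combination e00 - e11 | linear_combination -e00 - e11)
  · exact hne (by
      rw [← hs', ← hu', ← map_mul, ← map_mul, hca.comm hH_ne hxH hnH hnx hsH huH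
        (hWx s (by rw [hs', hx, ← map_mul, ← map_mul, hSJ]))
        (hWx u (by rw [hu', hx, hJU]))])

/-- The centre is trivial as the lifts of the two anticommuting elements commute. -/
theorem center_eq_bot (hp : commutator G = ⊤) (hs : Function.Surjective ρ)
    (hk : ρ.ker = Subgroup.center G) (hx : ρ x = proj (jmat : SL₂F))
    (hWx : ∀ g, ρ g * ρ x = ρ x * ρ g → g * x = x * g) (h2 : (2 : F) ≠ 0)
    (h4 : 4 < Fintype.card F) (h9 : Fintype.card F ≠ 9) : Subgroup.center G = ⊥ := by
  have hperf : commutator SL₂F = ⊤ := CfsgLib.TwMult.sl2_perfect (by rw [Nat.card_eq_fintype_card]; omega)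
  obtain ⟨φ, hφ⟩ := CfsgLib.TwMult.exists_hom_lift hperf
    (CfsgLib.SchurMult.sl2_hasCyclicSchurMultiplier_one (F := F) (by omega) h9) ρ hs hk.le
    (proj (F := F))
  have hcen : ∀ u, ρ u = 1 → ∀ g, g * u = u * g := fun u hu =>
    Subgroup.mem_center_iff.1 (hk ▸ (MonoidHom.mem_ker.2 hu))
  have hsurj : commutator G ≤ φ.range := by
    rw [commutator_def, Subgroup.commutator_le]
    intro y _ z _
    obtain ⟨a, ha⟩ := proj_surjective (ρ y)
    obtain ⟨b, hb⟩ := proj_surjective (ρ z)
    obtain ⟨k, hk1, rfl⟩ : ∃ k, ρ k = 1 ∧ y = φ a * k :=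
      ⟨(φ a)⁻¹ * y, by rw [map_mul, map_inv, hφ, ha, inv_mul_cancel], by group⟩
    obtain ⟨l, hl1, rfl⟩ : ∃ l, ρ l = 1 ∧ z = φ b * l :=
      ⟨(φ b)⁻¹ * z, by rw [map_mul, map_inv, hφ, hb, inv_mul_cancel], by group⟩
    refine ⟨⁅a, b⁆, ?_⟩
    rw [map_commutatorElement]
    simp only [commutatorElement_def, _root_.mul_inv_rev]
    calc φ a * φ b * (φ a)⁻¹ * (φ b)⁻¹
        = φ a * (φ b * k) * (k⁻¹ * (φ a)⁻¹ * l) * l⁻¹ * (φ b)⁻¹ := by group
      _ = φ a * (k * φ b) * (l * (k⁻¹ * (φ a)⁻¹)) * l⁻¹ * (φ b)⁻¹ := by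
          rw [hcen k hk1 (φ b), hcen l hl1 (k⁻¹ * (φ a)⁻¹)]
      _ = _ := by group
  obtain ⟨c, d, U, hcd, cU, hUJ⟩ := exists_umat (F := F) h2
  have hcomm : φ U * φ jmat = φ jmat * φ U := by
    obtain ⟨k, hk1, hk2⟩ : ∃ k, ρ k = 1 ∧ φ jmat = x * k :=
      ⟨x⁻¹ * φ jmat, by rw [map_mul, map_inv, hφ, hx, inv_mul_cancel], by group⟩
    have h1 : φ U * x = x * φ U := hWx _ (by
      rw [hφ, hx, ← map_mul, ← map_mul, proj_eq_iff]; exact Or.inr hUJ)
    rw [hk2, ← mul_assoc, h1, mul_assoc, hcen k hk1 (φ U), ← mul_assoc]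
  have hneg : φ (-1) = 1 := by
    have e : φ ((-1) * (jmat * U)) = φ (jmat * U) := by
      rw [neg_one_mul, ← hUJ, map_mul, map_mul, hcomm]
    rwa [map_mul, mul_eq_right] at e
  rw [eq_bot_iff]
  intro g hg
  obtain ⟨a, ha⟩ := hsurj (hp ▸ Subgroup.mem_top g)
  rw [Subgroup.mem_bot, ← ha]
  have : proj a = 1 := by rw [← hφ, ha, ← MonoidHom.mem_ker, hk]; exact hg
  rcases (proj_eq_one_iff a).1 this with e | e
  · rw [e, map_one]
  · rw [e, hneg]

end PSL

open CfsgLib.SL2 CfsgLib.SL2.Dickson in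
/-- A perfect group with proper subgroups having abelian centralisers of noncentral elements and
central quotient `PSL(2, q)`, but itself having a nonabelian such centraliser. -/
theorem perfect_psl {G : Type} [Group G] [Finite G] {F : Type} [Field F] [Fintype F]
    (hp : commutator G = ⊤) (hca : ProperCA G)
    (ρ : G →* Matrix.ProjectiveSpecialLinearGroup (Fin 2) F) (hs : Function.Surjective ρ)
    (hk : ρ.ker = Subgroup.center G) {x u v : G} (hxc : x ∉ Subgroup.center G)
    (hu : u * x = x * u) (hv : v * x = x * v) (huv : u * v ≠ v * u) :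
    (Fintype.card F % 8 = 3 ∨ Fintype.card F % 8 = 5) ∧ 5 < Fintype.card F ∧
      Subgroup.center G = ⊥ := by
  classical
  have hxb : ρ x ≠ 1 := fun e => hxc (hk ▸ MonoidHom.mem_ker.2 e)
  have hpp : commutator (Matrix.ProjectiveSpecialLinearGroup (Fin 2) F) = ⊤ := by
    rw [commutator_def, ← Subgroup.map_top_of_surjective ρ hs, ← Subgroup.map_commutator,
      ← commutator_def, hp]
  have h4 : 4 ≤ Nat.card F := by
    by_contra h
    haveI := isSolvable_psl_small (K := F) (by omega)
    exact hxb (subsingleton_of_perfect_solvable hpp _)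
  set W := (Subgroup.centralizer ({ρ x} : Set (Matrix.ProjectiveSpecialLinearGroup (Fin 2) F))).comap ρ
    with hWd
  have hW : ∀ g, g ∈ W ↔ ρ g * ρ x = ρ x * ρ g := fun g => Subgroup.mem_centralizer_singleton_iff
  have hW_ne : W ≠ ⊤ := fun e => hxc (mem_center_of_comm_mem_center hp fun g => by
    have hg : ρ g * ρ x = ρ x * ρ g := (hW g).1 (by rw [e]; trivial)
    rw [← hk, MonoidHom.mem_ker]
    simp only [map_mul, map_inv]
    rw [hg, mul_inv_cancel_right, mul_inv_cancel])
  have hxW : x ∈ W := (hW x).2 rfl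
  have huW : u ∈ W := (hW u).2 (by rw [← map_mul, ← map_mul, hu])
  have hvW : v ∈ W := (hW v).2 (by rw [← map_mul, ← map_mul, hv])
  have hWx : ∀ g, ρ g * ρ x = ρ x * ρ g → g * x = x * g := fun g hg =>
    hca W hW_ne x hxW u huW v hvW hu hv huv g ((hW g).2 hg)
  obtain ⟨s, t, hst, hs1, ht1⟩ : ∃ s t, s * t ≠ t * s ∧ s * ρ x = ρ x * s ∧ t * ρ x = ρ x * t := by
    by_contra hcon
    push Not at hcon
    set C := Subgroup.centralizer ({ρ x} : Set (Matrix.ProjectiveSpecialLinearGroup (Fin 2) F))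
    haveI : IsMulCommutative C := ⟨⟨fun a b => Subtype.ext (by_contra fun hne =>
      hcon a b hne (Subgroup.mem_centralizer_singleton_iff.1 a.2)
        (Subgroup.mem_centralizer_singleton_iff.1 b.2))⟩⟩
    haveI : Group.IsSolvable C := Group.isSolvable_of_comm fun a b => IsMulCommutative.is_comm.comm a b
    haveI : Group.IsSolvable W := isSolvable_comap_of_central ρ hk.le C
    have hN : Subgroup.normalizer (W : Set G) ≠ ⊤ := fun e => by
      haveI : W.Normal := Subgroup.normalizer_eq_top_iff.1 e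
      exact hxc (le_center_of_isSolvable hca hp _ hxW)
    obtain ⟨n, hn1, hn2⟩ := PSL.exists_mover h4 hxb
    obtain ⟨g, hg⟩ := hs n⁻¹
    have hgN : g ∈ Subgroup.normalizer (W : Set G) := mem_normalizer_of_forall fun w hw => by
      rw [hW] at hw ⊢
      rw [map_mul, map_mul, map_inv, hg, inv_inv]
      have h1 : ρ w * (n * ρ x * n⁻¹) = n * ρ x * n⁻¹ * ρ w := by_contra fun hne =>
        hcon _ _ hne hw hn2
      calc n⁻¹ * ρ w * n * ρ x = n⁻¹ * (ρ w * (n * ρ x * n⁻¹)) * n := by group
        _ = n⁻¹ * (n * ρ x * n⁻¹ * ρ w) * n := by rw [h1]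
        _ = _ := by group
    have hgx : g * x = x * g :=
      hca _ hN x (Subgroup.le_normalizer hxW) u (Subgroup.le_normalizer huW) v
        (Subgroup.le_normalizer hvW) hu hv huv g hgN
    have e := congrArg ρ hgx
    rw [map_mul, map_mul, hg] at e
    apply hn1
    calc n * ρ x * n⁻¹ = n * (ρ x * n⁻¹) := by group
      _ = n * (n⁻¹ * ρ x) := by rw [e]
      _ = _ := by group
  have h2 : (2 : F) ≠ 0 := fun e => hst (PSL.comm_of_two e _ hxb s hs1 t ht1)
  have h35 : Fintype.card F ≠ 5 := fun e =>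
    hst (PSL.small_comm (Or.inr (by rw [Nat.card_eq_fintype_card, e])) _ hxb s hs1 t ht1)
  obtain ⟨X, U, hX, -, hUX, -⟩ := PSL.exists_anticomm hxb hs1 ht1 hst
  have htX := PSL.trace_zero_of_anticomm h2 hUX
  obtain ⟨g, hg⟩ := isConj_iff.1 (isConj_of_tr_eq (g := (PSL.jmat : SL(2, F))) (h := X)
    (by intro e; simp [tr, PSL.jmat_coe] at e
        exact h2 (mul_self_eq_zero.1 (by linear_combination -e)))
    (by rw [htX]; simp [tr, PSL.jmat_coe]))
  set ρ' := (MulAut.conj (proj g)⁻¹).toMonoidHom.comp ρ with hρ'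
  have hs' : Function.Surjective ρ' := (MulAut.conj (proj g)⁻¹).surjective.comp hs
  have hk' : ρ'.ker = Subgroup.center G := by
    rw [← hk]
    ext a
    rw [MonoidHom.mem_ker, MonoidHom.mem_ker]
    exact (MulAut.conj (proj g)⁻¹).map_eq_one_iff
  have hx' : ρ' x = proj (PSL.jmat : SL(2, F)) := by
    show MulAut.conj (proj g)⁻¹ (ρ x) = _
    rw [← hX, MulAut.conj_apply, inv_inv, ← map_inv, ← map_mul, ← map_mul, ← hg]
    congr 1; group
  have hWx' : ∀ a, ρ' a * ρ' x = ρ' x * ρ' a → a * x = x * a := fun a ha => hWx a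
    ((MulAut.conj (proj g)⁻¹).injective (by rw [map_mul, map_mul]; exact ha))
  have h8 : Fintype.card F % 8 = 3 ∨ Fintype.card F % 8 = 5 := by
    by_contra hcon
    push Not at hcon
    exact PSL.false_of_isSquare_two ρ' hca hp hs' hk' hxc hx' hWx' h2
      (FiniteField.isSquare_two_iff.2 hcon)
  rw [Nat.card_eq_fintype_card] at h4
  exact ⟨h8, by omega, PSL.center_eq_bot ρ' hp hs' hk' hx' hWx' h2 (by omega) (by omega)⟩

end CfsgLib.MinimalNonCA
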