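import Cfsg.Agent.Lib.MinimalNonCA.Central
import Cfsg.Agent.Lib.MinimalNonCA.Converse
import Cfsg.Agent.Lib.SL2.Sylow
import Cfsg.Agent.Lib.SL2.Torus
import Cfsg.Agent.Lib.SL2.Unipotent

/-!
A perfect group all of whose proper subgroups have abelian centralisers of noncentral elements, with
some nonabelian such centraliser and with central quotient `PSL(2, q)`: then `q ≡ 3, 5 (mod 8)` and
the centre is trivial.
-/

set_option autoImplicit false
set_option linter.style.haveILetI false
set_option linter.unusedSectionVars false

open Matrix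
open scoped MatrixGroups

namespace CfsgLib.MinimalNonCA.PSL

open CfsgLib.SL2 CfsgLib.SL2.Dickson
open CfsgLib.ClassicalLinear (upS upS_coe upS_add upS_injective)

variable {F : Type*} [Field F] [Finite F]

local notation "SL₂F" => Matrix.SpecialLinearGroup (Fin 2) F
local notation "PSL₂F" => Matrix.ProjectiveSpecialLinearGroup (Fin 2) F
local notation "M₂" => Matrix (Fin 2) (Fin 2) F

theorem two_dvd_of_two_eq_zero (h2 : (2 : F) = 0) : ∀ g : SL₂F, -g = g := fun g =>
  Subtype.ext (by
    have : (-1 : F) = 1 := by linear_combination -h2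
    show -(g : M₂) = g
    rw [← neg_one_smul F (g : M₂), this, one_smul])

/-- In characteristic two all centralisers of nontrivial elements are abelian. -/
theorem comm_of_two (h2 : (2 : F) = 0) : ∀ x : PSL₂F, x ≠ 1 → ∀ u : PSL₂F, u * x = x * u →
    ∀ v : PSL₂F, v * x = x * v → u * v = v * u := by
  intro x hx u hu v hv
  by_contra huv
  obtain ⟨X, rfl⟩ := proj_surjective x
  obtain ⟨U, rfl⟩ := proj_surjective u
  obtain ⟨V, rfl⟩ := proj_surjective v
  have hX : X ∉ Subgroup.center SL₂F := fun e => hx ((QuotientGroup.eq_one_iff X).2 e)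
  have key : ∀ {W : SL₂F}, proj W * proj X = proj X * proj W → W * X = X * W := fun h => by
    rcases comm_or_anticomm h with e | e
    · exact e
    · rwa [two_dvd_of_two_eq_zero h2] at e
  exact huv (by rw [← map_mul, ← map_mul, centralizer_mulComm hX
    (Subgroup.mem_centralizer_singleton_iff.2 (key hu))
    (Subgroup.mem_centralizer_singleton_iff.2 (key hv))])

/-- An element with abelian centraliser is moved by some element to a different one commuting with
it. -/
theorem exists_mover (h4 : 4 ≤ Nat.card F) {y : PSL₂F} (hy : y ≠ 1) :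
    ∃ n : PSL₂F, n * y * n⁻¹ ≠ y ∧ n * y * n⁻¹ * y = y * (n * y * n⁻¹) := by
  classical
  obtain ⟨Y, rfl⟩ := proj_surjective y
  have hY : Y ∉ Subgroup.center SL₂F := fun e => hy ((QuotientGroup.eq_one_iff Y).2 e)
  by_cases ht : tr Y ^ 2 = 4
  · obtain ⟨k, ε, b, hε, hk⟩ := trichotomy ht
    have hb : b ≠ 0 := by
      rintro rfl
      rw [upS_zero, mul_one] at hk
      exact hY (by
        have := (inferInstance : (Subgroup.center SL₂F).Normal).conj_mem ε hε k⁻¹
        rwa [show k⁻¹ * ε * k⁻¹⁻¹ = Y by rw [← hk]; group] at this)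
    obtain ⟨t, ht0, ht2⟩ := CfsgLib.ClassicalLinear.exists_sq_ne_one_of_four_le_card (F := F) h4
    set a : Fˣ := Units.mk0 t ht0
    have hpε : proj ε = 1 := (QuotientGroup.eq_one_iff ε).2 hε
    have hpy : proj Y = (proj k)⁻¹ * proj (upS b) * proj k := by
      rw [show Y = k⁻¹ * (ε * upS b) * k by rw [← hk]; group, map_mul, map_mul, map_mul, map_inv, hpε,
        one_mul]
    refine ⟨(proj k)⁻¹ * proj (SL2.diag a) * proj k, ?_, ?_⟩
    · intro e
      rw [hpy] at e
      have e1 : proj (SL2.diag a * upS b * (SL2.diag a)⁻¹) = proj (upS b) := by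
        have := congrArg (fun z => proj k * z * (proj k)⁻¹) e
        simp only [map_mul, map_inv]
        calc proj (SL2.diag a) * proj (upS b) * (proj (SL2.diag a))⁻¹ = _ := by group
          _ = _ := this
          _ = _ := by group
      rw [conj_diag_upS, proj_eq_iff] at e1
      rcases e1 with e1 | e1
      · have h := upS_injective e1
        rw [show (a : F) = t from rfl] at h
        have : (t ^ 2 - 1) * b = 0 := by linear_combination h
        rcases mul_eq_zero.1 this with e2 | e2
        · exact ht2 (by linear_combination e2)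
        · exact hb e2
      · have h := congrArg (fun z : SL₂F => (z : M₂) 0 0) e1
        simp [upS_coe] at h
        have h2 : (2 : F) = 0 := by linear_combination h
        rw [two_dvd_of_two_eq_zero h2] at e1
        have h := upS_injective e1
        rw [show (a : F) = t from rfl] at h
        have : (t ^ 2 - 1) * b = 0 := by linear_combination h
        rcases mul_eq_zero.1 this with e2 | e2
        · exact ht2 (by linear_combination e2)
        · exact hb e2
    · rw [hpy]
      calc _ = (proj k)⁻¹ * (proj (SL2.diag a * upS b * (SL2.diag a)⁻¹) * proj (upS b)) * proj k := by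
            simp only [map_mul, map_inv]; group
        _ = (proj k)⁻¹ * (proj (upS b) * proj (SL2.diag a * upS b * (SL2.diag a)⁻¹)) * proj k := by
            rw [conj_diag_upS, ← map_mul, ← map_mul, ← upS_add, ← upS_add, add_comm]
        _ = _ := by simp only [map_mul, map_inv]; group
  · by_cases ht0 : tr Y = 0
    · have h2 : (2 : F) ≠ 0 := fun e => ht (by rw [ht0]; linear_combination -2 * e)
      haveI := Fintype.ofFinite F
      obtain ⟨p, hp⟩ := CharP.exists F
      haveI : Fact p.Prime := ⟨(CharP.char_is_prime_or_zero F p).resolve_right fun h => by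
        subst h; haveI := CharP.charP_to_charZero F; exact not_finite F⟩
      haveI : NeZero p := ⟨(Fact.out : p.Prime).ne_zero⟩
      obtain ⟨c₀, d₀, hcd₀⟩ := CharP.sq_add_sq F p (-1)
      obtain ⟨c, d, hcd⟩ : ∃ c d : F, c ^ 2 + d ^ 2 = -1 := ⟨c₀, d₀, by simpa using hcd₀⟩
      let X : SL₂F := ⟨!![0, 1; -1, 0], by simp [det_fin_two_of]⟩
      let U : SL₂F := ⟨!![c, d; d, -c], by rw [det_fin_two_of]; linear_combination -hcd⟩
      have cX : (X : M₂) = !![0, 1; -1, 0] := rfl
      have cU : (U : M₂) = !![c, d; d, -c] := rfl
      obtain ⟨g, hg⟩ := isConj_iff.1 (isConj_of_tr_eq (g := X) (h := Y)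
        (by intro e; simp [tr, cX] at e; exact h2 (mul_self_eq_zero.1 (by linear_combination -e)))
        (by rw [ht0]; simp [tr, cX]))
      obtain ⟨n, hn⟩ := isConj_iff.1 (isConj_of_tr_eq (g := Y) (h := g * U * g⁻¹) ht
        (by rw [tr_conj, ht0]; simp [tr, cU]))
      have hUX : U * X = -(X * U) := by
        apply Subtype.ext
        ext i j; fin_cases i <;> fin_cases j <;> simp [cX, cU, Matrix.mul_apply]
      have hac : (g * U * g⁻¹) * Y = -(Y * (g * U * g⁻¹)) := by
        rw [← hg]
        calc g * U * g⁻¹ * (g * X * g⁻¹) = g * (U * X) * g⁻¹ := by group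
          _ = -(g * (X * U) * g⁻¹) := by rw [hUX, mul_neg, neg_mul]
          _ = _ := by congr 1; group
      refine ⟨proj n, ?_, ?_⟩
      · rw [← map_inv, ← map_mul, ← map_mul, hn]
        intro e
        have hYY : ∀ W : SL₂F, W = -W → False := fun W hW => by
          have h00 := congrArg (fun z : SL₂F => (z : M₂) 0 0) hW
          have h10 := congrArg (fun z : SL₂F => (z : M₂) 1 0) hW
          simp at h00 h10
          have a0 : (W : M₂) 0 0 = 0 :=
            (mul_eq_zero.1 (show (2 : F) * (W : M₂) 0 0 = 0 by linear_combination h00)).resolve_left h2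
          have b0 : (W : M₂) 1 0 = 0 :=
            (mul_eq_zero.1 (show (2 : F) * (W : M₂) 1 0 = 0 by linear_combination h10)).resolve_left h2
          have := W.det_coe
          rw [det_fin_two, a0, b0] at this
          simp at this
        rcases (proj_eq_iff _ _).1 e with e1 | e1 <;> rw [e1] at hac
        · exact hYY _ hac
        · rw [neg_mul, mul_neg] at hac; exact hYY _ hac
      · rw [← map_inv, ← map_mul, ← map_mul, hn, ← map_mul, ← map_mul, proj_eq_iff]
        exact Or.inr hac
    · obtain ⟨n, hn⟩ := isConj_iff.1 (isConj_of_tr_eq (g := Y) (h := Y⁻¹) ht (tr_inv Y))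
      refine ⟨proj n, ?_, ?_⟩
      · rw [← map_inv, ← map_mul, ← map_mul, hn]
        intro e
        apply hY
        rw [mem_center_iff_isScalarMat, isScalarMat_iff]
        rcases (proj_eq_iff _ _).1 e with e1 | e1
        · have e2 := congrArg (fun z : SL₂F => (z : M₂)) e1
          simp only [coe_inv_eq] at e2
          by_cases h2 : (2 : F) = 0
          · exfalso
            have h00 := congrFun (congrFun e2 0) 0
            simp at h00
            exact ht0 (by linear_combination h00 + (Y : M₂) 0 0 * h2)
          · refine ⟨tr Y / 2, ?_⟩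
            have : (2 : F) • (Y : M₂) = tr Y • (1 : M₂) := by
              rw [two_smul]; nth_rw 1 [← e2]; abel
            rw [div_eq_inv_mul, mul_smul, ← this, smul_smul, inv_mul_cancel₀ h2, one_smul]
        · have e2 := congrArg (fun z : SL₂F => (z : M₂) 0 0) e1
          simp [coe_inv_eq, Matrix.adjugate_fin_two] at e2
          exact absurd (show tr Y = 0 by simp only [tr, Matrix.trace_fin_two]; linear_combination e2) ht0
      · rw [← map_inv, ← map_mul, ← map_mul, hn, ← map_mul, ← map_mul, inv_mul_cancel, mul_inv_cancel]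

end CfsgLib.MinimalNonCA.PSL
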