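import Cfsg.Agent.Lib.MinimalNonCA.RankFpf
import Cfsg.Agent.Lib.AbelianTwo.Bound
import Cfsg.Agent.Lib.SchurMult.Criterion

/-!
Perfect groups all of whose proper subgroups have abelian centralisers of noncentral elements, with
abelian Sylow 2-subgroups of rank at least three modulo the centre: the central quotient is
`PSL(2, 2 ^ n)`.
-/

set_option autoImplicit false
set_option linter.style.haveILetI false
set_option linter.unusedSectionVars false

namespace CfsgLib.MinimalNonCA

open Subgroup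
open scoped commutatorElement

variable {L : Type*} [Group L] [Finite L]

local notation "Q" => L ⧸ Subgroup.center L
local notation "pr" => QuotientGroup.mk' (Subgroup.center L)
local notation "θ" => Cfsg.centralizerPPrimeCore 2

/-- The image of a Sylow subgroup in the central quotient. -/
noncomputable def qSylow (S : Sylow 2 L) : Sylow 2 Q :=
  haveI : Fact (Nat.Prime 2) := ⟨Nat.prime_two⟩
  S.mapSurjective (QuotientGroup.mk'_surjective (Subgroup.center L))

theorem qSylow_coe (S : Sylow 2 L) : (qSylow S : Subgroup Q) = (S : Subgroup L).map pr := rfl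

theorem pr_mem {S : Sylow 2 L} {s : L} (hs : s ∈ (S : Subgroup L)) :
    pr s ∈ (qSylow S : Subgroup Q) := ⟨s, hs, rfl⟩

theorem exists_sylow_lift (R : Sylow 2 Q) : ∃ S : Sylow 2 L, qSylow S = R :=
  haveI : Fact (Nat.Prime 2) := ⟨Nat.prime_two⟩
  Sylow.mapSurjective_surjective (QuotientGroup.mk'_surjective (Subgroup.center L)) 2 R

/-- Central 2-elements lie in every Sylow subgroup. -/
theorem mem_sylow_of_center {S : Sylow 2 L} {z : L} (hz : z ∈ Subgroup.center L) {k : ℕ}
    (hk : z ^ 2 ^ k = 1) : z ∈ (S : Subgroup L) := by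
  haveI : Fact (Nat.Prime 2) := ⟨Nat.prime_two⟩
  obtain ⟨m, -, hm⟩ := (Nat.dvd_prime_pow Nat.prime_two).1 (orderOf_dvd_of_pow_eq_one hk)
  have hp : IsPGroup 2 (Subgroup.zpowers z) := IsPGroup.of_card (n := m) (by rw [Nat.card_zpowers, hm])
  haveI : (Subgroup.zpowers z).Normal := ⟨fun a ha g => by
    obtain ⟨i, rfl⟩ := mem_zpowers_iff.1 ha
    rw [mem_center_iff.1 (zpow_mem hz i) g, mul_inv_cancel_right]
    exact zpow_mem (mem_zpowers z) i⟩
  have h1 := S.is_maximal' (hp.to_sup_of_normal_left S.2) le_sup_right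
  exact h1 ▸ mem_sup_left (mem_zpowers z)

/-- 2-elements over the image of a Sylow subgroup lie in it. -/
theorem mem_sylow_of_pr {S : Sylow 2 L} {g : L} (hg : pr g ∈ (qSylow S : Subgroup Q)) {k : ℕ}
    (hk : g ^ 2 ^ k = 1) : g ∈ (S : Subgroup L) := by
  obtain ⟨s, hs, hse⟩ := hg
  have hz : s⁻¹ * g ∈ Subgroup.center L := QuotientGroup.eq.1 hse
  obtain ⟨j, hj⟩ := S.isPGroup' ⟨s, hs⟩
  have hj' : s ^ 2 ^ j = 1 := congrArg Subtype.val hj
  have hc : Commute s g := by
    have h1 : Commute s (s * (s⁻¹ * g)) := (Commute.refl s).mul_right (mem_center_iff.1 hz s)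
    rwa [mul_inv_cancel_left] at h1
  have h2 : (s⁻¹ * g) ^ 2 ^ (j + k) = 1 := by
    rw [hc.inv_left.mul_pow, inv_pow, pow_add, pow_mul, hj', one_pow, inv_one, one_mul, mul_comm,
      pow_mul, hk, one_pow]
  have h3 := mul_mem hs (mem_sylow_of_center (S := S) hz h2)
  rwa [mul_inv_cancel_left] at h3

theorem sq_mem_centralizer {t g : L} (ht2 : t * t ∈ Subgroup.center L) (hg : g ∈ wideCentralizer t) :
    g * g ∈ Subgroup.centralizer ({t} : Set L) ∧
      (g * t * g⁻¹ * t⁻¹) * (g * t * g⁻¹ * t⁻¹) = 1 := by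
  set z := g * t * g⁻¹ * t⁻¹ with hzd
  have hz : ∀ a, a * z = z * a := mem_center_iff.1 (mem_wideCentralizer.1 hg)
  clear_value z
  have e : g * t * g⁻¹ = z * t := by rw [hzd]; group
  have e2 : g * (t * t) * g⁻¹ = z * z * (t * t) := by
    calc g * (t * t) * g⁻¹ = (g * t * g⁻¹) * (g * t * g⁻¹) := by group
      _ = z * (t * z) * t := by rw [e]; group
      _ = z * z * (t * t) := by rw [hz t]; group
  have h1 : z * z = 1 := by
    rw [mem_center_iff.1 ht2 g, mul_inv_cancel_right] at e2
    simpa using e2.symm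
  refine ⟨mem_centralizer_singleton_iff.2 ?_, h1⟩
  calc g * g * t = g * (g * t * g⁻¹) * g := by group
    _ = (g * z) * t * g := by rw [e]; group
    _ = z * (g * t * g⁻¹) * g * g := by rw [hz g]; group
    _ = t * (g * g) := by rw [e, ← mul_assoc, h1, one_mul]; group

/-- Elements of odd order of the wide centraliser centralise. -/
theorem mem_centralizer_of_odd {t g : L} (ht2 : t * t ∈ Subgroup.center L)
    (hg : g ∈ wideCentralizer t) (ho : Odd (orderOf g)) :
    g ∈ Subgroup.centralizer ({t} : Set L) := by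
  obtain ⟨k, hk⟩ := ho
  have h1 : g = (g * g) ^ (k + 1) := by
    rw [← pow_two, ← pow_mul, show 2 * (k + 1) = orderOf g + 1 by omega, pow_succ,
      pow_orderOf_eq_one, one_mul]
  rw [h1]
  exact pow_mem (sq_mem_centralizer ht2 hg).1 _

theorem orderOf_conjBy {A : Type*} [Group A] (g x : A) : orderOf (g * x * g⁻¹) = orderOf x :=
  MulEquiv.orderOf_eq (MulAut.conj g) x

theorem mem_theta_of_normal {t y : L} (K : Subgroup L) (hK : K ≤ wideCentralizer t)
    (hn : ∀ w ∈ wideCentralizer t, ∀ k ∈ K, w * k * w⁻¹ ∈ K) (ho : Odd (Nat.card K)) (hy : y ∈ K) :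
    pr y ∈ θ (pr t) := by
  set C := Subgroup.centralizer ({pr t} : Set Q)
  set M := (K.map pr).subgroupOf C
  have hle : K.map pr ≤ C := by
    rintro _ ⟨k, hk, rfl⟩; exact hK hk
  haveI : M.Normal := ⟨fun a ha c => by
    obtain ⟨k, hk, hka⟩ := mem_subgroupOf.1 ha
    obtain ⟨w, hw⟩ := QuotientGroup.mk'_surjective (Subgroup.center L) (c : Q)
    refine mem_subgroupOf.2 ⟨w * k * w⁻¹, hn w ?_ k hk, ?_⟩
    · show pr w ∈ C; rw [hw]; exact c.2
    · simp only [map_mul, map_inv, hw, hka, Subgroup.coe_mul, Subgroup.coe_inv]⟩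
  have hM : (Nat.card M).Coprime 2 := by
    rw [Nat.card_congr (Subgroup.subgroupOfEquivOfLe hle).toEquiv]
    exact Nat.coprime_two_right.2 (ho.of_dvd_nat (Subgroup.card_map_dvd _ _))
  refine ⟨⟨pr y, hle ⟨y, hy, rfl⟩⟩, ?_, rfl⟩
  exact le_sSup (show M ∈ {N : Subgroup C | N.Normal ∧ (Nat.card N).Coprime 2} from
    ⟨inferInstance, hM⟩) (mem_subgroupOf.2 ⟨y, hy, rfl⟩)

theorem exists_odd_lift {t : L} {y : Q} (hy : y * pr t = pr t * y) (ho : Odd (orderOf y)) :
    ∃ g ∈ wideCentralizer t, Odd (orderOf g) ∧ y ∈ Subgroup.zpowers (pr g) := by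
  obtain ⟨g0, rfl⟩ := QuotientGroup.mk'_surjective _ y
  set a := (orderOf g0).factorization 2
  refine ⟨g0 ^ 2 ^ a, pow_mem (show g0 ∈ wideCentralizer t from
    mem_centralizer_singleton_iff.2 hy) _, ?_, ?_⟩
  · have h1 : 2 ^ a ∣ orderOf g0 := Nat.ordProj_dvd _ _
    rw [orderOf_pow_of_dvd (by positivity) h1]
    exact Nat.odd_iff.2 (Nat.two_dvd_ne_zero.1 (Nat.not_dvd_ordCompl Nat.prime_two (orderOf_pos g0).ne'))
  · obtain ⟨m, hm⟩ := exists_pow_eq_self_of_coprime
      ((Nat.Coprime.pow_left a (Nat.coprime_two_left.2 ho)))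
    refine mem_zpowers_iff.2 ⟨m, ?_⟩
    rw [zpow_natCast, map_pow, ← pow_mul, mul_comm, pow_mul]
    rw [← pow_mul, mul_comm, pow_mul] at hm
    exact hm

/-- Burnside's normal complement inside a subgroup. -/
theorem exists_odd_complement {M : Subgroup L} (SM : Sylow 2 M)
    (hN : Subgroup.normalizer ((SM : Subgroup M) : Set M) ≤
      Subgroup.centralizer ((SM : Subgroup M) : Set M)) :
    ∃ K : Subgroup L, K ≤ M ∧ (∀ w ∈ M, ∀ k ∈ K, w * k * w⁻¹ ∈ K) ∧ Odd (Nat.card K) ∧
      ∀ g ∈ M, Odd (orderOf g) → g ∈ K := by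
  haveI : Fact (Nat.Prime 2) := ⟨Nat.prime_two⟩
  have hodd := MonoidHom.not_dvd_card_ker_transferSylow SM hN
  generalize hf : MonoidHom.transferSylow SM hN = f at hodd
  refine ⟨f.ker.map M.subtype, map_subtype_le _, fun w hw k hk => ?_, ?_, fun g hg ho => ?_⟩
  · obtain ⟨k0, hk0, rfl⟩ := hk
    exact ⟨⟨w, hw⟩ * k0 * ⟨w, hw⟩⁻¹, (inferInstance : f.ker.Normal).conj_mem k0 hk0 _, rfl⟩
  · rw [Subgroup.card_map_of_injective M.subtype_injective, Nat.odd_iff]
    exact Nat.two_dvd_ne_zero.1 hodd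
  · refine ⟨⟨g, hg⟩, MonoidHom.mem_ker.2 ?_, rfl⟩
    obtain ⟨j, hj⟩ := SM.isPGroup' (f ⟨g, hg⟩)
    have hd : orderOf (f ⟨g, hg⟩) ∣ orderOf g :=
      (orderOf_map_dvd f _).trans (dvd_of_eq (Subgroup.orderOf_mk g hg))
    refine orderOf_eq_one_iff.1 (Nat.eq_one_of_dvd_coprimes ?_ (orderOf_dvd_of_pow_eq_one hj) hd)
    exact Nat.Coprime.pow_left j (Nat.coprime_two_left.2 ho)

/-- The centraliser of an element which is of order two modulo the centre has a normal
2-complement. -/
theorem mem_theta (hp : commutator L = ⊤) (hca : ProperCA L) (S : Sylow 2 L)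
    (hab : ∀ a ∈ (qSylow S : Subgroup Q), ∀ b ∈ (qSylow S : Subgroup Q), a * b = b * a) {t : L}
    (htS : t ∈ (S : Subgroup L)) (ht : t ∉ Subgroup.center L) (ht2 : t * t ∈ Subgroup.center L)
    {y : Q} (hy : y * pr t = pr t * y) (ho : Odd (orderOf y)) : y ∈ θ (pr t) := by
  classical
  haveI : Fact (Nat.Prime 2) := ⟨Nat.prime_two⟩
  obtain ⟨g, hgW, hgo, hyg⟩ := exists_odd_lift hy ho
  suffices pr g ∈ θ (pr t) from zpowers_le.2 this hyg
  set W := wideCentralizer t
  set M := Subgroup.centralizer ({t} : Set L) with hM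
  have hgM : g ∈ M := mem_centralizer_of_odd ht2 hgW hgo
  have hMW : M ≤ W := centralizer_le_wideCentralizer t
  by_cases hMc : ∀ a ∈ M, ∀ b ∈ M, a * b = b * a
  · let K : Subgroup L :=
      { carrier := {k | k ∈ M ∧ Odd (orderOf k)}
        one_mem' := ⟨one_mem _, by simp⟩
        mul_mem' := fun {a b} ha hb => ⟨mul_mem ha.1 hb.1,
          (ha.2.mul hb.2).of_dvd_nat
            (show Commute a b from hMc a ha.1 b hb.1).orderOf_mul_dvd_mul_orderOf⟩
        inv_mem' := fun {a} ha => ⟨inv_mem ha.1, by rw [orderOf_inv]; exact ha.2⟩ }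
    have hKo : Odd (Nat.card K) := by
      by_contra hev
      obtain ⟨x, hx⟩ := exists_prime_orderOf_dvd_card' (G := K) 2
        (even_iff_two_dvd.1 (Nat.not_odd_iff_even.1 hev))
      exact (Nat.not_odd_iff_even.2 ⟨1, by rw [Subgroup.orderOf_coe, hx]⟩) x.2.2
    refine mem_theta_of_normal K (fun k hk => hMW hk.1) (fun w hw k hk => ⟨?_, ?_⟩) hKo ⟨hgM, hgo⟩
    · set z := w⁻¹ * t * w⁻¹⁻¹ * t⁻¹ with hzd
      have hz : ∀ a, a * z = z * a := mem_center_iff.1 (mem_wideCentralizer.1 (inv_mem hw))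
      clear_value z
      refine mem_centralizer_singleton_iff.2 ?_
      have e : w⁻¹ * t * w = z * t := by rw [hzd]; group
      have e2 : k * (z * t) = z * t * k := by
        rw [← mul_assoc, hz k, mul_assoc, mem_centralizer_singleton_iff.1 hk.1, mul_assoc]
      calc w * k * w⁻¹ * t = w * (k * (w⁻¹ * t * w)) * w⁻¹ := by group
        _ = w * (z * t * k) * w⁻¹ := by rw [e, e2]
        _ = t * (w * k * w⁻¹) := by rw [← e]; group
    · rw [orderOf_conjBy]; exact hk.2
  · push Not at hMc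
    obtain ⟨u, hu, v, hv, huv⟩ := hMc
    have hWM : W ≤ M := le_centralizer_of_pair hca (wideCentralizer_ne_top hp ht)
      (hMW (mem_centralizer_singleton_iff.2 rfl)) (hMW hu) (hMW hv)
      (mem_centralizer_singleton_iff.1 hu) (mem_centralizer_singleton_iff.1 hv) huv
    have hSM : (S : Subgroup L) ≤ M := fun s hs => hWM (mem_centralizer_singleton_iff.2
      (hab _ (pr_mem hs) _ (pr_mem htS)))
    have hSc : ∀ a ∈ (S : Subgroup L), ∀ b ∈ (S : Subgroup L), a * b = b * a := by
      intro a ha b hb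
      by_contra hne
      exact ht (center_sylow_le hp hca S ha hb hne htS fun s hs =>
        mem_centralizer_singleton_iff.1 (hSM hs))
    -- some element normalising `S` moves `t`
    obtain ⟨n, hn, hnM⟩ : ∃ n, (∀ s ∈ (S : Subgroup L), n * s * n⁻¹ ∈ (S : Subgroup L)) ∧ n ∉ M := by
      by_contra hcon
      push Not at hcon
      have hprt : pr t ≠ 1 := fun e => ht ((QuotientGroup.eq_one_iff t).1 e)
      have ho2 : orderOf (pr t) = 2 := orderOf_eq_prime (by
        rw [pow_two, ← map_mul]; exact (QuotientGroup.eq_one_iff _).2 ht2) hprt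
      haveI : IsMulCommutative (qSylow S : Subgroup Q) :=
        ⟨⟨fun a b => Subtype.ext (hab a a.2 b b.2)⟩⟩
      have hc := Involutions.mem_center_of_isolated (qSylow S) ho2 (fun q hq => by
        obtain ⟨m, hm, hme⟩ := (qSylow S).conj_eq_normalizer_conj_of_mem (pr t) q⁻¹ (pr_mem htS)
          (by rwa [inv_inv])
        rw [inv_inv] at hme
        obtain ⟨k, hk⟩ := QuotientGroup.mk'_surjective _ m
        have hkM : k⁻¹ ∈ M := hcon k⁻¹ fun s hs => by
          obtain ⟨j, hj⟩ := S.isPGroup' ⟨s, hs⟩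
          refine mem_sylow_of_pr ?_ (k := j) (by
            rw [conj_pow, show s ^ 2 ^ j = 1 from congrArg Subtype.val hj, mul_one, mul_inv_cancel])
          simp only [map_mul, map_inv, hk, inv_inv]
          have := (Subgroup.mem_normalizer_iff.1 (inv_mem hm) (pr s)).1 (pr_mem hs)
          rwa [inv_inv] at this
        rw [hme, ← hk, ← map_inv, ← map_mul, ← map_mul, mem_centralizer_singleton_iff.1 hkM,
          inv_mul_cancel_right]) (quot_oddCore_eq_bot hp hca)
      rw [quot_center_eq_bot hp hca, mem_bot] at hc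
      exact hprt hc
    set H := Subgroup.normalizer ((S : Subgroup L) : Set L)
    have hHne : H ≠ ⊤ := fun e => by
      haveI : (S : Subgroup L).Normal := Subgroup.normalizer_eq_top_iff.1 e
      haveI : Group.IsSolvable (S : Subgroup L) := Group.isSolvable_of_comm fun a b =>
        Subtype.ext (hSc a a.2 b b.2)
      exact ht (le_center_of_isSolvable hca hp _ htS)
    have hnH : n ∈ H := mem_normalizer_of_forall hn
    let SM : Sylow 2 M := S.subtype hSM
    have hN : Subgroup.normalizer ((SM : Subgroup M) : Set M) ≤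
        Subgroup.centralizer ((SM : Subgroup M) : Set M) := by
      intro m hm
      refine Subgroup.mem_centralizer_iff.2 fun s hs => Subtype.ext ?_
      by_contra hne
      have hsS : (s : L) ∈ (S : Subgroup L) := hs
      have hmH : (m : L) ∈ H := mem_normalizer_of_forall fun a ha =>
        (Subgroup.mem_normalizer_iff.1 hm ⟨a, hSM ha⟩).1 ha
      exact hnM (le_centralizer_of_pair hca hHne (le_normalizer htS) hmH (le_normalizer hsS)
        (mem_centralizer_singleton_iff.1 m.2) (hSc _ hsS _ htS) (fun e => hne e.symm) hnH)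
    obtain ⟨K, hKM, hKn, hKo, hKmem⟩ := exists_odd_complement SM hN
    exact mem_theta_of_normal K (hKM.trans hMW) (fun w hw k hk => hKn w (hWM hw) k hk) hKo
      (hKmem g hgM hgo)

/-- The hypotheses of the recognition theorem hold. -/
theorem quot_hyp (hp : commutator L = ⊤) (hca : ProperCA L) (S : Sylow 2 L)
    (hab : ∀ a ∈ (qSylow S : Subgroup Q), ∀ b ∈ (qSylow S : Subgroup Q), a * b = b * a)
    (hrank : ∃ E : Subgroup Q, E ≤ (qSylow S : Subgroup Q) ∧ (∀ e ∈ E, e * e = 1) ∧
      8 ≤ Nat.card E) : AbelianTwo.Hyp (qSylow S) := by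
  refine ⟨hab, hrank, fun x hx y hy ho => ?_, quot_oddCore_eq_bot hp hca⟩
  haveI : Fact (Nat.Prime 2) := ⟨Nat.prime_two⟩
  obtain ⟨R, hR⟩ := (IsPGroup.of_card (n := 1) (G := Subgroup.zpowers x)
    (by rw [Nat.card_zpowers, hx, pow_one])).exists_le_sylow
  obtain ⟨T, hT⟩ := exists_sylow_lift R
  have habT : ∀ a ∈ (qSylow T : Subgroup Q), ∀ b ∈ (qSylow T : Subgroup Q), a * b = b * a := by
    intro a ha b hb
    let e := (qSylow T).equiv (qSylow S)
    have h1 := hab _ (e ⟨a, ha⟩).2 _ (e ⟨b, hb⟩).2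
    have h2 : e (⟨a, ha⟩ * ⟨b, hb⟩) = e (⟨b, hb⟩ * ⟨a, ha⟩) := by
      rw [map_mul, map_mul]; exact Subtype.ext h1
    exact congrArg Subtype.val (e.injective h2)
  have hxT : x ∈ (qSylow T : Subgroup Q) := by rw [hT]; exact hR (mem_zpowers x)
  obtain ⟨t, htT, rfl⟩ := hxT
  exact mem_theta hp hca T habT htT
    (fun e => by simp [(QuotientGroup.eq_one_iff t).2 e] at hx)
    ((QuotientGroup.eq_one_iff _).1 (by
      show pr (t * t) = 1
      rw [map_mul, ← pow_two, ← hx, pow_orderOf_eq_one]))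
    (mem_centralizer_singleton_iff.1 hy) ho

/-- **Large rank.** The central quotient is a two-dimensional projective special linear group. -/
theorem psl_of_rank (hp : commutator L = ⊤) (hca : ProperCA L) (S : Sylow 2 L)
    (hab : ∀ a ∈ (qSylow S : Subgroup Q), ∀ b ∈ (qSylow S : Subgroup Q), a * b = b * a)
    (hrank : ∃ E : Subgroup Q, E ≤ (qSylow S : Subgroup Q) ∧ (∀ e ∈ E, e * e = 1) ∧
      8 ≤ Nat.card E) :
    ∃ (K : Type) (_ : Field K) (_ : Fintype K), Even (Fintype.card K) ∧
      Nonempty (Q ≃* Matrix.ProjectiveSpecialLinearGroup (Fin 2) K) := by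
  classical
  haveI : Fact (Nat.Prime 2) := ⟨Nat.prime_two⟩
  have h := quot_hyp hp hca S hab hrank
  set P := qSylow S with hPdef
  haveI : IsMulCommutative (P : Subgroup Q) := ⟨⟨fun a b => Subtype.ext (hab a a.2 b b.2)⟩⟩
  obtain ⟨x0, hx0P, hx0⟩ := h.exists_involution
  have hP : ¬ (P : Subgroup Q).Normal := fun hn => by
    haveI := hn
    haveI : Group.IsSolvable (P : Subgroup Q) :=
      Group.isSolvable_of_comm fun a b => Subtype.ext (hab a a.2 b b.2)
    have h1 := eq_bot_of_solvable_normal hp hca (P : Subgroup Q)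
    rw [h1, mem_bot] at hx0P
    rw [hx0P, orderOf_one] at hx0
    omega
  have hel : ∀ a ∈ (P : Subgroup Q), a * a = 1 := fun a ha => h.mul_self_eq_one_of_not_normal hP ha
  have hlift : ∀ x : Q, orderOf x = 2 → ∀ t : L, pr t = x →
      t ∉ Subgroup.center L ∧ t * t ∈ Subgroup.center L := fun x hx t ht => by
    refine ⟨fun e => ?_, (QuotientGroup.eq_one_iff _).1 ?_⟩
    · rw [← ht, show pr t = 1 from (QuotientGroup.eq_one_iff t).2 e, orderOf_one] at hx; omega
    · show pr (t * t) = 1
      rw [map_mul, ht, ← pow_two, ← hx, pow_orderOf_eq_one]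
  obtain ⟨t0, ht0S, ht0⟩ : x0 ∈ (S : Subgroup L).map pr := id hx0P
  obtain ⟨ht0c, ht02⟩ := hlift x0 hx0 t0 ht0
  have hSW : ∀ t ∈ (S : Subgroup L), (S : Subgroup L) ≤ wideCentralizer t := fun t ht s hs =>
    mem_centralizer_singleton_iff.2 (hab _ (pr_mem hs) _ (pr_mem ht))
  -- `S` is abelian
  have hSc : ∀ a ∈ (S : Subgroup L), ∀ b ∈ (S : Subgroup L), a * b = b * a := by
    -- commutators in `S` are central of order at most two
    have hcz : ∀ a ∈ (S : Subgroup L), ∀ b ∈ (S : Subgroup L),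
        a * b * a⁻¹ * b⁻¹ ∈ Subgroup.center L := fun a ha b hb =>
      mem_wideCentralizer.1 (hSW b hb ha)
    have hsq : ∀ a ∈ (S : Subgroup L), a * a ∈ Subgroup.center L := fun a ha =>
      (QuotientGroup.eq_one_iff _).1 (by show pr (a * a) = 1; rw [map_mul]; exact hel _ (pr_mem ha))
    let Z1 : Subgroup L :=
      { carrier := {z | z ∈ Subgroup.center L ∧ z * z = 1}
        one_mem' := ⟨one_mem _, one_mul 1⟩
        mul_mem' := fun {a b} ha hb => ⟨mul_mem ha.1 hb.1, by
          calc a * b * (a * b) = a * (b * a) * b := by group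
            _ = (a * a) * (b * b) := by rw [mem_center_iff.1 ha.1 b]; group
            _ = 1 := by rw [ha.2, hb.2, one_mul]⟩
        inv_mem' := fun {a} ha => ⟨inv_mem ha.1, by rw [← mul_inv_rev, ha.2, inv_one]⟩ }
    have hexp : ∀ z ∈ Subgroup.center L, z ∈ (S : Subgroup L) → z * z = 1 := by
      intro z hz hzS
      have h1 : ⁅(S : Subgroup L), (S : Subgroup L)⁆ ≤ Z1 := Subgroup.commutator_le.2 fun a ha b hb => by
        rw [commutatorElement_def]
        exact ⟨hcz a ha b hb, (sq_mem_centralizer (hsq b hb) (hSW b hb ha)).2⟩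
      have h2 := (h1 (SchurMult.pow_index_mem_commutator (S : Subgroup L) hz
        (by rw [hp]; exact mem_top z))).2
      obtain ⟨j, hj⟩ := S.isPGroup' ⟨z, hzS⟩
      have hodd : ¬ 2 ∣ (S : Subgroup L).index := S.not_dvd_index
      rw [← pow_add, ← two_mul, pow_mul, ← pow_two] at *
      refine orderOf_eq_one_iff.1 (Nat.eq_one_of_dvd_coprimes (a := 2 ^ j) (b := (S : Subgroup L).index)
        ((Nat.prime_two.coprime_iff_not_dvd.2 hodd).pow_left j)
        (orderOf_dvd_of_pow_eq_one ?_) (orderOf_dvd_of_pow_eq_one h2))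
      rw [← pow_mul, mul_comm, pow_mul, show z ^ 2 ^ j = 1 from congrArg Subtype.val hj, one_pow]
    -- all elements off the centre have the same square
    set c := t0 * t0
    have hSE := h.stronglyEmbedded hP
    have hall : ∀ a ∈ (S : Subgroup L), a ∉ Subgroup.center L → a * a = c := by
      intro a ha hac
      have hpa : orderOf (pr a) = 2 := orderOf_eq_prime (by rw [pow_two]; exact hel _ (pr_mem ha))
        fun e => hac ((QuotientGroup.eq_one_iff a).1 e)
      obtain ⟨g, hg⟩ := isConj_iff.1 (TwoFusion.isConj_involutions hSE hx0 hpa)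
      obtain ⟨g, rfl⟩ := QuotientGroup.mk'_surjective (Subgroup.center L) g
      rw [← ht0, ← map_inv, ← map_mul, ← map_mul] at hg
      set z := (g * t0 * g⁻¹)⁻¹ * a with hzd
      have hz : z ∈ Subgroup.center L := QuotientGroup.eq.1 hg
      have hzc := mem_center_iff.1 hz
      have hae : a = g * t0 * g⁻¹ * z := by rw [hzd]; group
      have h1 : a * a = c * (z * z) := by
        calc a * a = g * t0 * g⁻¹ * (z * (g * t0 * g⁻¹)) * z := by rw [hae]; group
          _ = g * (t0 * t0) * g⁻¹ * (z * z) := by rw [← hzc (g * t0 * g⁻¹)]; group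
          _ = _ := by rw [mem_center_iff.1 ht02 g, mul_inv_cancel_right]
      rw [h1]
      obtain ⟨j, hj⟩ := S.isPGroup' ⟨a, ha⟩
      obtain ⟨i, hi⟩ := S.isPGroup' ⟨t0, ht0S⟩
      have hzp : z ^ 2 ^ (j + i) = 1 := by
        have hc : Commute (g * t0 * g⁻¹)⁻¹ a := by
          rw [hae]
          exact ((Commute.refl _).inv_left).mul_right (hzc _)
        rw [hzd, hc.mul_pow, inv_pow, conj_pow, pow_add, mul_comm (2 ^ j), pow_mul,
          show t0 ^ 2 ^ i = 1 from congrArg Subtype.val hi, one_pow, mul_one, mul_inv_cancel,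
          inv_one, one_mul, mul_comm, pow_mul, show a ^ 2 ^ j = 1 from congrArg Subtype.val hj,
          one_pow]
      rw [hexp z hz (mem_sylow_of_center hz hzp), mul_one]
    intro a ha b hb
    by_contra hne
    have hac : a ∉ Subgroup.center L := fun e => hne (mem_center_iff.1 e b).symm
    have hbc : b ∉ Subgroup.center L := fun e => hne (mem_center_iff.1 e a)
    -- for independent pairs the commutator equals `c`
    have hpair : ∀ u ∈ (S : Subgroup L), ∀ v ∈ (S : Subgroup L), u ∉ Subgroup.center L →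
        v ∉ Subgroup.center L → u * v ∉ Subgroup.center L → v * u * v⁻¹ * u⁻¹ = c⁻¹ := by
      intro u hu v hv huc hvc huvc
      have e1 := hall _ (mul_mem hu hv) huvc
      set k := v * u * v⁻¹ * u⁻¹ with hk
      have hkc : ∀ a, a * k = k * a := mem_center_iff.1 (hcz v hv u hu)
      clear_value k
      have e2 : u * v * (u * v) = k * (u * u) * (v * v) := by
        calc u * v * (u * v) = u * (k * (u * v)) * v := by rw [hk]; group
          _ = _ := by rw [← mul_assoc u k, hkc u]; group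
      rw [e2, hall u hu huc, hall v hv hvc] at e1
      have : k * c = 1 := mul_right_cancel (b := c) (by rw [e1, one_mul])
      exact eq_inv_of_mul_eq_one_left this
    obtain ⟨E, hEP, hEsq, hE8⟩ := hrank
    haveI : Fintype Q := Fintype.ofFinite Q
    obtain ⟨e, he, heA⟩ : ∃ e ∈ E, e ∉ ({1, pr a, pr b, pr a * pr b} : Finset Q) := by
      by_contra hcon
      push Not at hcon
      haveI := Fintype.ofFinite E
      have := Finset.card_le_card (s := Finset.univ.image (Subtype.val : E → Q))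
        (t := {1, pr a, pr b, pr a * pr b}) fun q hq => by
          obtain ⟨x, -, rfl⟩ := Finset.mem_image.1 hq; exact hcon x x.2
      rw [Finset.card_image_of_injective _ Subtype.val_injective, Finset.card_univ,
        ← Nat.card_eq_fintype_card] at this
      have := this.trans Finset.card_le_four
      omega
    obtain ⟨w, hw, rfl⟩ := (hEP he : e ∈ (S : Subgroup L).map pr)
    simp only [Finset.mem_insert, Finset.mem_singleton, not_or] at heA
    have hsqi : ∀ u ∈ (S : Subgroup L), pr u * pr u = 1 := fun u hu => hel _ (pr_mem hu)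
    have hnc : ∀ u : L, pr u ≠ 1 → u ∉ Subgroup.center L := fun u hu e =>
      hu ((QuotientGroup.eq_one_iff u).2 e)
    have hwc : w ∉ Subgroup.center L := hnc w heA.1
    have hmul : ∀ u ∈ (S : Subgroup L), ∀ v : L, pr v ≠ pr u → u * v ∉ Subgroup.center L :=
      fun u hu v hne => hnc _ (by
        rw [map_mul]; intro e1
        exact hne ((eq_inv_of_mul_eq_one_right e1).trans (eq_inv_of_mul_eq_one_right (hsqi u hu)).symm))
    by_cases habc : a * b ∈ Subgroup.center L
    · exact hne (by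
        have h1 : Commute a (a⁻¹ * (a * b)) :=
          ((Commute.refl a).inv_right).mul_right (mem_center_iff.1 habc a)
        rwa [inv_mul_cancel_left] at h1)
    -- `[b w, a] = [b, a] [w, a]`
    have k1 := hpair a ha b hb hac hbc habc
    have k2 := hpair a ha w hw hac hwc (hmul a ha w heA.2.1)
    have hbw : b * w ∉ Subgroup.center L := hmul b hb w heA.2.2.1
    have k3 := hpair a ha (b * w) (mul_mem hb hw) hac hbw (hmul a ha _ (by
      rw [map_mul]; intro e1
      exact heA.2.2.2 (by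
        calc pr w = pr b * (pr b * pr w) := by rw [← mul_assoc, hsqi b hb, one_mul]
          _ = pr a * pr b := by rw [e1]; exact (hab _ (pr_mem hb) _ (pr_mem ha)))))
    have e3 : b * w * a * (b * w)⁻¹ * a⁻¹ = (b * a * b⁻¹ * a⁻¹) * (w * a * w⁻¹ * a⁻¹) := by
      calc b * w * a * (b * w)⁻¹ * a⁻¹ = (b * (w * a * w⁻¹ * a⁻¹)) * a * b⁻¹ * a⁻¹ := by group
        _ = (w * a * w⁻¹ * a⁻¹) * (b * a * b⁻¹ * a⁻¹) := by
          rw [mem_center_iff.1 (hcz w hw a ha) b]; group
        _ = _ := (mem_center_iff.1 (hcz w hw a ha) _).symm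
    rw [k1, k2, k3] at e3
    have hc1 : c⁻¹ = 1 := by simpa using e3.symm
    rw [hc1, mul_inv_eq_one, mul_inv_eq_iff_eq_mul] at k1
    exact hne k1.symm
  -- centralisers of lifts of involutions are abelian
  have hCab : ∀ t ∈ (S : Subgroup L), t ∉ Subgroup.center L → t * t ∈ Subgroup.center L →
      ∀ a ∈ Subgroup.centralizer ({t} : Set L), ∀ b ∈ Subgroup.centralizer ({t} : Set L),
        a * b = b * a := by
    intro t htS ht ht2 a ha b hb
    by_contra hne
    have hB : (AbelianTwo.bigSub h).comap pr ≠ ⊤ := fun e => (h.stronglyEmbedded hP).1 (by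
      rw [← Subgroup.map_comap_eq_self_of_surjective (QuotientGroup.mk'_surjective (Subgroup.center L))
        (AbelianTwo.bigSub h), e, Subgroup.map_top_of_surjective _ (QuotientGroup.mk'_surjective _)])
    have hprt : orderOf (pr t) = 2 := orderOf_eq_prime (by
      rw [pow_two, ← map_mul]; exact (QuotientGroup.eq_one_iff _).2 ht2)
      fun e => ht ((QuotientGroup.eq_one_iff t).1 e)
    have hMB : Subgroup.centralizer ({t} : Set L) ≤ (AbelianTwo.bigSub h).comap pr := fun g hg =>
      h.innerSub_le_bigSub (h.centralizer_le_innerSub (pr_mem htS) hprt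
        (centralizer_le_wideCentralizer t hg))
    have hle := le_centralizer_of_pair hca hB (hMB (mem_centralizer_singleton_iff.2 rfl)) (hMB ha)
      (hMB hb) (mem_centralizer_singleton_iff.1 ha) (mem_centralizer_singleton_iff.1 hb) hne
    refine ht ?_
    have hiso : ∀ q : Q, q * pr t * q⁻¹ ∈ P → q * pr t * q⁻¹ = pr t := by
      intro q hq
      obtain ⟨n, hn, hne'⟩ := h.exists_normalizer (pr_mem htS) hq (isConj_iff.2 ⟨q, rfl⟩)
      obtain ⟨k, rfl⟩ := QuotientGroup.mk'_surjective _ n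
      have hk : k ∈ Subgroup.centralizer ({t} : Set L) := hle (Subgroup.mem_sup_right hn)
      rw [← hne', ← map_inv, ← map_mul, ← map_mul, mem_centralizer_singleton_iff.1 hk,
        mul_inv_cancel_right]
    have hc := Involutions.mem_center_of_isolated P hprt hiso (quot_oddCore_eq_bot hp hca)
    rw [quot_center_eq_bot hp hca, mem_bot] at hc
    exact (QuotientGroup.eq_one_iff t).1 hc
  set D := Subgroup.centralizer ({t0} : Set L) with hDdef
  have hSD : (S : Subgroup L) ≤ D := fun s hs =>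
    mem_centralizer_singleton_iff.2 (hSc s hs t0 ht0S)
  have hDc : ∀ a ∈ D, ∀ b ∈ D, a * b = b * a := hCab t0 ht0S ht0c ht02
  have hWD : wideCentralizer t0 ≤ D := by
    let f : wideCentralizer t0 →* Subgroup.center L := MonoidHom.mk'
      (fun g => ⟨(g : L) * t0 * (g : L)⁻¹ * t0⁻¹, mem_wideCentralizer.1 g.2⟩) fun g k => by
        apply Subtype.ext
        show (g * k : L) * t0 * (g * k : L)⁻¹ * t0⁻¹ =
          (g : L) * t0 * (g : L)⁻¹ * t0⁻¹ * ((k : L) * t0 * (k : L)⁻¹ * t0⁻¹)
        have hk := mem_center_iff.1 (mem_wideCentralizer.1 k.2)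
        calc (g * k : L) * t0 * (g * k : L)⁻¹ * t0⁻¹
            = (g : L) * ((k : L) * t0 * (k : L)⁻¹ * t0⁻¹) * t0 * (g : L)⁻¹ * t0⁻¹ := by group
          _ = ((k : L) * t0 * (k : L)⁻¹ * t0⁻¹) * ((g : L) * t0 * (g : L)⁻¹ * t0⁻¹) := by
              rw [hk (g : L)]; group
          _ = _ := (hk _).symm
    have h1 : ∀ g : wideCentralizer t0, f g ^ 2 = 1 := fun g => Subtype.ext (by
      rw [SubmonoidClass.coe_pow, pow_two]; exact (sq_mem_centralizer ht02 g.2).2)
    have hr2 : IsPGroup 2 f.range := fun x => ⟨1, by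
      obtain ⟨_, g, rfl⟩ := x; exact Subtype.ext (by simpa using h1 g)⟩
    have hcard : Nat.card f.range = 1 := by
      obtain ⟨j, hj⟩ := hr2.exists_card_eq
      rcases j with _ | j
      · simpa using hj
      exfalso
      refine S.not_dvd_index (dvd_trans ?_ (Dvd.intro _
        (Subgroup.relIndex_mul_index (hSW t0 ht0S))))
      refine dvd_trans ?_ (Subgroup.index_dvd_of_le (H := (S : Subgroup L).subgroupOf _)
        (K := f.ker) fun g hg => Subtype.ext ?_)
      · rw [Subgroup.index_ker, hj]; exact dvd_pow_self 2 (Nat.succ_ne_zero j)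
      · show (g : L) * t0 * (g : L)⁻¹ * t0⁻¹ = 1
        rw [hSc (g : L) (mem_subgroupOf.1 hg) t0 ht0S, mul_inv_cancel_right, mul_inv_cancel]
    intro g hg
    have h3 : f ⟨g, hg⟩ = 1 := by
      have := Subgroup.card_eq_one.1 hcard
      exact (Subgroup.mem_bot).1 (this ▸ (⟨_, rfl⟩ : f ⟨g, hg⟩ ∈ f.range))
    have h4 : g * t0 * g⁻¹ * t0⁻¹ = 1 := congrArg Subtype.val h3
    rw [mul_inv_eq_one, mul_inv_eq_iff_eq_mul] at h4
    exact mem_centralizer_singleton_iff.2 h4
  -- lifts of involutions of `P` have centraliser `D`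
  have hall : ∀ x ∈ (P : Subgroup Q), orderOf x = 2 → ∀ t : L, pr t = x →
      Subgroup.centralizer ({t} : Set L) = D := by
    intro x hxP hx t htx
    obtain ⟨s, hsS, hse⟩ := (hxP : x ∈ (S : Subgroup L).map pr)
    obtain ⟨hsc, hs2⟩ := hlift x hx s hse
    have hst : s⁻¹ * t ∈ Subgroup.center L := QuotientGroup.eq.1 (hse.trans htx.symm)
    obtain ⟨w, hz, rfl⟩ : ∃ w, w ∈ Subgroup.center L ∧ t = s * w :=
      ⟨_, hst, (mul_inv_cancel_left s t).symm⟩
    have e1 : ∀ g : L, g * (s * w) = s * w * g ↔ g * s = s * g := fun g => by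
      have hz := mem_center_iff.1 hz
      constructor
      · intro e
        rw [← mul_assoc, mul_assoc s, ← hz g, ← mul_assoc] at e
        exact mul_right_cancel e
      · intro e
        rw [← mul_assoc, e, mul_assoc s, hz g, ← mul_assoc]
    ext g
    rw [hDdef, mem_centralizer_singleton_iff, mem_centralizer_singleton_iff, e1]
    refine ⟨fun e => ?_, fun e => ?_⟩
    · exact hCab s hsS hsc hs2 g (mem_centralizer_singleton_iff.2 e) t0
        (mem_centralizer_singleton_iff.2 (hSc t0 ht0S s hsS))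
    · exact hDc g (mem_centralizer_singleton_iff.2 e) s (hSD hsS)
  set H := (Subgroup.normalizer ((P : Subgroup Q) : Set Q)).comap pr with hHdef
  have hH : H ≠ ⊤ := fun e => hP (Subgroup.normalizer_eq_top_iff.1 (by
    rw [← Subgroup.map_comap_eq_self_of_surjective (QuotientGroup.mk'_surjective (Subgroup.center L))
      (Subgroup.normalizer ((P : Subgroup Q) : Set Q)), ← hHdef, e,
      Subgroup.map_top_of_surjective _ (QuotientGroup.mk'_surjective _)]))
  have hfixP : ∀ d ∈ D, ∀ x ∈ (P : Subgroup Q), pr d * x * (pr d)⁻¹ = x := by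
    rintro d hd x ⟨s, hs, rfl⟩
    rw [← map_inv, ← map_mul, ← map_mul, hDc d hd s (hSD hs), mul_inv_cancel_right]
  have hDH : D ≤ H := fun d hd => mem_normalizer_of_forall fun x hx => by rwa [hfixP d hd x hx]
  have hDn : ∀ k ∈ H, ∀ d ∈ D, k * d * k⁻¹ ∈ D := by
    intro k hk d hd
    have h1 : pr (k * t0 * k⁻¹) ∈ (P : Subgroup Q) := by
      rw [map_mul, map_mul, map_inv]
      exact (Subgroup.mem_normalizer_iff.1 hk (pr t0)).1 (pr_mem ht0S)
    rw [← hall _ h1 (by rw [map_mul, map_mul, map_inv, orderOf_conjBy, ht0, hx0]) _ rfl,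
      mem_centralizer_singleton_iff]
    calc k * d * k⁻¹ * (k * t0 * k⁻¹) = k * (d * t0) * k⁻¹ := by group
      _ = _ := by rw [mem_centralizer_singleton_iff.1 hd]; group
  let φ : H →* MulAut (P : Subgroup Q) := (P : Subgroup Q).normalizerMonoidHom.comp
    ((pr).subgroupComap (Subgroup.normalizer ((P : Subgroup Q) : Set Q)))
  have hφ : ∀ (k : H) (v : (P : Subgroup Q)), (φ k v : Q) = pr k * v * (pr (k : L))⁻¹ :=
    fun k v => rfl
  have hfix : ∀ k : H, (k : L) ∉ D → ∀ v : (P : Subgroup Q), φ k v = v → v = 1 := by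
    intro k hk v hv
    by_contra hv1
    obtain ⟨s, hsS, hse⟩ := (v.2 : (v : Q) ∈ (S : Subgroup L).map pr)
    have hv2 : orderOf (v : Q) = 2 := orderOf_eq_prime (by rw [pow_two]; exact hel _ v.2)
      fun e => hv1 (Subtype.ext e)
    obtain ⟨hsc, hs2⟩ := hlift _ hv2 s hse
    have hks : (k : L) ∈ wideCentralizer s := by
      show pr (k : L) ∈ Subgroup.centralizer _
      rw [mem_centralizer_singleton_iff, hse]
      have e := congrArg Subtype.val hv
      rw [hφ, mul_inv_eq_iff_eq_mul] at e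
      exact e
    have hsD := hall _ v.2 hv2 s hse
    -- the wide centraliser of `s` lies in that of `t0`
    apply hk
    apply hWD
    show pr (k : L) ∈ Subgroup.centralizer _
    have h4 := h.centralizer_le_innerSub v.2 hv2
      (show pr (k : L) ∈ Subgroup.centralizer ({(v : Q)} : Set Q) from hse ▸ hks)
    have h5 := h.commute_of_normalizer_inf k.2 h4 (pr_mem ht0S)
    rw [mul_inv_eq_iff_eq_mul] at h5
    exact mem_centralizer_singleton_iff.2 h5
  have hker : ∀ k : H, φ k = 1 ↔ (k : L) ∈ D := fun k => by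
    refine ⟨fun e => ?_, fun hk => MulEquiv.ext fun v => Subtype.ext ?_⟩
    · by_contra hkD
      have h1 := hfix k hkD ⟨pr t0, pr_mem ht0S⟩ (by rw [e]; rfl)
      exact ht0c ((QuotientGroup.eq_one_iff t0).1 (congrArg Subtype.val h1))
    · rw [hφ]; exact hfixP _ hk _ v.2
  haveI : Nontrivial (P : Subgroup Q) := ⟨⟨pr t0, pr_mem ht0S⟩, 1, fun e =>
    ht0c ((QuotientGroup.eq_one_iff t0).1 (congrArg Subtype.val e))⟩
  have hodd : Odd (Nat.card φ.range) := by
    rw [← Subgroup.index_ker, show φ.ker = D.subgroupOf H from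
      Subgroup.ext fun k => (MonoidHom.mem_ker.trans (hker k)).trans mem_subgroupOf.symm]
    refine Odd.of_dvd_nat (Nat.odd_iff.2 (Nat.two_dvd_ne_zero.1 S.not_dvd_index)) ?_
    exact ((Subgroup.index_dvd_of_le (H := (S : Subgroup L).subgroupOf H) (K := D.subgroupOf H)
      fun g hg => mem_subgroupOf.2 (hSD (mem_subgroupOf.1 hg))).trans
        (Dvd.intro _ (Subgroup.relIndex_mul_index (hSD.trans hDH))))
  have hcomm := commutator_mem_of_semiregular hca hH hDH hDn hDc
    (fun k _ hk => mem_centralizer_singleton_iff.2 (hk t0 (mem_centralizer_singleton_iff.2 rfl)))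
    φ hker hfix hodd
  have hc : h.OuterComm := by
    intro a ha b hb
    obtain ⟨w, hw, n, hn, rfl⟩ := h.mem_bigSub_iff.1 ha
    obtain ⟨w', hw', n', hn', rfl⟩ := h.mem_bigSub_iff.1 hb
    obtain ⟨k, hk⟩ := QuotientGroup.mk'_surjective _ n
    obtain ⟨k', hk'⟩ := QuotientGroup.mk'_surjective _ n'
    have h1 := hcomm k (show pr k ∈ _ by rw [hk]; exact hn) k' (show pr k' ∈ _ by rw [hk']; exact hn')
    have h2 : n * n' * n⁻¹ * n'⁻¹ ∈ AbelianTwo.innerSub h := by
      refine h.centralizer_le_innerSub hx0P hx0 (mem_centralizer_singleton_iff.2 ?_)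
      have := hfixP _ h1 x0 hx0P
      rw [map_mul, map_mul, map_mul, map_inv, map_inv, hk, hk', mul_inv_eq_iff_eq_mul] at this
      exact this
    set N := (AbelianTwo.innerSub h).subgroupOf (AbelianTwo.bigSub h)
    haveI : N.Normal := h.innerSub_normal
    have hwN : ∀ v (hv : v ∈ AbelianTwo.coreClosure h),
        (QuotientGroup.mk' N) ⟨v, h.innerSub_le_bigSub (mem_sup_left hv)⟩ = 1 := fun v hv =>
      (QuotientGroup.eq_one_iff _).2 (mem_subgroupOf.2 (mem_sup_left hv))
    refine mem_subgroupOf.1 ((QuotientGroup.eq_one_iff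
      (⟨_, mul_mem (mul_mem (mul_mem ha hb) (inv_mem ha)) (inv_mem hb)⟩ : AbelianTwo.bigSub h)).1 ?_)
    have h3 : (QuotientGroup.mk' N) ⟨n * n' * n⁻¹ * n'⁻¹, h.innerSub_le_bigSub h2⟩ = 1 :=
      (QuotientGroup.eq_one_iff _).2 (mem_subgroupOf.2 h2)
    let wb : AbelianTwo.bigSub h := ⟨w, h.innerSub_le_bigSub (mem_sup_left hw)⟩
    let wb' : AbelianTwo.bigSub h := ⟨w', h.innerSub_le_bigSub (mem_sup_left hw')⟩
    let nb : AbelianTwo.bigSub h := ⟨n, mem_sup_right hn⟩
    let nb' : AbelianTwo.bigSub h := ⟨n', mem_sup_right hn'⟩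
    show QuotientGroup.mk' N (wb * nb * (wb' * nb') * (wb * nb)⁻¹ * (wb' * nb')⁻¹) = 1
    rw [map_mul, map_mul, map_mul, map_inv, map_inv, map_mul, map_mul,
      show QuotientGroup.mk' N wb = 1 from hwN w hw, show QuotientGroup.mk' N wb' = 1 from hwN w' hw',
      one_mul, one_mul, ← map_inv, ← map_inv, ← map_mul, ← map_mul, ← map_mul]
    exact h3
  haveI : Fintype Q := Fintype.ofFinite Q
  obtain ⟨K, iF, jF, hK, he⟩ := h.exists_psl_two hP hc
  refine ⟨K, iF, jF, ?_, he⟩
  rw [hK, even_iff_two_dvd]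
  have h2 := orderOf_dvd_natCard (⟨x0, hx0P⟩ : (P : Subgroup Q))
  rwa [Subgroup.orderOf_mk, hx0] at h2

end CfsgLib.MinimalNonCA
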