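import Cfsg.Agent.Lib.MinimalNonCA.Structure
import Cfsg.Agent.Lib.Cores.FPFComplement
import Mathlib.GroupTheory.SemidirectProduct

/-!
A group with abelian centralisers of noncentral elements and an abelian self-centralising normal
subgroup, acting semiregularly with odd order on an abelian group: the action is abelian.
-/

set_option autoImplicit false
set_option linter.style.haveILetI false
set_option linter.unusedSectionVars false

namespace CfsgLib.MinimalNonCA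

open Subgroup

/-- Facts on groups of odd order acting without fixed points. -/
theorem fpf_facts {R V : Type*} [Group R] [Finite R] [Group V] [Finite V] [Nontrivial V]
    (φ : R →* MulAut V) (hfix : ∀ a : R, a ≠ 1 → ∀ v : V, φ a v = v → v = 1)
    (hodd : Odd (Nat.card R)) :
    ((∃ a : R, a ≠ 1) → ∃ c ∈ Subgroup.center R, c ≠ 1) ∧
      ∀ (r : ℕ) [Fact r.Prime] (c k : R), orderOf c = r → c * k = k * c →
        (∃ j, k ^ r ^ j = 1) → k ≠ 1 → c ∈ Subgroup.zpowers k := by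
  classical
  haveI : Finite (V ⋊[φ] R) := Finite.of_equiv (V × R) SemidirectProduct.equivProd.symm
  set W : Subgroup (V ⋊[φ] R) := (SemidirectProduct.inl (φ := φ)).range with hW
  set A : Subgroup (V ⋊[φ] R) := (SemidirectProduct.inr (φ := φ)).range with hA
  have hWne : W ≠ ⊥ := by
    obtain ⟨v, hv⟩ := exists_ne (1 : V)
    exact fun e => hv (SemidirectProduct.inl_injective
      (((Subgroup.eq_bot_iff_forall _).1 e _ ⟨v, rfl⟩).trans (map_one _).symm))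
  haveI : W.Normal := by
    rw [hW, SemidirectProduct.range_inl_eq_ker_rightHom]; infer_instance
  have hAW : A ≤ Subgroup.normalizer (W : Set (V ⋊[φ] R)) := by
    rw [Subgroup.normalizer_eq_top]; exact le_top
  have hfpf : ∀ a ∈ A, a ≠ 1 → W ⊓ Subgroup.centralizer ({a} : Set (V ⋊[φ] R)) = ⊥ := by
    rintro _ ⟨a, rfl⟩ ha
    rw [Subgroup.eq_bot_iff_forall]
    rintro _ ⟨⟨v, rfl⟩, hv⟩
    have h1 : (SemidirectProduct.inl (φ a v) : V ⋊[φ] R) = SemidirectProduct.inl v := by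
      rw [SemidirectProduct.inl_aut, map_inv, ← mem_centralizer_singleton_iff.1 hv,
        mul_inv_cancel_right]
    rw [hfix a (fun e => ha (by rw [e, map_one])) v (SemidirectProduct.inl_injective h1), map_one]
  let eA : R ≃* A := MonoidHom.ofInjective SemidirectProduct.inr_injective
  constructor
  · rintro ⟨a, ha⟩
    have hAne : A ≠ ⊥ := fun e => ha (SemidirectProduct.inr_injective
      (((Subgroup.eq_bot_iff_forall _).1 e _ ⟨a, rfl⟩).trans (map_one _).symm))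
    obtain ⟨c, hc, hc1⟩ := (Subgroup.bot_or_exists_ne_one (Subgroup.center A)).resolve_left
      (Cores.center_ne_bot_of_fpf hWne hAne hAW hfpf)
    refine ⟨eA.symm c, mem_center_iff.2 fun g => eA.injective ?_, fun e => hc1 ?_⟩
    · rw [map_mul, map_mul, eA.apply_symm_apply]; exact mem_center_iff.1 hc (eA g)
    · simpa using congrArg eA e
  · intro r _ c k hc hck hk hk1
    obtain ⟨j, hj⟩ := hk
    set X := Subgroup.closure ({c, k} : Set R) with hX
    have hcomm : X ≤ Subgroup.centralizer (X : Set R) := by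
      rw [hX, Subgroup.centralizer_closure, Subgroup.closure_le]
      rintro a (rfl | rfl) <;> rintro e (rfl | rfl) <;> first | rfl | exact hck | exact hck.symm
    haveI : IsMulCommutative X :=
      ⟨⟨fun a b => Subtype.ext (Subgroup.mem_centralizer_iff.1 (hcomm b.2) a a.2)⟩⟩
    have hXp : IsPGroup r X := by
      intro x
      refine ⟨j + 1, ?_⟩
      let f : X →* X := MonoidHom.mk' (fun x => x ^ r ^ (j + 1)) fun a b =>
        (show Commute a b from IsMulCommutative.is_comm.comm a b).mul_pow _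
      have hle : X ≤ (f.ker.map X.subtype) := by
        conv_lhs => rw [hX]
        rw [Subgroup.closure_le]
        rintro a (rfl | rfl)
        · exact ⟨⟨a, subset_closure (Set.mem_insert _ _)⟩, Subtype.ext (by
            show a ^ r ^ (j + 1) = 1
            rw [pow_succ', pow_mul, show a ^ r = 1 from hc ▸ pow_orderOf_eq_one a, one_pow]), rfl⟩
        · exact ⟨⟨a, subset_closure (Set.mem_insert_of_mem _ rfl)⟩, Subtype.ext (by
            show a ^ r ^ (j + 1) = 1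
            rw [pow_succ, pow_mul, hj, one_pow]), rfl⟩
      obtain ⟨y, hy, hye⟩ := hle x.2
      rw [← (Subtype.ext hye : y = x)]
      exact hy
    set X' := X.map (SemidirectProduct.inr (φ := φ)) with hX'
    have hX'A : X' ≤ A := Subgroup.map_le_range _ _
    haveI hcyc : IsCyclic X' := by
      rcases Cores.isCyclic_or_quaternion_of_fpf (hXp.map _) hWne (hX'A.trans hAW)
        (fun a ha h1 => hfpf a (hX'A ha) h1) with h | ⟨rfl, -⟩
      · exact h
      · exfalso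
        refine (Nat.not_even_iff_odd.2 hodd) (even_iff_two_dvd.2 ?_)
        exact hc ▸ orderOf_dvd_natCard c
    haveI : IsCyclic X := isCyclic_of_injective
      (X.equivMapOfInjective _ (SemidirectProduct.inr_injective (φ := φ))).toMonoidHom
      (X.equivMapOfInjective _ (SemidirectProduct.inr_injective (φ := φ))).injective
    have hkd : r ∣ orderOf k := by
      obtain ⟨i, -, hi⟩ := (Nat.dvd_prime_pow Fact.out).1 (orderOf_dvd_of_pow_eq_one hj)
      rcases i with _ | i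
      · exact absurd (orderOf_eq_one_iff.1 (by simpa using hi)) hk1
      · rw [hi]; exact dvd_pow_self r (Nat.succ_ne_zero i)
    have h1 := CfsgLib.BGAppendix.eq_of_card_eq_of_le_cyclic X (Subgroup.zpowers c)
      (Subgroup.zpowers (k ^ (orderOf k / r))) inferInstance
      (zpowers_le.2 (subset_closure (Set.mem_insert _ _)))
      (zpowers_le.2 (X.pow_mem (subset_closure (Set.mem_insert_of_mem _ rfl)) _))
      (by rw [Nat.card_zpowers, Nat.card_zpowers, hc,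
            orderOf_pow_orderOf_div (orderOf_pos k).ne' hkd])
    have h2 : Subgroup.zpowers c ≤ Subgroup.zpowers k := by
      rw [h1]; exact zpowers_le.2 (pow_mem (mem_zpowers k) _)
    exact h2 (mem_zpowers c)

variable {L : Type*} [Group L] [Finite L]

/-- The outer action on an abelian self-centralising normal subgroup is abelian. -/
theorem commutator_mem_of_semiregular (hca : ProperCA L) {H D : Subgroup L} (hH : H ≠ ⊤)
    (hDH : D ≤ H) (hDn : ∀ h ∈ H, ∀ d ∈ D, h * d * h⁻¹ ∈ D)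
    (hDc : ∀ a ∈ D, ∀ b ∈ D, a * b = b * a)
    (hCD : ∀ h ∈ H, (∀ d ∈ D, h * d = d * h) → h ∈ D)
    {V : Type*} [Group V] [Finite V] [Nontrivial V] (φ : H →* MulAut V)
    (hker : ∀ h : H, φ h = 1 ↔ (h : L) ∈ D)
    (hfix : ∀ h : H, (h : L) ∉ D → ∀ v : V, φ h v = v → v = 1)
    (hodd : Odd (Nat.card φ.range)) :
    ∀ a ∈ H, ∀ b ∈ H, a * b * a⁻¹ * b⁻¹ ∈ D := by
  classical
  set Z0 := D ⊓ Subgroup.centralizer (H : Set L) with hZ0
  have hz : ∀ z ∈ Z0, ∀ h ∈ H, h * z = z * h := fun z hz h hh => mem_centralizer_iff.1 hz.2 h hh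
  have hcd : ∀ d ∈ D, ∀ h ∈ H, h ∉ D → h * d = d * h → d ∈ Z0 := by
    intro d hd h hh hhD hhd
    refine ⟨hd, mem_centralizer_iff.2 fun k hk => ?_⟩
    obtain ⟨e, he, hne⟩ : ∃ e ∈ D, h * e ≠ e * h := by
      by_contra hcon
      push Not at hcon
      exact hhD (hCD h hh hcon)
    exact hca H hH d (hDH hd) h hh e (hDH he) hhd (hDc e he d hd) hne k hk
  by_cases h1 : ∃ d ∈ D, d ∉ Z0 ∧ ∀ h ∈ H, h * d * h⁻¹ * d⁻¹ ∈ Z0
  · obtain ⟨d, hd, hdZ, hall⟩ := h1
    intro a ha b hb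
    by_contra hc
    refine hdZ (hcd d hd _ (mul_mem (mul_mem (mul_mem ha hb) (inv_mem ha)) (inv_mem hb)) hc ?_)
    have za := hall a ha; have zb := hall b hb
    set z := a * d * a⁻¹ * d⁻¹ with hzd
    set w := b * d * b⁻¹ * d⁻¹ with hwd
    have ea : a * d * a⁻¹ = z * d := by rw [hzd]; group
    have eb : b * d * b⁻¹ = w * d := by rw [hwd]; group
    have eai : a⁻¹ * d * a = z⁻¹ * d := by
      have h1 : a⁻¹ * (z * d) * a = d := by rw [← ea]; group
      calc a⁻¹ * d * a = a⁻¹ * (z⁻¹ * (z * d)) * a := by group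
        _ = z⁻¹ * (a⁻¹ * (z * d) * a) := by
          rw [← mul_assoc a⁻¹, hz _ (inv_mem za) a⁻¹ (inv_mem ha)]; group
        _ = _ := by rw [h1]
    have ebi : b⁻¹ * d * b = w⁻¹ * d := by
      have h1 : b⁻¹ * (w * d) * b = d := by rw [← eb]; group
      calc b⁻¹ * d * b = b⁻¹ * (w⁻¹ * (w * d)) * b := by group
        _ = w⁻¹ * (b⁻¹ * (w * d) * b) := by
          rw [← mul_assoc b⁻¹, hz _ (inv_mem zb) b⁻¹ (inv_mem hb)]; group
        _ = _ := by rw [h1]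
    rw [← mul_inv_eq_iff_eq_mul]
    calc a * b * a⁻¹ * b⁻¹ * d * (a * b * a⁻¹ * b⁻¹)⁻¹
        = a * (b * (a⁻¹ * (b⁻¹ * d * b) * a) * b⁻¹) * a⁻¹ := by group
      _ = a * (b * ((a⁻¹ * w⁻¹) * d * a) * b⁻¹) * a⁻¹ := by rw [ebi]; group
      _ = a * (b * (w⁻¹ * (a⁻¹ * d * a)) * b⁻¹) * a⁻¹ := by
          rw [hz _ (inv_mem zb) a⁻¹ (inv_mem ha)]; group
      _ = a * ((b * (w⁻¹ * z⁻¹)) * d * b⁻¹) * a⁻¹ := by rw [eai]; group
      _ = a * ((w⁻¹ * z⁻¹) * (b * d * b⁻¹)) * a⁻¹ := by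
          rw [hz _ (mul_mem (inv_mem zb) (inv_mem za)) b hb]; group
      _ = a * (w⁻¹ * (z⁻¹ * w) * d) * a⁻¹ := by rw [eb]; group
      _ = a * (z⁻¹ * d) * a⁻¹ := by
          rw [hDc z⁻¹ (inv_mem za.1) w zb.1]; group
      _ = z⁻¹ * (a * d * a⁻¹) := by rw [← mul_assoc, hz _ (inv_mem za) a ha]; group
      _ = d := by rw [ea]; group
  push Not at h1
  by_contra hcon
  push Not at hcon
  obtain ⟨a, ha, b, hb, hab⟩ := hcon
  let incl : φ.range →* MulAut V := φ.range.subtype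
  obtain ⟨hcen, hroot⟩ := fpf_facts incl (fun q hq v hv => by
    obtain ⟨_, k, rfl⟩ := q
    exact hfix k (fun e => hq (Subtype.ext ((hker k).2 e))) v hv) hodd
  obtain ⟨c1, hc1, hc1ne⟩ := hcen ⟨⟨φ ⟨a * b * a⁻¹ * b⁻¹,
    mul_mem (mul_mem (mul_mem ha hb) (inv_mem ha)) (inv_mem hb)⟩, ⟨_, rfl⟩⟩,
    fun e => hab ((hker _).1 (congrArg Subtype.val e))⟩
  obtain ⟨r, hr, hrd⟩ := Nat.exists_prime_and_dvd (fun e => hc1ne (orderOf_eq_one_iff.1 e))
  haveI := Fact.mk hr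
  set c := c1 ^ (orderOf c1 / r)
  have hcr : orderOf c = r := orderOf_pow_orderOf_div (orderOf_pos c1).ne' hrd
  obtain ⟨⟨_, h, rfl⟩, hce⟩ : ∃ q : φ.range, q = c := ⟨c, rfl⟩
  -- an `r`-element lifting a generator of `⟨c⟩`
  obtain ⟨m, hm, hord⟩ : ∃ m, ¬ r ∣ m ∧ orderOf h = r ^ (orderOf h).factorization r * m :=
    ⟨_, Nat.not_dvd_ordCompl hr (orderOf_pos h).ne', (Nat.ordProj_mul_ordCompl_eq_self _ _).symm⟩
  set e0 := (orderOf h).factorization r
  set c0 : H := h ^ m with hc0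
  have hc0p : c0 ^ r ^ e0 = 1 := by rw [hc0, ← pow_mul, mul_comm, ← hord, pow_orderOf_eq_one]
  set q0 : φ.range := ⟨φ c0, c0, rfl⟩
  have hq0 : q0 = c ^ m := by rw [← hce]; exact Subtype.ext (map_pow φ h m)
  have hq0r : orderOf q0 = r := by
    refine orderOf_eq_prime (by rw [hq0, ← pow_mul, mul_comm, pow_mul, ← hcr, pow_orderOf_eq_one,
      one_pow]) fun e => hm ?_
    rw [hq0] at e
    exact hcr ▸ orderOf_dvd_of_pow_eq_one e
  have hq0c : ∀ k : H, φ (k * c0) = φ (c0 * k) := fun k => by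
    have := mem_center_iff.1 (hq0 ▸ pow_mem (pow_mem hc1 _) _ : q0 ∈ Subgroup.center φ.range)
      ⟨φ k, k, rfl⟩
    rw [map_mul, map_mul]; exact congrArg Subtype.val this
  have hc0D : (c0 : L) ∉ D := fun e => by
    have : q0 = 1 := Subtype.ext ((hker c0).2 e)
    rw [this, orderOf_one] at hq0r
    exact hr.ne_one hq0r.symm
  have hcomD : ∀ k : H, (k : L) * c0 * (k : L)⁻¹ * (c0 : L)⁻¹ ∈ D := fun k => by
    refine (hker ⟨_, mul_mem (mul_mem (mul_mem k.2 c0.2) (inv_mem k.2)) (inv_mem c0.2)⟩).1 ?_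
    show φ (k * c0 * k⁻¹ * c0⁻¹) = 1
    rw [map_mul, map_mul, hq0c, map_mul, map_inv, map_inv, mul_inv_cancel_right, mul_inv_cancel]
  -- `c0` has no fixed points on `D / Z0`
  have hfixd : ∀ d ∈ D, (c0 : L) * d * (c0 : L)⁻¹ * d⁻¹ ∈ Z0 → d ∈ Z0 := by
    intro d hd hdz
    by_contra hdZ
    obtain ⟨k, hk, hk'⟩ := h1 d hd hdZ
    set y := k * d * k⁻¹ * d⁻¹
    have hy : y ∈ D := mul_mem (hDn k hk d hd) (inv_mem hd)
    refine hk' (hcd y hy c0 c0.2 hc0D ?_)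
    set e := k⁻¹ * c0 * k * (c0 : L)⁻¹ with hed
    have he : e ∈ D := by simpa [hed] using hcomD ⟨k⁻¹, inv_mem hk⟩
    set z := (c0 : L) * d * (c0 : L)⁻¹ * d⁻¹ with hzd
    have hkd : (c0 : L) * (k * d * k⁻¹) * (c0 : L)⁻¹ = z * (k * d * k⁻¹) := by
      calc (c0 : L) * (k * d * k⁻¹) * (c0 : L)⁻¹ = k * (e * (z * d) * e⁻¹) * k⁻¹ := by
            rw [hed, hzd]; group
        _ = (k * z) * d * k⁻¹ := by
            rw [hDc e he (z * d) (mul_mem hdz.1 hd), mul_inv_cancel_right]; group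
        _ = z * (k * d * k⁻¹) := by rw [hz z hdz k hk]; group
    rw [← mul_inv_eq_iff_eq_mul]
    calc (c0 : L) * y * (c0 : L)⁻¹
        = ((c0 : L) * (k * d * k⁻¹) * (c0 : L)⁻¹) * ((c0 : L) * d * (c0 : L)⁻¹)⁻¹ := by
          show (c0 : L) * (k * d * k⁻¹ * d⁻¹) * (c0 : L)⁻¹ = _
          group
      _ = z * (k * d * k⁻¹) * (z * d)⁻¹ := by rw [hkd, hzd]; group
      _ = y := by
          rw [hDc z hdz.1 _ (hDn k hk d hd), mul_inv_rev, hDc d⁻¹ (inv_mem hd) z⁻¹ (inv_mem hdz.1)]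
          show _ = k * d * k⁻¹ * d⁻¹
          group
  haveI : IsMulCommutative D := ⟨⟨fun x y => Subtype.ext (hDc x x.2 y y.2)⟩⟩
  let f : D →* D := MonoidHom.mk'
    (fun d => ⟨(c0 : L) * d * (c0 : L)⁻¹ * (d : L)⁻¹,
      mul_mem (hDn c0 c0.2 d d.2) (inv_mem d.2)⟩) fun x y => by
      apply Subtype.ext
      show (c0 : L) * (x * y : L) * (c0 : L)⁻¹ * (x * y : L)⁻¹ = _
      calc (c0 : L) * (x * y : L) * (c0 : L)⁻¹ * (x * y : L)⁻¹
          = (c0 * x * (c0 : L)⁻¹) * ((c0 * y * (c0 : L)⁻¹ * (y : L)⁻¹) * (x : L)⁻¹) := by group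
        _ = (c0 * x * (c0 : L)⁻¹) * ((x : L)⁻¹ * (c0 * y * (c0 : L)⁻¹ * (y : L)⁻¹)) := by
          rw [hDc _ (mul_mem (hDn c0 c0.2 y y.2) (inv_mem y.2)) _ (inv_mem x.2)]
        _ = _ := by simp only [Subgroup.coe_mul]; group
  set Zs := Z0.subgroupOf D
  haveI : Zs.Normal :=
    ⟨fun x hx y => by rwa [IsMulCommutative.is_comm.comm y x, mul_inv_cancel_right]⟩
  have hsurj : ∀ e ∈ D, ∃ d ∈ D, e * ((c0 : L) * d * (c0 : L)⁻¹ * d⁻¹)⁻¹ ∈ Z0 := by
    let g := (QuotientGroup.mk' Zs).comp f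
    have hgk : g.ker = Zs := by
      ext d
      rw [MonoidHom.mem_ker, MonoidHom.comp_apply]
      refine (QuotientGroup.eq_one_iff _).trans ⟨fun hd => hfixd d d.2 hd, fun hd => ?_⟩
      show (c0 : L) * d * (c0 : L)⁻¹ * (d : L)⁻¹ ∈ Z0
      rw [show (c0 : L) * (d : L) = (d : L) * c0 from hz _ hd c0 c0.2, mul_inv_cancel_right, mul_inv_cancel]
      exact one_mem _
    have hgt : g.range = ⊤ := Subgroup.eq_top_of_card_eq _ (by
      rw [← Subgroup.index_ker, hgk]; rfl)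
    intro e he
    obtain ⟨d, hd⟩ := (hgt ▸ mem_top _ : QuotientGroup.mk' Zs ⟨e, he⟩ ∈ g.range)
    refine ⟨d, d.2, ?_⟩
    have h2 : (f d)⁻¹ * ⟨e, he⟩ ∈ Zs := QuotientGroup.eq.1 hd
    rw [IsMulCommutative.is_comm.comm] at h2
    exact h2
  let K : Subgroup H :=
    { carrier := {k | (k : L) * c0 * (k : L)⁻¹ * (c0 : L)⁻¹ ∈ Z0}
      one_mem' := by simp [one_mem]
      mul_mem' := fun {x y} hx hy => by
        show (x * y : L) * c0 * (x * y : L)⁻¹ * (c0 : L)⁻¹ ∈ Z0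
        rw [show (x * y : L) * c0 * (x * y : L)⁻¹ * (c0 : L)⁻¹ =
          (x * (y * c0 * (y : L)⁻¹ * (c0 : L)⁻¹)) * (c0 * (x : L)⁻¹ * (c0 : L)⁻¹) by group,
          hz _ hy x x.2, mul_assoc]
        refine mul_mem hy ?_
        simpa [mul_assoc] using hx
      inv_mem' := fun {x} hx => by
        show ((x⁻¹ : H) : L) * c0 * ((x⁻¹ : H) : L)⁻¹ * (c0 : L)⁻¹ ∈ Z0
        rw [show ((x⁻¹ : H) : L) * c0 * ((x⁻¹ : H) : L)⁻¹ * (c0 : L)⁻¹ =
          (x : L)⁻¹ * ((x : L) * c0 * (x : L)⁻¹ * (c0 : L)⁻¹)⁻¹ * x by simp; group,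
          hz _ (inv_mem hx) _ (inv_mem x.2), inv_mul_cancel_right]
        exact inv_mem hx }
  let χ : K →* L := MonoidHom.mk' (fun k => ((k : H) : L) * c0 * ((k : H) : L)⁻¹ * (c0 : L)⁻¹)
    fun x y => by
      show (((x : H) : L) * ((y : H) : L)) * c0 * (((x : H) : L) * ((y : H) : L))⁻¹ * (c0 : L)⁻¹ = _
      have hy : ((y : H) : L) * c0 * ((y : H) : L)⁻¹ * (c0 : L)⁻¹ ∈ Z0 := y.2
      rw [show (((x : H) : L) * ((y : H) : L)) * c0 * (((x : H) : L) * ((y : H) : L))⁻¹ * (c0 : L)⁻¹ =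
        (((x : H) : L) * (((y : H) : L) * c0 * ((y : H) : L)⁻¹ * (c0 : L)⁻¹)) *
          (c0 * ((x : H) : L)⁻¹ * (c0 : L)⁻¹) by group, hz _ hy _ (x : H).2]
      have hx : ((x : H) : L) * c0 * ((x : H) : L)⁻¹ * (c0 : L)⁻¹ ∈ Z0 := x.2
      rw [hDc (((x : H) : L) * c0 * ((x : H) : L)⁻¹ * (c0 : L)⁻¹) hx.1 _ hy.1]
      group
  have hχr : ∀ k, χ k ^ r ^ e0 = 1 := fun k => by
    set z := χ k with hzk
    have hzc : Commute z (c0 : L) :=
      (hz z (k.2 : ((k : H) : L) * c0 * ((k : H) : L)⁻¹ * (c0 : L)⁻¹ ∈ Z0) c0 c0.2).symm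
    have e1 : ((k : H) : L) * c0 * ((k : H) : L)⁻¹ = z * c0 := by
      show _ = ((k : H) : L) * c0 * ((k : H) : L)⁻¹ * (c0 : L)⁻¹ * c0
      group
    have hcp : (c0 : L) ^ r ^ e0 = 1 := by rw [← SubmonoidClass.coe_pow, hc0p]; rfl
    have := congrArg (· ^ r ^ e0) e1
    simp only [conj_pow, hzc.mul_pow, hcp, mul_one, mul_inv_cancel] at this
    exact this.symm
  have hχ1 : ∀ k, χ k = 1 := by
    intro k
    obtain ⟨n, hn, hordk⟩ : ∃ n, ¬ r ∣ n ∧ orderOf k = r ^ (orderOf k).factorization r * n :=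
      ⟨_, Nat.not_dvd_ordCompl hr (orderOf_pos k).ne', (Nat.ordProj_mul_ordCompl_eq_self _ _).symm⟩
    set k1 := k ^ n with hk1
    have hk1p : k1 ^ r ^ (orderOf k).factorization r = 1 := by
      rw [hk1, ← pow_mul, mul_comm, ← hordk, pow_orderOf_eq_one]
    have hDK : ∀ y : K, ((y : H) : L) ∈ D → χ y = 1 := fun y hy => by
      have h2 : (c0 : L) * (y : H) * (c0 : L)⁻¹ * ((y : H) : L)⁻¹ ∈ Z0 := by
        have := Z0.inv_mem (y.2 : ((y : H) : L) * c0 * ((y : H) : L)⁻¹ * (c0 : L)⁻¹ ∈ Z0)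
        rw [show (c0 : L) * (y : H) * (c0 : L)⁻¹ * ((y : H) : L)⁻¹ =
          (((y : H) : L) * c0 * ((y : H) : L)⁻¹ * (c0 : L)⁻¹)⁻¹ by group]
        exact this
      show ((y : H) : L) * c0 * ((y : H) : L)⁻¹ * (c0 : L)⁻¹ = 1
      rw [← hz _ (hfixd _ hy h2) c0 c0.2, mul_inv_cancel_right, mul_inv_cancel]
    have h2 : χ k1 = 1 := by
      set qk : φ.range := ⟨φ (k1 : H), (k1 : H), rfl⟩
      by_cases hqk : qk = 1
      · exact hDK k1 ((hker _).1 (congrArg Subtype.val hqk))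
      have hmem := hroot r q0 qk hq0r (Subtype.ext (by
          show φ c0 * φ (k1 : H) = φ (k1 : H) * φ c0
          rw [← map_mul, ← map_mul, hq0c])) ⟨_, Subtype.ext (by
          show φ (k1 : H) ^ _ = 1
          rw [← map_pow, ← SubmonoidClass.coe_pow, hk1p]; simp)⟩ hqk
      obtain ⟨i, hi⟩ := mem_zpowers_iff.1 hmem
      have hc0K : c0 ∈ K := by show (c0 : L) * c0 * (c0 : L)⁻¹ * (c0 : L)⁻¹ ∈ Z0; simp [one_mem]
      set y : K := ⟨c0, hc0K⟩⁻¹ * k1 ^ i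
      have hy : ((y : H) : L) ∈ D := (hker _).1 (by
        show φ (c0⁻¹ * (k1 : H) ^ i) = 1
        have := congrArg Subtype.val hi
        simp only [Subgroup.coe_zpow] at this
        rw [map_mul, map_inv, map_zpow, this, inv_mul_cancel])
      have hyc : ((y : H) : L) * c0 = c0 * ((y : H) : L) := by
        have := hDK y hy
        rw [show χ y = ((y : H) : L) * c0 * ((y : H) : L)⁻¹ * (c0 : L)⁻¹ from rfl] at this
        rwa [mul_inv_eq_one, mul_inv_eq_iff_eq_mul] at this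
      -- `k1` commutes with `c0` as both commute modulo `Z0` and `c0` is a power of `k1`
      have hki : χ (k1 ^ i) = 1 := by
        have : χ (⟨c0, hc0K⟩ : K) = 1 := by
          show (c0 : L) * c0 * (c0 : L)⁻¹ * (c0 : L)⁻¹ = 1; group
        have h3 := hDK y hy
        rwa [map_mul, map_inv, this, inv_one, one_mul] at h3
      have hco : Commute ((k1 : H) : L) (((k1 : H) : L) ^ i) := (Commute.refl _).zpow_right i
      have hyz : ((y : H) : L) ∈ Z0 := hcd _ hy c0 c0.2 hc0D hyc.symm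
      have e2 : (c0 : L) = ((k1 : H) : L) ^ i * ((y : H) : L)⁻¹ := by
        simp [y]
      show ((k1 : H) : L) * c0 * ((k1 : H) : L)⁻¹ * (c0 : L)⁻¹ = 1
      have hcy : Commute ((k1 : H) : L) ((y : H) : L)⁻¹ := hz _ (inv_mem hyz) _ (k1 : H).2
      rw [e2, (hco.mul_right hcy).eq, mul_inv_cancel_right, mul_inv_cancel]
    rw [hk1, map_pow] at h2
    have hcop : (r ^ e0).Coprime n := ((hr.coprime_iff_not_dvd.2 hn).pow_left _)
    exact orderOf_eq_one_iff.1 (Nat.eq_one_of_dvd_coprimes hcop (orderOf_dvd_of_pow_eq_one (hχr k))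
      (orderOf_dvd_of_pow_eq_one h2))
  -- adjust `a` and `b` into `K`
  have hadj : ∀ x ∈ H, ∃ d ∈ D, ∃ hx : d * x ∈ H, (⟨d * x, hx⟩ : H) ∈ K := by
    intro x hx
    obtain ⟨d, hd, hde⟩ := hsurj _ (hcomD ⟨x, hx⟩)
    refine ⟨d, hd, mul_mem (hDH hd) hx, ?_⟩
    show d * x * c0 * (d * x)⁻¹ * (c0 : L)⁻¹ ∈ Z0
    set e := x * c0 * x⁻¹ * (c0 : L)⁻¹ with hed
    have heD : e ∈ D := hcomD ⟨x, hx⟩
    have hfd : (c0 : L) * d * (c0 : L)⁻¹ * d⁻¹ ∈ D := mul_mem (hDn c0 c0.2 d hd) (inv_mem hd)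
    have h5 : d * x * c0 * (d * x)⁻¹ * (c0 : L)⁻¹ =
        e * ((c0 : L) * d * (c0 : L)⁻¹ * d⁻¹)⁻¹ := by
      calc d * x * c0 * (d * x)⁻¹ * (c0 : L)⁻¹
          = (d * e) * (c0 * d⁻¹ * (c0 : L)⁻¹) := by rw [hed]; group
        _ = e * ((c0 : L) * d * (c0 : L)⁻¹ * d⁻¹)⁻¹ := by rw [hDc d hd e heD]; group
    rw [h5]
    exact hde
  obtain ⟨d, hd, hdH, hdK⟩ := hadj a ha
  obtain ⟨d', hd', hd'H, hd'K⟩ := hadj b hb
  have hcc : ∀ k : K, ((k : H) : L) * c0 = c0 * ((k : H) : L) := fun k => by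
    have h2 := hχ1 k
    rwa [show χ k = ((k : H) : L) * c0 * ((k : H) : L)⁻¹ * (c0 : L)⁻¹ from rfl, mul_inv_eq_one,
      mul_inv_eq_iff_eq_mul] at h2
  by_cases hne : (d * a) * (d' * b) = (d' * b) * (d * a)
  · refine hab ((hker ⟨_, mul_mem (mul_mem (mul_mem ha hb) (inv_mem ha)) (inv_mem hb)⟩).1 ?_)
    have h2 : φ ⟨d, hDH hd⟩ = 1 := (hker _).2 hd
    have h3 : φ ⟨d', hDH hd'⟩ = 1 := (hker _).2 hd'
    show φ (⟨a, ha⟩ * ⟨b, hb⟩ * ⟨a, ha⟩⁻¹ * ⟨b, hb⟩⁻¹) = 1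
    have h4 := congrArg φ (Subtype.ext hne :
      (⟨d, hDH hd⟩ * ⟨a, ha⟩) * (⟨d', hDH hd'⟩ * ⟨b, hb⟩) =
        (⟨d', hDH hd'⟩ * ⟨b, hb⟩) * (⟨d, hDH hd⟩ * (⟨a, ha⟩ : H)))
    simp only [map_mul, h2, h3, one_mul] at h4
    simp only [map_mul, map_inv, h4, mul_inv_cancel_right, mul_inv_cancel]
  · have hall := hca H hH c0 c0.2 _ hdH _ hd'H (hcc ⟨_, hdK⟩) (hcc ⟨_, hd'K⟩) hne
    exact hc0D (hCD _ c0.2 fun y hy => (hall y (hDH hy)).symm)

end CfsgLib.MinimalNonCA
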