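import Cfsg.Agent.Lib.MinimalNonCA.Central
import Cfsg.Agent.Lib.Involutions.BrauerSuzuki
import Cfsg.Agent.Lib.Cores.PerfectCore

/-!
Perfect groups all of whose proper subgroups have abelian centralisers of noncentral elements:
the centre of a nonabelian Sylow 2-subgroup is central.
-/

set_option autoImplicit false
set_option linter.style.haveILetI false
set_option linter.unusedSectionVars false

namespace CfsgLib.MinimalNonCA

open Subgroup

variable {L : Type*} [Group L] [Finite L]

local notation "Q" => L ⧸ Subgroup.center L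
local notation "pr" => QuotientGroup.mk' (Subgroup.center L)

/-- The preimage of the centraliser of the image of an element. -/
def wideCentralizer (x : L) : Subgroup L :=
  (Subgroup.centralizer ({pr x} : Set Q)).comap pr

theorem mem_wideCentralizer {x g : L} :
    g ∈ wideCentralizer x ↔ g * x * g⁻¹ * x⁻¹ ∈ Subgroup.center L := by
  rw [wideCentralizer, mem_comap, mem_centralizer_singleton_iff,
    ← QuotientGroup.eq_one_iff (g * x * g⁻¹ * x⁻¹)]
  show _ ↔ pr (g * x * g⁻¹ * x⁻¹) = 1
  rw [map_mul, map_mul, map_mul, map_inv, map_inv, mul_inv_eq_one, mul_inv_eq_iff_eq_mul]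

theorem centralizer_le_wideCentralizer (x : L) :
    Subgroup.centralizer ({x} : Set L) ≤ wideCentralizer x := fun g hg => by
  rw [mem_wideCentralizer, mem_centralizer_singleton_iff.1 hg, mul_inv_cancel_right, mul_inv_cancel]
  exact one_mem _

theorem wideCentralizer_ne_top (hp : commutator L = ⊤) {x : L} (hx : x ∉ Subgroup.center L) :
    wideCentralizer x ≠ ⊤ := by
  intro e
  apply hx
  let f : L →* Subgroup.center L := MonoidHom.mk'
    (fun g => ⟨g * x * g⁻¹ * x⁻¹, mem_wideCentralizer.1 (e ▸ mem_top g)⟩) fun g k => by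
    apply Subtype.ext
    show g * k * x * (g * k)⁻¹ * x⁻¹ = g * x * g⁻¹ * x⁻¹ * (k * x * k⁻¹ * x⁻¹)
    have hk := mem_center_iff.1 (mem_wideCentralizer.1 (e ▸ mem_top k : k ∈ wideCentralizer x))
    calc g * k * x * (g * k)⁻¹ * x⁻¹ = g * (k * x * k⁻¹ * x⁻¹) * x * g⁻¹ * x⁻¹ := by group
      _ = (k * x * k⁻¹ * x⁻¹) * g * x * g⁻¹ * x⁻¹ := by rw [hk g]
      _ = (k * x * k⁻¹ * x⁻¹) * (g * x * g⁻¹ * x⁻¹) := by group
      _ = _ := (hk _).symm
  refine mem_center_iff.2 fun g => ?_
  have e1 : g * x * g⁻¹ * x⁻¹ = 1 := congrArg Subtype.val (hom_eq_one_of_perfect hp f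
    (fun a b => Subtype.ext (mem_center_iff.1 (f b).2 ((f a : Subgroup.center L) : L))) g)
  rwa [mul_inv_eq_one, mul_inv_eq_iff_eq_mul] at e1

/-- A proper subgroup containing a noncentral element and two noncommuting elements centralising it
centralises it. -/
theorem le_centralizer_of_pair (hca : ProperCA L) {H : Subgroup L} (hH : H ≠ ⊤) {x u v : L}
    (hx : x ∈ H) (hu : u ∈ H) (hv : v ∈ H) (hux : u * x = x * u) (hvx : v * x = x * v)
    (huv : u * v ≠ v * u) : H ≤ Subgroup.centralizer ({x} : Set L) := fun g hg =>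
  mem_centralizer_singleton_iff.2 (hca H hH x hx u hu v hv hux hvx huv g hg)

/-- Solvable normal subgroups of the central quotient are trivial. -/
theorem eq_bot_of_solvable_normal (hp : commutator L = ⊤) (hca : ProperCA L) (M : Subgroup Q)
    [M.Normal] [Group.IsSolvable M] : M = ⊥ := by
  haveI : Group.IsSolvable (M.comap pr) := by
    let f : M.comap pr →* M := (pr).subgroupComap M
    haveI : Group.IsSolvable f.ker := Group.isSolvable_of_comm fun a b => Subtype.ext (Subtype.ext
      (Subgroup.mem_center_iff.1 ((QuotientGroup.eq_one_iff ((b : M.comap pr) : L)).1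
        (congrArg Subtype.val (show f (b : M.comap pr) = 1 from b.2))) ((a : M.comap pr) : L)))
    exact Group.isSolvable_of_ker_le_range f.ker.subtype f (by rw [Subgroup.range_subtype])
  rw [← Subgroup.map_comap_eq_self_of_surjective (QuotientGroup.mk'_surjective (Subgroup.center L)) M,
    eq_bot_iff]
  rintro _ ⟨g, hg, rfl⟩
  exact mem_bot.2 ((QuotientGroup.eq_one_iff g).2 (le_center_of_isSolvable hca hp _ hg))

theorem quot_center_eq_bot (hp : commutator L = ⊤) (hca : ProperCA L) :
    Subgroup.center Q = ⊥ := by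
  haveI : Group.IsSolvable (Subgroup.center Q) := Group.isSolvable_of_comm fun a b =>
    Subtype.ext (mem_center_iff.1 b.2 (a : Q))
  exact eq_bot_of_solvable_normal hp hca _

theorem quot_oddCore_eq_bot (hp : commutator L = ⊤) (hca : ProperCA L) :
    Cfsg.oddCore Q = ⊥ := by
  refine CfsgLib.Cores.oddCore_eq_bot_iff.2 fun M hM ho => ?_
  haveI := hM
  haveI : Group.IsSolvable M := Cfsg.Agent.S0205.result ho
  exact eq_bot_of_solvable_normal hp hca M

theorem quot_perfect (hp : commutator L = ⊤) : commutator Q = ⊤ := by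
  rw [_root_.commutator_def, ← Subgroup.map_top_of_surjective _
    (QuotientGroup.mk'_surjective (Subgroup.center L)), ← Subgroup.map_commutator,
    ← _root_.commutator_def, hp]

/-- The centraliser of a noncentral element with nonabelian centraliser is self-normalising. -/
theorem normalizer_le_centralizer (hp : commutator L = ⊤) (hca : ProperCA L) {x u v : L}
    (hx : x ∉ Subgroup.center L) (hux : u * x = x * u) (hvx : v * x = x * v) (huv : u * v ≠ v * u) :
    Subgroup.normalizer (Subgroup.centralizer ({x} : Set L) : Set L) ≤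
      Subgroup.centralizer ({x} : Set L) := by
  set M := Subgroup.centralizer ({x} : Set L) with hM
  have hxM : x ∈ M := mem_centralizer_singleton_iff.2 rfl
  have hne : Subgroup.normalizer (M : Set L) ≠ ⊤ := by
    intro e
    haveI hMn : M.Normal := Subgroup.normalizer_eq_top_iff.1 e
    let C : Subgroup L := M ⊓ Subgroup.centralizer (M : Set L)
    haveI : Group.IsSolvable C := Group.isSolvable_of_comm fun a b =>
      Subtype.ext (mem_centralizer_iff.1 b.2.2 a a.2.1)
    haveI : C.Normal := inferInstance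
    exact hx (le_center_of_isSolvable hca hp C ⟨hxM, mem_centralizer_iff.2 fun y hy =>
      mem_centralizer_singleton_iff.1 hy⟩)
  exact le_centralizer_of_pair hca hne (le_normalizer hxM)
    (le_normalizer (mem_centralizer_singleton_iff.2 hux))
    (le_normalizer (mem_centralizer_singleton_iff.2 hvx)) hux hvx huv

/-- A Sylow subgroup above `A` in which some element normalising `A` moves `t'`. -/
theorem exists_mover_sylow {T A D : Subgroup L} (hT : IsPGroup 2 T) (hAT : A ≤ T)
    (hTD : T ⊓ D ≤ A) (hTA : ¬ T ≤ A) :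
    ∃ n ∈ T, n ∈ Subgroup.normalizer (A : Set L) ∧ n ∉ D := by
  haveI : Fact (Nat.Prime 2) := ⟨Nat.prime_two⟩
  haveI := hT.isNilpotent
  have hlt : A.subgroupOf T < ⊤ := lt_top_iff_ne_top.2 fun e => hTA (subgroupOf_eq_top.1 e)
  obtain ⟨n, hnN, hnA⟩ :=
    SetLike.exists_of_lt (Group.normalizerCondition_of_isNilpotent _ hlt)
  refine ⟨n, n.2, ?_, fun hD => hnA (mem_subgroupOf.2 (hTD ⟨n.2, hD⟩))⟩
  refine mem_normalizer_of_forall fun s hs => ?_
  exact mem_subgroupOf.1 ((Subgroup.mem_normalizer_iff.1 hnN ⟨s, hAT hs⟩).1 (mem_subgroupOf.2 hs))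

/-- A conjugate of a Sylow subgroup inside a subgroup containing it lies above a given 2-subgroup. -/
theorem exists_conj_sylow_above (S : Sylow 2 L) {M A : Subgroup L} (hS : (S : Subgroup L) ≤ M)
    (hA : A ≤ M) (hA2 : IsPGroup 2 A) :
    ∃ T : Subgroup L, T ≤ M ∧ A ≤ T ∧ IsPGroup 2 T ∧
      ∃ m : L, T = (S : Subgroup L).map (MulAut.conj m).toMonoidHom := by
  haveI : Fact (Nat.Prime 2) := ⟨Nat.prime_two⟩
  obtain ⟨R, hR⟩ := (hA2.comap_of_injective M.subtype M.subtype_injective).exists_le_sylow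
  obtain ⟨m, hm⟩ := MulAction.exists_smul_eq M (S.subtype hS) R
  refine ⟨(S : Subgroup L).map (MulAut.conj (m : L)).toMonoidHom, ?_, fun a ha => ?_,
    S.2.map _, m, rfl⟩
  · rintro _ ⟨s, hs, rfl⟩
    exact mul_mem (mul_mem m.2 (hS hs)) (inv_mem m.2)
  · have h1 : (⟨a, hA ha⟩ : M) ∈ (R : Subgroup M) := hR (show M.subtype ⟨a, hA ha⟩ ∈ A from ha)
    rw [← hm, Sylow.coe_subgroup_smul, Subgroup.pointwise_smul_def] at h1
    obtain ⟨s, hs, hse⟩ := h1
    exact ⟨s, hs, congrArg Subtype.val hse⟩

/-- **Isolation.** An element of the centre of a nonabelian Sylow 2-subgroup is central. -/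
theorem center_sylow_le (hp : commutator L = ⊤) (hca : ProperCA L) (S : Sylow 2 L) {u v : L}
    (huS : u ∈ (S : Subgroup L)) (hvS : v ∈ (S : Subgroup L)) (huv : u * v ≠ v * u) {x : L}
    (hxS : x ∈ (S : Subgroup L)) (hxc : ∀ s ∈ (S : Subgroup L), s * x = x * s) :
    x ∈ Subgroup.center L := by
  classical
  haveI : Fact (Nat.Prime 2) := ⟨Nat.prime_two⟩
  by_contra hx
  -- replace `x` by an element of order two modulo the centre
  obtain ⟨t, htS, htc, ht, ht2⟩ : ∃ t ∈ (S : Subgroup L), (∀ s ∈ (S : Subgroup L), s * t = t * s) ∧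
      t ∉ Subgroup.center L ∧ t * t ∈ Subgroup.center L := by
    obtain ⟨k, hk⟩ := S.isPGroup' ⟨x, hxS⟩
    have hk' : x ^ 2 ^ k = 1 := congrArg Subtype.val hk
    have hex : ∃ j, x ^ 2 ^ j ∈ Subgroup.center L := ⟨k, hk' ▸ one_mem _⟩
    have hj0 : Nat.find hex ≠ 0 := fun e => hx (by simpa [e] using Nat.find_spec hex)
    refine ⟨x ^ 2 ^ (Nat.find hex - 1), pow_mem hxS _, fun s hs =>
      ((show Commute s x from hxc s hs).pow_right _).eq, Nat.find_min hex (by omega), ?_⟩
    rw [← pow_add, ← two_mul, ← pow_succ', Nat.sub_add_cancel (by omega)]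
    exact Nat.find_spec hex
  set M := Subgroup.centralizer ({t} : Set L) with hM
  have hSM : (S : Subgroup L) ≤ M := fun s hs => mem_centralizer_singleton_iff.2 (htc s hs)
  have hNM := normalizer_le_centralizer hp hca ht (htc u huS) (htc v hvS) huv
  have hMne : M ≠ ⊤ := fun e => ht (mem_center_iff.2 fun g =>
    mem_centralizer_singleton_iff.1 (e ▸ mem_top g : g ∈ M))
  let P : Sylow 2 Q := S.mapSurjective (QuotientGroup.mk'_surjective (Subgroup.center L))
  have hprt : pr t ≠ 1 := fun e => ht ((QuotientGroup.eq_one_iff t).1 e)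
  have ho : orderOf (pr t) = 2 := orderOf_eq_prime (by
    rw [pow_two, ← map_mul]; exact (QuotientGroup.eq_one_iff _).2 ht2) hprt
  have hiso : ∀ g : Q, g * pr t * g⁻¹ ∈ P → g * pr t * g⁻¹ = pr t := by
    intro g hg
    obtain ⟨g, rfl⟩ := QuotientGroup.mk'_surjective _ g
    rw [← map_inv, ← map_mul, ← map_mul] at hg ⊢
    obtain ⟨s, hs, hse⟩ := (hg : pr (g * t * g⁻¹) ∈ (S : Subgroup L).map pr)
    set t1 := g * t * g⁻¹ with ht1
    suffices t1 = t by rw [this]
    have htt1 : t1 * t = t * t1 := by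
      have hz : s⁻¹ * t1 ∈ Subgroup.center L := QuotientGroup.eq.1 hse
      have hzM : s⁻¹ * t1 ∈ M := mem_centralizer_singleton_iff.2 (mem_center_iff.1 hz t).symm
      have h1 := mul_mem (hSM hs) hzM
      rw [mul_inv_cancel_left] at h1
      exact mem_centralizer_singleton_iff.1 h1
    set M' := Subgroup.centralizer ({t1} : Set L) with hM'
    set c := (MulAut.conj g).toMonoidHom with hc
    set S' := (S : Subgroup L).map c with hS'
    have hS'M' : S' ≤ M' := by
      rintro _ ⟨s, hs, rfl⟩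
      refine mem_centralizer_singleton_iff.2 ?_
      show g * s * g⁻¹ * (g * t * g⁻¹) = g * t * g⁻¹ * (g * s * g⁻¹)
      calc _ = g * (s * t) * g⁻¹ := by group
        _ = g * (t * s) * g⁻¹ := by rw [htc s hs]
        _ = _ := by group
    have ht1c : t1 ∉ Subgroup.center L := fun e => ht (by
      have := (inferInstance : (Subgroup.center L).Normal).conj_mem t1 e g⁻¹
      rwa [ht1, show g⁻¹ * (g * t * g⁻¹) * g⁻¹⁻¹ = t by group] at this)
    have hM'ne : M' ≠ ⊤ := fun e => ht1c (mem_center_iff.2 fun h =>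
      mem_centralizer_singleton_iff.1 (e ▸ mem_top h : h ∈ M'))
    by_cases hD : ∃ a b : L, a * b ≠ b * a ∧ (a * t = t * a ∧ a * t1 = t1 * a) ∧
        (b * t = t * b ∧ b * t1 = t1 * b)
    · obtain ⟨a, b, hab, ⟨hat, hat1⟩, hbt, hbt1⟩ := hD
      have h1 : M' ≤ M := le_centralizer_of_pair hca hM'ne
        (mem_centralizer_singleton_iff.2 htt1.symm) (mem_centralizer_singleton_iff.2 hat1)
        (mem_centralizer_singleton_iff.2 hbt1) hat hbt hab
      have h2 : M ≤ M' := le_centralizer_of_pair hca hMne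
        (mem_centralizer_singleton_iff.2 htt1) (mem_centralizer_singleton_iff.2 hat)
        (mem_centralizer_singleton_iff.2 hbt) hat1 hbt1 hab
      have hgN : g ∈ Subgroup.normalizer (M : Set L) := mem_normalizer_of_forall fun m hm => h1
        (mem_centralizer_singleton_iff.2 (by
          rw [ht1]
          calc g * m * g⁻¹ * (g * t * g⁻¹) = g * (m * t) * g⁻¹ := by group
            _ = g * (t * m) * g⁻¹ := by rw [mem_centralizer_singleton_iff.1 hm]
            _ = _ := by group))
      rw [ht1, mul_inv_eq_iff_eq_mul]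
      exact mem_centralizer_singleton_iff.1 (hNM hgN)
    · exfalso
      push Not at hD
      set D := M ⊓ M' with hDdef
      have hDc : ∀ a ∈ D, ∀ b ∈ D, a * b = b * a := fun a ha b hb => by
        by_contra hne
        exact hD a b hne
          ⟨mem_centralizer_singleton_iff.1 ha.1, mem_centralizer_singleton_iff.1 ha.2⟩
          (mem_centralizer_singleton_iff.1 hb.1) (mem_centralizer_singleton_iff.1 hb.2)
      haveI : IsMulCommutative D := ⟨⟨fun a b => Subtype.ext (hDc a a.2 b b.2)⟩⟩
      obtain ⟨A0⟩ : Nonempty (Sylow 2 D) := inferInstance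
      have hA0n : (A0 : Subgroup D).Normal :=
        ⟨fun a ha d => by rwa [IsMulCommutative.is_comm.comm d a, mul_inv_cancel_right]⟩
      set A := (A0 : Subgroup D).map D.subtype with hA
      have hA2 : IsPGroup 2 A := A0.2.map _
      have hmemA : ∀ a ∈ D, (∃ k, a ^ 2 ^ k = 1) → a ∈ A := by
        intro a ha hk
        obtain ⟨k, hk⟩ := hk
        have h1 : IsPGroup 2 (Subgroup.zpowers (⟨a, ha⟩ : D)) := by
          refine IsPGroup.iff_orderOf.2 fun y => ?_
          obtain ⟨m, _, hm⟩ := (Nat.dvd_prime_pow Nat.prime_two).1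
            ((Subgroup.orderOf_coe y ▸ orderOf_dvd_natCard y : orderOf (y : D) ∣ _).trans
              (by rw [Nat.card_zpowers]; exact orderOf_dvd_of_pow_eq_one (Subtype.ext hk)) :
              orderOf (y : D) ∣ 2 ^ k)
          exact ⟨m, by rw [← Subgroup.orderOf_coe, hm]⟩
        haveI := hA0n
        have h3 := h1.to_sup_of_normal_right A0.2
        have h4 := A0.is_maximal' h3 le_sup_right
        exact ⟨⟨a, ha⟩, h4 ▸ mem_sup_left (mem_zpowers _), rfl⟩
      have hAD : A ≤ D := map_subtype_le _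
      have hnonab : ∀ T : Subgroup L, IsPGroup 2 T →
          (∃ a ∈ T, ∃ b ∈ T, a * b ≠ b * a) → A ≤ T →
          ∃ n ∈ T, n ∈ Subgroup.normalizer (A : Set L) ∧ n ∉ D := by
        rintro T hT ⟨a, ha, b, hb, hab⟩ hAT
        refine exists_mover_sylow hT hAT (fun y hy => hmemA y hy.2 ?_) fun hle =>
          hab (hDc a (hAD (hle ha)) b (hAD (hle hb)))
        obtain ⟨k, hk⟩ := hT ⟨y, hy.1⟩
        exact ⟨k, congrArg Subtype.val hk⟩
      -- Sylow subgroups of `M` and `M'` above `A`
      obtain ⟨T, hTle, hTA, hT2, hTnc⟩ : ∃ T : Subgroup L, T ≤ M ∧ A ≤ T ∧ IsPGroup 2 T ∧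
          ∃ a ∈ T, ∃ b ∈ T, a * b ≠ b * a := by
        obtain ⟨T, h1, h2, h3, m, rfl⟩ := exists_conj_sylow_above S hSM (hAD.trans inf_le_left) hA2
        exact ⟨_, h1, h2, h3, _, ⟨u, huS, rfl⟩, _, ⟨v, hvS, rfl⟩, fun e => huv
          ((MulAut.conj m).injective (by simpa using e))⟩
      obtain ⟨T', hT'le, hT'A, hT'2, hT'nc⟩ : ∃ T : Subgroup L, T ≤ M' ∧ A ≤ T ∧ IsPGroup 2 T ∧
          ∃ a ∈ T, ∃ b ∈ T, a * b ≠ b * a := by
        let S1 : Sylow 2 L := g • S
        have hS1 : (S1 : Subgroup L) ≤ M' := by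
          rw [Sylow.coe_subgroup_smul, Subgroup.pointwise_smul_def]; exact hS'M'
        obtain ⟨T, h1, h2, h3, m, rfl⟩ := exists_conj_sylow_above S1 hS1 (hAD.trans inf_le_right) hA2
        refine ⟨_, h1, h2, h3, _, ⟨g * u * g⁻¹, ?_, rfl⟩, _, ⟨g * v * g⁻¹, ?_, rfl⟩, fun e => huv ?_⟩
        · rw [Sylow.coe_subgroup_smul, Subgroup.pointwise_smul_def]; exact ⟨u, huS, rfl⟩
        · rw [Sylow.coe_subgroup_smul, Subgroup.pointwise_smul_def]; exact ⟨v, hvS, rfl⟩
        · exact (MulAut.conj g).injective ((MulAut.conj m).injective (by simpa using e))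
      have htA : t ∈ A := hmemA t ⟨mem_centralizer_singleton_iff.2 rfl,
        mem_centralizer_singleton_iff.2 htt1.symm⟩ (by
          obtain ⟨k, hk⟩ := S.isPGroup' ⟨t, htS⟩; exact ⟨k, congrArg Subtype.val hk⟩)
      have ht1A : t1 ∈ A := hmemA t1 ⟨mem_centralizer_singleton_iff.2 htt1,
        mem_centralizer_singleton_iff.2 rfl⟩ (by
          obtain ⟨k, hk⟩ := S.isPGroup' ⟨t, htS⟩
          exact ⟨k, by rw [ht1, conj_pow, show t ^ 2 ^ k = 1 from congrArg Subtype.val hk, mul_one,
            mul_inv_cancel]⟩)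
      obtain ⟨n, hnT, hnN, hnD⟩ := hnonab T hT2 hTnc hTA
      obtain ⟨n', hn'T, hn'N, hn'D⟩ := hnonab T' hT'2 hT'nc hT'A
      set H := Subgroup.normalizer (A : Set L)
      have hH : H ≠ ⊤ := fun e => by
        haveI : A.Normal := Subgroup.normalizer_eq_top_iff.1 e
        haveI : Group.IsSolvable A := Group.isSolvable_of_comm fun a b =>
          Subtype.ext (hDc a (hAD a.2) b (hAD b.2))
        exact ht (le_center_of_isSolvable hca hp A htA)
      have hnt := mem_centralizer_singleton_iff.1 (hTle hnT)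
      have hn't := mem_centralizer_singleton_iff.1 (hT'le hn'T)
      have hle := le_centralizer_of_pair hca hH (le_normalizer htA) hnN (le_normalizer ht1A) hnt
        htt1 (fun e => hnD ⟨hTle hnT, mem_centralizer_singleton_iff.2 e⟩)
      exact hn'D ⟨hle hn'N, hT'le hn'T⟩
  have hc := Involutions.mem_center_of_isolated P ho hiso (quot_oddCore_eq_bot hp hca)
  rw [quot_center_eq_bot hp hca, mem_bot] at hc
  exact hprt hc

end CfsgLib.MinimalNonCA
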